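import Mathlib
import Cfsg.Agent.Lib.Helper22.HPDefs

/-!
# S4504 project (helper22), piece ETA: facts on the Gauss periods `eta p ζ t`
-/

set_option autoImplicit false
set_option linter.style.haveILetI false
set_option linter.unusedVariables false
set_option linter.unusedSectionVars false

namespace Cfsg.Agent.Lib.Helper31.HPT

open Cfsg Cfsg.Agent.Lib.Helper22.BFD Cfsg.Agent.Lib.Helper22.HPD
open scoped ComplexConjugate

universe u

theorem eta_aux_mem (p : ℕ) [Fact p.Prime] (a : ZMod p) : a ∈ Sq p ↔ a ≠ 0 ∧ IsSquare a := by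
  unfold Sq
  rw [Finset.mem_filter]
  simp

theorem eta_aux_mul (p : ℕ) [Fact p.Prime] {a b : ZMod p} (ha : a ∈ Sq p) (hb : b ∈ Sq p) :
    a * b ∈ Sq p := by
  rw [eta_aux_mem] at *
  exact ⟨mul_ne_zero ha.1 hb.1, ha.2.mul hb.2⟩

theorem eta_aux_inv (p : ℕ) [Fact p.Prime] {a : ZMod p} (ha : a ∈ Sq p) : a⁻¹ ∈ Sq p := by
  rw [eta_aux_mem] at *
  exact ⟨inv_ne_zero ha.1, isSquare_inv.mpr ha.2⟩

/-- the quotient of two nonzero non-squares is a square -/
theorem eta_aux_nsq_mul (p : ℕ) [Fact p.Prime] {c s : ZMod p} (hc0 : c ≠ 0) (hc : c ∉ Sq p)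
    (hs0 : s ≠ 0) (hs : s ∉ Sq p) : c * s⁻¹ ∈ Sq p := by
  rw [eta_aux_mem] at *
  have hc' : ¬ IsSquare c := fun h => hc ⟨hc0, h⟩
  have hs' : ¬ IsSquare s⁻¹ := fun h => hs ⟨hs0, isSquare_inv.mp h⟩
  refine ⟨mul_ne_zero hc0 (inv_ne_zero hs0), ?_⟩
  rw [← quadraticChar_one_iff_isSquare (mul_ne_zero hc0 (inv_ne_zero hs0)), map_mul,
    quadraticChar_neg_one_iff_not_isSquare.mpr hc',
    quadraticChar_neg_one_iff_not_isSquare.mpr hs']
  norm_num

/-- a square times a non-square is a non-square -/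
theorem eta_aux_sq_mul_nsq (p : ℕ) [Fact p.Prime] {a s : ZMod p} (ha : a ∈ Sq p)
    (hs : s ∉ Sq p) : a * s ∉ Sq p := by
  intro h
  apply hs
  have h1 := eta_aux_mul p (eta_aux_inv p ha) h
  have ha0 := ((eta_aux_mem p a).1 ha).1
  rwa [← mul_assoc, inv_mul_cancel₀ ha0, one_mul] at h1

/-- the nonzero elements are the squares together with the `s`-multiples of the squares -/
theorem eta_aux_split (p : ℕ) [Fact p.Prime] {M : Type*} [AddCommMonoid M] (s : ZMod p)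
    (hs0 : s ≠ 0) (hs : s ∉ Sq p) (F : ZMod p → M) :
    ∑ c ∈ Finset.univ.filter (fun c : ZMod p => c ≠ 0), F c =
      ∑ a ∈ Sq p, F a + ∑ a ∈ Sq p, F (a * s) := by
  classical
  have h1 : Finset.univ.filter (fun c : ZMod p => c ≠ 0) =
      Sq p ∪ (Finset.univ.filter (fun c : ZMod p => c ≠ 0 ∧ c ∉ Sq p)) := by
    ext c
    simp only [Finset.mem_filter, Finset.mem_univ, true_and, Finset.mem_union]
    constructor
    · intro hc
      by_cases h : c ∈ Sq p
      · exact Or.inl h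
      · exact Or.inr ⟨hc, h⟩
    · rintro (h | h)
      · exact ((eta_aux_mem p c).1 h).1
      · exact h.1
  have hdisj : Disjoint (Sq p) (Finset.univ.filter (fun c : ZMod p => c ≠ 0 ∧ c ∉ Sq p)) := by
    rw [Finset.disjoint_left]
    intro c hc hc'
    rw [Finset.mem_filter] at hc'
    exact hc'.2.2 hc
  rw [h1, Finset.sum_union hdisj]
  congr 1
  symm
  apply Finset.sum_nbij' (fun a => a * s) (fun c => c * s⁻¹)
  · intro a ha
    rw [Finset.mem_filter]
    exact ⟨Finset.mem_univ _, mul_ne_zero ((eta_aux_mem p a).1 ha).1 hs0,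
      eta_aux_sq_mul_nsq p ha hs⟩
  · intro c hc
    rw [Finset.mem_filter] at hc
    exact eta_aux_nsq_mul p hc.2.1 hc.2.2 hs0 hs
  · intro a ha
    show a * s * s⁻¹ = a
    rw [mul_assoc, mul_inv_cancel₀ hs0, mul_one]
  · intro c hc
    show c * s⁻¹ * s = c
    rw [mul_assoc, inv_mul_cancel₀ hs0, mul_one]
  · intro a ha
    rfl

theorem eta_aux_add (p : ℕ) [Fact p.Prime] (ζ : ℂ) (hζ : IsPrimitiveRoot ζ p) (x y : ZMod p) :
    ζ ^ (x + y).val = ζ ^ x.val * ζ ^ y.val :=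
  (AddChar.zmodChar p hζ.pow_eq_one).map_add_eq_mul x y

theorem eta_aux_conj_pow (p : ℕ) [Fact p.Prime] (ζ : ℂ) (hζ : IsPrimitiveRoot ζ p)
    (x : ZMod p) : conj (ζ ^ x.val) = ζ ^ (-x).val :=
  (AddChar.map_neg_eq_conj (AddChar.zmodChar p hζ.pow_eq_one) x).symm

theorem eta_aux_orth (p : ℕ) [Fact p.Prime] (ζ : ℂ) (hζ : IsPrimitiveRoot ζ p) (b : ZMod p) :
    ∑ t : ZMod p, ζ ^ (b * t).val = if b = 0 then (p : ℂ) else 0 := by
  have h := AddChar.sum_mulShift (R := ZMod p) (R' := ℂ) b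
    (AddChar.zmodChar_primitive_of_primitive_root p hζ)
  rw [ZMod.card] at h
  have h' : ∑ t : ZMod p, ζ ^ (b * t).val =
      ∑ x : ZMod p, (AddChar.zmodChar p hζ.pow_eq_one) (x * b) := by
    refine Finset.sum_congr rfl fun t _ => ?_
    rw [AddChar.zmodChar_apply, mul_comm]
  rw [h', h]
  split_ifs <;> simp

/-- conjugating a Gauss period -/
theorem eta_aux_conj (p : ℕ) [Fact p.Prime] (ζ : ℂ) (hζ : IsPrimitiveRoot ζ p) (t : ZMod p) :
    conj (eta p ζ t) = eta p ζ (-t) := by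
  unfold eta
  rw [map_sum]
  refine Finset.sum_congr rfl fun a _ => ?_
  rw [eta_aux_conj_pow p ζ hζ, mul_neg]

theorem eta_aux_parseval (p : ℕ) [Fact p.Prime] (ζ : ℂ) (hζ : IsPrimitiveRoot ζ p)
    (A B : Finset (ZMod p)) (u : ZMod p) :
    ∑ t : ZMod p, (∑ a ∈ A, ζ ^ (a * t).val) * conj (∑ b ∈ B, ζ ^ (b * (u * t)).val) =
      ∑ a ∈ A, ∑ b ∈ B, if a - b * u = 0 then (p : ℂ) else 0 := by
  calc ∑ t : ZMod p, (∑ a ∈ A, ζ ^ (a * t).val) * conj (∑ b ∈ B, ζ ^ (b * (u * t)).val)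
      = ∑ t : ZMod p, ∑ a ∈ A, ∑ b ∈ B, ζ ^ ((a - b * u) * t).val := by
        refine Finset.sum_congr rfl fun t _ => ?_
        rw [map_sum, Finset.sum_mul_sum]
        refine Finset.sum_congr rfl fun a _ => Finset.sum_congr rfl fun b _ => ?_
        rw [eta_aux_conj_pow p ζ hζ, ← eta_aux_add p ζ hζ]
        congr 2
        ring
    _ = ∑ a ∈ A, ∑ b ∈ B, ∑ t : ZMod p, ζ ^ ((a - b * u) * t).val := by
        rw [Finset.sum_comm]
        refine Finset.sum_congr rfl fun a _ => ?_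
        rw [Finset.sum_comm]
    _ = _ := by
        refine Finset.sum_congr rfl fun a _ => Finset.sum_congr rfl fun b _ => ?_
        exact eta_aux_orth p ζ hζ _

/-- invariance of the Gauss periods under multiplication by squares -/
theorem eta_aux_inv_sq (p : ℕ) [Fact p.Prime] (ζ : ℂ) (k : ZMod p) (hk : k ∈ Sq p)
    (t : ZMod p) : eta p ζ (k * t) = eta p ζ t := by
  have hk0 := ((eta_aux_mem p k).1 hk).1
  unfold eta
  apply Finset.sum_nbij' (fun a => a * k) (fun b => b * k⁻¹)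
  · intro a ha
    exact eta_aux_mul p ha hk
  · intro b hb
    exact eta_aux_mul p hb (eta_aux_inv p hk)
  · intro a ha
    show a * k * k⁻¹ = a
    rw [mul_assoc, mul_inv_cancel₀ hk0, mul_one]
  · intro b hb
    show b * k⁻¹ * k = b
    rw [mul_assoc, inv_mul_cancel₀ hk0, mul_one]
  · intro a ha
    show ζ ^ (a * (k * t)).val = ζ ^ (a * k * t).val
    rw [mul_assoc]

theorem eta_aux_card_ne (p : ℕ) [Fact p.Prime] :
    (Finset.univ.filter (fun c : ZMod p => c ≠ 0)).card = p - 1 := by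
  classical
  rw [Finset.filter_ne' Finset.univ (0 : ZMod p), Finset.card_erase_of_mem (Finset.mem_univ _),
    Finset.card_univ, ZMod.card]

theorem eta_aux_exists_nsq (p : ℕ) [Fact p.Prime] (hp2 : p ≠ 2) :
    ∃ s : ZMod p, s ≠ 0 ∧ s ∉ Sq p := by
  have hF : ringChar (ZMod p) ≠ 2 := by rw [ZMod.ringChar_zmod_n]; exact hp2
  obtain ⟨s, hs⟩ := FiniteField.exists_nonsquare hF
  refine ⟨s, ?_, fun h => hs ((eta_aux_mem p s).1 h).2⟩
  rintro rfl
  exact hs ⟨0, by simp⟩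

theorem eta_aux_card (p : ℕ) [Fact p.Prime] (hp2 : p ≠ 2) : (Sq p).card = (p - 1) / 2 := by
  obtain ⟨s, hs0, hs⟩ := eta_aux_exists_nsq p hp2
  have h := eta_aux_split p s hs0 hs (fun _ => (1 : ℕ))
  simp only [Finset.sum_const, smul_eq_mul, mul_one] at h
  rw [eta_aux_card_ne] at h
  omega

/-- PIECE ETA (facts on Gauss periods; pure number theory / finite Fourier analysis) -/
theorem eta_facts (p : ℕ) [Fact p.Prime] (hp2 : p ≠ 2) (ζ : ℂ) (hζ : IsPrimitiveRoot ζ p) :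
    (Sq p).card = (p - 1) / 2 ∧ eta p ζ 0 = (((p - 1) / 2 : ℕ) : ℂ) ∧
    (∑ t : ZMod p, eta p ζ t = 0) ∧
    (∀ k ∈ Sq p, ∀ t : ZMod p, eta p ζ (k * t) = eta p ζ t) ∧
    (∑ t : ZMod p, eta p ζ t * conj (eta p ζ t) = ((p * ((p - 1) / 2) : ℕ) : ℂ)) ∧
    (∀ s : ZMod p, s ≠ 0 → s ∉ Sq p →
      (∑ t : ZMod p, eta p ζ t * conj (eta p ζ (s * t)) = 0) ∧
      ∀ t : ZMod p, t ≠ 0 → eta p ζ t + eta p ζ (s * t) = -1 ∧
        ‖eta p ζ t - eta p ζ (s * t)‖ ^ 2 = (p : ℝ)) := by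
  have hp : p.Prime := Fact.out
  have hp3 : 3 ≤ p := by
    have := hp.two_le
    omega
  have hodd : p % 2 = 1 := by
    rcases hp.eq_two_or_odd with h | h
    · exact absurd h hp2
    · exact h
  have hcard := eta_aux_card p hp2
  have h0 : eta p ζ 0 = (((p - 1) / 2 : ℕ) : ℂ) := by
    unfold eta
    simp [hcard]
  have hsum0 : ∑ t : ZMod p, eta p ζ t = 0 := by
    unfold eta
    rw [Finset.sum_comm]
    apply Finset.sum_eq_zero
    intro a ha
    rw [eta_aux_orth p ζ hζ a, if_neg ((eta_aux_mem p a).1 ha).1]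
  have hinv : ∀ k ∈ Sq p, ∀ t : ZMod p, eta p ζ (k * t) = eta p ζ t :=
    fun k hk t => eta_aux_inv_sq p ζ k hk t
  have hpars : ∑ t : ZMod p, eta p ζ t * conj (eta p ζ t) = ((p * ((p - 1) / 2) : ℕ) : ℂ) := by
    have h := eta_aux_parseval p ζ hζ (Sq p) (Sq p) 1
    simp only [one_mul, mul_one, sub_eq_zero] at h
    have h' : ∑ t : ZMod p, eta p ζ t * conj (eta p ζ t) =
        ∑ a ∈ Sq p, ∑ b ∈ Sq p, if a = b then (p : ℂ) else 0 := h
    rw [h']
    have h2 : ∀ a ∈ Sq p, (∑ b ∈ Sq p, if a = b then (p : ℂ) else 0) = (p : ℂ) := by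
      intro a ha
      rw [Finset.sum_ite_eq, if_pos ha]
    rw [Finset.sum_congr rfl h2, Finset.sum_const, hcard]
    push_cast
    ring
  refine ⟨hcard, h0, hsum0, hinv, hpars, ?_⟩
  intro s hs0 hs
  have h6a : ∑ t : ZMod p, eta p ζ t * conj (eta p ζ (s * t)) = 0 := by
    have h := eta_aux_parseval p ζ hζ (Sq p) (Sq p) s
    have h' : ∑ t : ZMod p, eta p ζ t * conj (eta p ζ (s * t)) =
        ∑ a ∈ Sq p, ∑ b ∈ Sq p, if a - b * s = 0 then (p : ℂ) else 0 := h
    rw [h']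
    apply Finset.sum_eq_zero
    intro a ha
    apply Finset.sum_eq_zero
    intro b hb
    rw [if_neg]
    intro hab
    rw [sub_eq_zero] at hab
    exact eta_aux_sq_mul_nsq p hb hs (hab ▸ ha)
  refine ⟨h6a, ?_⟩
  -- the function `D t = eta t - eta (s t)`
  obtain ⟨D, hD⟩ : ∃ D : ZMod p → ℂ, ∀ t, D t = eta p ζ t - eta p ζ (s * t) :=
    ⟨_, fun _ => rfl⟩
  have hss : s * s ∈ Sq p := (eta_aux_mem p _).2 ⟨mul_ne_zero hs0 hs0, ⟨s, rfl⟩⟩
  have hD0 : D 0 = 0 := by rw [hD, mul_zero, sub_self]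
  have hDk : ∀ k ∈ Sq p, ∀ t, D (k * t) = D t := by
    intro k hk t
    rw [hD, hD, hinv k hk t, mul_left_comm, hinv k hk (s * t)]
  have hDs : ∀ t, D (s * t) = -D t := by
    intro t
    rw [hD, hD, ← mul_assoc, hinv (s * s) hss t]
    ring
  -- the sum of the squares of the norms
  have hsumC : ∑ t : ZMod p, D t * conj (D t) = ((2 * (p * ((p - 1) / 2)) : ℕ) : ℂ) := by
    have e1 : ∀ t : ZMod p, D t * conj (D t) =
        eta p ζ t * conj (eta p ζ t) - eta p ζ t * conj (eta p ζ (s * t)) -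
          conj (eta p ζ t * conj (eta p ζ (s * t))) +
          eta p ζ (s * t) * conj (eta p ζ (s * t)) := by
      intro t
      rw [hD, map_sub, map_mul, Complex.conj_conj]
      ring
    rw [Finset.sum_congr rfl fun t _ => e1 t, Finset.sum_add_distrib, Finset.sum_sub_distrib,
      Finset.sum_sub_distrib, ← map_sum, h6a, hpars, map_zero]
    have e2 : ∑ t : ZMod p, eta p ζ (s * t) * conj (eta p ζ (s * t)) =
        ∑ t : ZMod p, eta p ζ t * conj (eta p ζ t) :=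
      Equiv.sum_comp (Equiv.mulLeft₀ s hs0) (fun t => eta p ζ t * conj (eta p ζ t))
    rw [e2, hpars]
    push_cast
    ring
  have hsumR : ∑ t : ZMod p, ‖D t‖ ^ 2 = ((2 * (p * ((p - 1) / 2)) : ℕ) : ℝ) := by
    have e3 : ((∑ t : ZMod p, ‖D t‖ ^ 2 : ℝ) : ℂ) = ((2 * (p * ((p - 1) / 2)) : ℕ) : ℂ) := by
      rw [← hsumC]
      push_cast
      refine Finset.sum_congr rfl fun t _ => ?_
      rw [Complex.mul_conj']
    exact_mod_cast e3
  -- decomposition of the sum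
  have hdec : ∑ t : ZMod p, ‖D t‖ ^ 2 = 2 * (((p - 1) / 2 : ℕ) : ℝ) * ‖D 1‖ ^ 2 := by
    classical
    have e4 : ∑ t : ZMod p, ‖D t‖ ^ 2 =
        ‖D 0‖ ^ 2 + ∑ c ∈ Finset.univ.filter (fun c : ZMod p => c ≠ 0), ‖D c‖ ^ 2 := by
      rw [Finset.filter_ne' Finset.univ (0 : ZMod p)]
      exact (Finset.add_sum_erase Finset.univ (fun t => ‖D t‖ ^ 2) (Finset.mem_univ 0)).symm
    rw [e4, hD0, eta_aux_split p s hs0 hs (fun c => ‖D c‖ ^ 2)]
    have e5 : ∀ a ∈ Sq p, ‖D a‖ ^ 2 = ‖D 1‖ ^ 2 := by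
      intro a ha
      have := hDk a ha 1
      rw [mul_one] at this
      rw [this]
    have e6 : ∀ a ∈ Sq p, ‖D (a * s)‖ ^ 2 = ‖D 1‖ ^ 2 := by
      intro a ha
      have h1 := hDs 1
      rw [mul_one] at h1
      rw [hDk a ha s, h1, norm_neg]
    rw [Finset.sum_congr rfl e5, Finset.sum_congr rfl e6, Finset.sum_const, hcard]
    simp only [nsmul_eq_mul, norm_zero]
    ring
  have hD1 : ‖D 1‖ ^ 2 = (p : ℝ) := by
    rw [hsumR] at hdec
    have he0 : (0 : ℝ) < (((p - 1) / 2 : ℕ) : ℝ) := by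
      have : 0 < (p - 1) / 2 := by omega
      exact_mod_cast this
    push_cast at hdec
    have h7 : (2 * (((p - 1) / 2 : ℕ) : ℝ)) * (p : ℝ) =
        (2 * (((p - 1) / 2 : ℕ) : ℝ)) * ‖D 1‖ ^ 2 := by
      linarith
    have h8 : (2 * (((p - 1) / 2 : ℕ) : ℝ)) ≠ 0 := by positivity
    exact (mul_left_cancel₀ h8 h7).symm
  intro t ht
  constructor
  · -- eta t + eta (s t) = -1
    have h := eta_aux_split p s hs0 hs (fun c => ζ ^ (c * t).val)
    have e7 : ∑ c ∈ Finset.univ.filter (fun c : ZMod p => c ≠ 0), ζ ^ (c * t).val = -1 := by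
      classical
      have e8 := Finset.add_sum_erase Finset.univ (fun c : ZMod p => ζ ^ (c * t).val)
        (Finset.mem_univ 0)
      have e9 : ∑ c : ZMod p, ζ ^ (c * t).val = 0 := by
        have := eta_aux_orth p ζ hζ t
        rw [if_neg ht] at this
        rw [← this]
        refine Finset.sum_congr rfl fun c _ => ?_
        rw [mul_comm]
      rw [e9] at e8
      rw [Finset.filter_ne' Finset.univ (0 : ZMod p)]
      simp only [zero_mul, ZMod.val_zero, pow_zero] at e8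
      linear_combination e8
    rw [e7] at h
    have e10 : eta p ζ t + eta p ζ (s * t) =
        ∑ a ∈ Sq p, ζ ^ (a * t).val + ∑ a ∈ Sq p, ζ ^ (a * s * t).val := by
      unfold eta
      congr 1
      refine Finset.sum_congr rfl fun a _ => ?_
      rw [mul_assoc]
    rw [e10, ← h]
  · -- the norm
    rw [← hD t]
    by_cases htS : t ∈ Sq p
    · have := hDk t htS 1
      rw [mul_one] at this
      rw [this, hD1]
    · have h1 := eta_aux_nsq_mul p ht htS hs0 hs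
      have h2 := hDk (t * s⁻¹) h1 s
      rw [mul_assoc, inv_mul_cancel₀ hs0, mul_one] at h2
      have h3 := hDs 1
      rw [mul_one] at h3
      rw [h2, h3, norm_neg, hD1]

end Cfsg.Agent.Lib.Helper31.HPT
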