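import Mathlib
import Cfsg.Agent.Lib.Helper26.GrossDefs
import Cfsg.Agent.Lib.Helper26.FpfBasic
import Cfsg.Agent.Lib.Helper30.Basic

set_option autoImplicit false

open scoped commutatorElement

universe u

open Cfsg.Agent.Lib.Helper26

namespace Cfsg.Agent.Lib.Helper31

/-- powers of the induced automorphism on a quotient -/
theorem gross_quotAut_pow_mk {G : Type u} [Group G] (σ : MulAut G) (N : Subgroup G) [N.Normal]
    (h : N.map (σ : G →* G) = N) (k : ℕ) (g : G) :
    ((quotAut σ N h : MulAut (G ⧸ N)) ^ k) (QuotientGroup.mk g) =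
      QuotientGroup.mk ((σ ^ k) g) := by
  induction k generalizing g with
  | zero => rfl
  | succ k ih =>
    rw [pow_succ, pow_succ, MulAut.mul_apply, MulAut.mul_apply, quotAut_mk, ih]

theorem gross_chain {p : ℕ} (hp : p.Prime) (hT : GrossTStmt.{u} p)
    {G : Type u} [Group G] [Finite G] (hG : Group.IsSolvable G) (σ : MulAut G) (n : ℕ)
    (hσ : σ ^ p ^ n = 1) (hfpf : ∀ g : G, σ g = g → g = 1) :
    ∃ F : Fin (n + 1) → Subgroup G, F 0 = ⊥ ∧ F (Fin.last n) = ⊤ ∧ Monotone F ∧
      (∀ i, (F i).Normal) ∧
      ∀ i : Fin n, ∃ k : ℕ, (F i.succ).lowerCentralSeries k ≤ F i.castSucc := by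
  induction n generalizing G with
  | zero =>
    have h1 : σ = 1 := by simpa using hσ
    have htriv : ∀ g : G, g = 1 := fun g => hfpf g (by rw [h1]; rfl)
    refine ⟨fun _ => ⊥, rfl, ?_, fun _ _ _ => le_rfl, fun _ => inferInstance, fun i => i.elim0⟩
    ext g
    simp [htriv g]
  | succ n ih =>
    have hFn : (Cfsg.fittingSubgroup G).Normal := Cfsg.Agent.Lib.Helper30.fitting_normal
    have hFc : (Cfsg.fittingSubgroup G).Characteristic :=
      Cfsg.Agent.Lib.Helper30.fitting_characteristic
    have hmap : (Cfsg.fittingSubgroup G).map (σ : G →* G) = Cfsg.fittingSubgroup G :=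
      (Subgroup.characteristic_iff_map_eq.mp hFc) σ
    have hnil : Group.IsNilpotent (Cfsg.fittingSubgroup G) :=
      Cfsg.Agent.Lib.Helper30.fitting_nilpotent
    obtain ⟨k0, hk0⟩ := (Subgroup.isNilpotent_iff_lowerCentralSeries _).mp hnil
    have hfpf' : ∀ x : G ⧸ Cfsg.fittingSubgroup G,
        (quotAut σ (Cfsg.fittingSubgroup G) hmap : MulAut (G ⧸ Cfsg.fittingSubgroup G)) x = x →
          x = 1 :=
      quotAut_fpf σ (Cfsg.fittingSubgroup G) hmap hfpf
    have hpow : (quotAut σ (Cfsg.fittingSubgroup G) hmap : MulAut (G ⧸ Cfsg.fittingSubgroup G))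
        ^ p ^ n = 1 := by
      apply MulEquiv.ext
      intro x
      induction x using QuotientGroup.induction_on with
      | H g =>
        rw [gross_quotAut_pow_mk, MulAut.one_apply]
        symm
        rw [QuotientGroup.eq]
        exact hT G hG σ n hσ hfpf g
    have hsolv : Group.IsSolvable (G ⧸ Cfsg.fittingSubgroup G) := inferInstance
    obtain ⟨F', hF0, hFl, hFm, hFnorm, hFstep⟩ :=
      ih hsolv (quotAut σ (Cfsg.fittingSubgroup G) hmap) hpow hfpf'
    refine ⟨Fin.cons ⊥ (fun i => (F' i).comap (QuotientGroup.mk' (Cfsg.fittingSubgroup G))),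
      ?_, ?_, ?_, ?_, ?_⟩
    · rfl
    · rw [← Fin.succ_last, Fin.cons_succ, hFl, Subgroup.comap_top]
    · intro i j hij
      induction i using Fin.cases with
      | zero => rw [Fin.cons_zero]; exact bot_le
      | succ i =>
        induction j using Fin.cases with
        | zero => exact absurd hij (by simp)
        | succ j =>
          rw [Fin.cons_succ, Fin.cons_succ]
          exact Subgroup.comap_mono (hFm (Fin.succ_le_succ_iff.mp hij))
    · intro i
      induction i using Fin.cases with
      | zero => rw [Fin.cons_zero]; infer_instance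
      | succ i =>
        rw [Fin.cons_succ]
        have := hFnorm i
        infer_instance
    · intro i
      induction i using Fin.cases with
      | zero =>
        refine ⟨k0, ?_⟩
        rw [Fin.castSucc_zero, Fin.cons_zero, Fin.cons_succ, hF0, MonoidHom.comap_bot,
          QuotientGroup.ker_mk', hk0]
      | succ j =>
        obtain ⟨k, hk⟩ := hFstep j
        refine ⟨k, ?_⟩
        rw [← Fin.succ_castSucc, Fin.cons_succ, Fin.cons_succ, ← Subgroup.map_le_iff_le_comap,
          Subgroup.map_lowerCentralSeries,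
          Subgroup.map_comap_eq_self_of_surjective
            (QuotientGroup.mk'_surjective (Cfsg.fittingSubgroup G))]
        exact hk

end Cfsg.Agent.Lib.Helper31
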