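import Mathlib
import Cfsg.Prelude.Def_Blocks
import Cfsg.Prelude.Def_Local
import Cfsg.Agent.Lib.Helper79.Klein2
import Cfsg.Agent.Lib.Helper81.PSolv2
import Cfsg.Agent.S0942

/-! S4501 project (helper30), piece K4: the centralizer of the involution has order four. -/

set_option autoImplicit false
set_option linter.unusedVariables false

open Cfsg
open scoped ComplexConjugate

namespace Cfsg.Agent.Lib.Helper30.S4501.K4

/-- K4 -/
theorem centralizer_card_four {G : Type*} [Group G] [Finite G]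
    (M : Ideal Cfsg.AlgInt) (hM : Cfsg.IsPModular 2 M)
    (P : Sylow 2 G) (hP : Nat.card P = 4) (J : G) (hJ : J ∈ (P : Subgroup G))
    (hJ2 : orderOf J = 2) (χ : Cfsg.IrrCharacter G) (hχ : χ ∈ Cfsg.principalBlock M G)
    (hχJ : (χ : G → ℂ) J = -1)
    (heig : ∀ y : G, J * y = y * J → Odd (orderOf y) → (χ : G → ℂ) (J * y) = -1 →
      (χ : G → ℂ) (J * y ^ 2) = -1 → y = 1) :
    Nat.card (Subgroup.centralizer ({J} : Set G)) = 4 := by
  have : Fact (Nat.Prime 2) := ⟨Nat.prime_two⟩
  have hidx := Cfsg.Agent.Lib.Helper79.index_pPrimeCore_centralizer P hP hJ hJ2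
  have hcop := Cfsg.Agent.Lib.Helper81.pPrimeCore_coprime
    (G := Subgroup.centralizer ({J} : Set G)) 2
  have hJu : ∃ k : ℕ, orderOf J = 2 ^ k := ⟨1, by rw [hJ2, pow_one]⟩
  have hbot : Cfsg.pPrimeCore 2 (Subgroup.centralizer ({J} : Set G)) = ⊥ := by
    rw [eq_bot_iff]
    intro k hk
    rw [Subgroup.mem_bot]
    have hkc : J * (k : G) = (k : G) * J := by
      have := k.2
      rw [Subgroup.mem_centralizer_iff] at this
      exact this J (Set.mem_singleton J)
    have hodd : Odd (orderOf (k : G)) := by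
      rw [Subgroup.orderOf_coe]
      have h1 : orderOf k ∣ Nat.card (Cfsg.pPrimeCore 2 (Subgroup.centralizer ({J} : Set G))) :=
        Subgroup.orderOf_dvd_natCard _ hk
      have h2 : (orderOf k).Coprime 2 := Nat.Coprime.coprime_dvd_left h1 hcop
      exact Nat.Coprime.odd_of_right h2
    have hmem : (k : G) ∈ Cfsg.centralizerPPrimeCore 2 J := ⟨k, hk, rfl⟩
    have hmem2 : (k : G) ^ 2 ∈ Cfsg.centralizerPPrimeCore 2 J :=
      Subgroup.pow_mem _ hmem 2
    have e1 : (χ : G → ℂ) (J * (k : G)) = -1 := by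
      rw [Cfsg.Agent.S0942.result 2 M hM J hJu (k : G) hmem χ hχ, hχJ]
    have e2 : (χ : G → ℂ) (J * (k : G) ^ 2) = -1 := by
      rw [Cfsg.Agent.S0942.result 2 M hM J hJu ((k : G) ^ 2) hmem2 χ hχ, hχJ]
    have := heig (k : G) hkc hodd e1 e2
    exact Subtype.ext this
  rw [hbot, Subgroup.index_bot] at hidx
  exact hidx

end Cfsg.Agent.Lib.Helper30.S4501.K4
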