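import Mathlib
import Cfsg.Prelude.Def_Blocks
import Cfsg.Prelude.Def_Local
import Cfsg.Agent.Lib.Helper4.Eigen
import Cfsg.Agent.Lib.Helper83.CharBasic

/-! S4501 project (helper30), piece K4a: the eigenvalue computation for a character of
degree three. -/

set_option autoImplicit false
set_option linter.unusedVariables false

open Cfsg
open scoped ComplexConjugate

namespace Cfsg.Agent.Lib.Helper30.S4501.K4a

/-- The elementary computation with the three eigenvalues. -/
theorem aux_three (t1 t2 t3 : ℂ) (N : ℕ) (hN : Odd N) (h1 : t1 ^ N = 1)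
    (ha : t1 - t2 - t3 = -1) (hb : t1 ^ 2 - t2 ^ 2 - t3 ^ 2 = -1) (hc : t1 * t2 * t3 = 1) :
    t1 + t2 + t3 = 3 := by
  have h23 : t2 * t3 = t1 := by
    linear_combination (-(t1 + 1) + (t1 - t2 - t3 + 1) / 2) * ha + (1 / 2 : ℂ) * hb
  have h11 : t1 ^ 2 = 1 := by linear_combination hc - t1 * h23
  have ht1 : t1 = 1 := by
    obtain ⟨k, hk⟩ := hN
    calc t1 = (t1 ^ 2) ^ k * t1 := by rw [h11]; simp
      _ = t1 ^ (2 * k + 1) := by ring
      _ = 1 := by rw [← hk]; exact h1
  subst ht1
  have h3' : t3 = 2 - t2 := by linear_combination -ha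
  have h4 : (t2 - 1) ^ 2 = 0 := by
    rw [h3'] at h23
    linear_combination -h23
  have h5 : t2 = 1 := by
    have := pow_eq_zero_iff (two_ne_zero) |>.1 h4
    linear_combination this
  rw [h3', h5]; norm_num

/-- A homomorphism from a nonabelian simple group to a commutative monoid is trivial. -/
theorem hom_trivial {G : Type*} [Group G] [IsSimpleGroup G]
    (hna : ∃ x y : G, x * y ≠ y * x) (f : G →* ℂ) (g : G) : f g = 1 := by
  have hnorm : f.ker.Normal := MonoidHom.normal_ker f
  rcases hnorm.eq_bot_or_eq_top with h | h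
  · exfalso
    obtain ⟨x, y, hxy⟩ := hna
    apply hxy
    have hinj : Function.Injective f := (MonoidHom.ker_eq_bot_iff f).1 h
    apply hinj
    rw [map_mul, map_mul, mul_comm]
  · have : g ∈ f.ker := by rw [h]; exact Subgroup.mem_top g
    exact (MonoidHom.mem_ker).1 this

/-- K4a -/
theorem eigen_three {G : Type*} [Group G] [Finite G] [IsSimpleGroup G]
    (hna : ∃ x y : G, x * y ≠ y * x) (χ : Cfsg.IrrCharacter G)
    (hdeg : Cfsg.charDegree (χ : G → ℂ) = 3) (J y : G) (hJ2 : orderOf J = 2)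
    (hcomm : J * y = y * J) (hy : Odd (orderOf y)) (h0 : (χ : G → ℂ) J = -1)
    (h1 : (χ : G → ℂ) (J * y) = -1) (h2 : (χ : G → ℂ) (J * y ^ 2) = -1) : y = 1 := by
  classical
  obtain ⟨n, ρ, hirr, hρ⟩ := χ.2
  have hχ1 : (χ : G → ℂ) 1 = (n : ℂ) := by
    rw [← hρ, Representation.char_one, Module.finrank_fin_fun]
  have hn : n = 3 := by
    unfold Cfsg.charDegree at hdeg
    rw [hχ1] at hdeg
    simpa using hdeg
  subst hn
  have hχ : ∀ x : G, (χ : G → ℂ) x = LinearMap.trace ℂ (Fin 3 → ℂ) (ρ x) := by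
    intro x; rw [← hρ]; rfl
  have hc : Commute J y := hcomm
  clear hcomm
  set g : G := J * y with hg
  set N : ℕ := orderOf y with hNdef
  obtain ⟨k, hk⟩ := hy
  have hJsq : J ^ 2 = 1 := by rw [← hJ2]; exact pow_orderOf_eq_one J
  have hyN : y ^ N = 1 := pow_orderOf_eq_one y
  have hJN : J ^ N = J := by
    rw [hk, pow_succ, pow_mul, hJsq, one_pow, one_mul]
  have hgN : g ^ N = J := by
    rw [hg, hc.mul_pow, hJN, hyN, mul_one]
  have hgN1 : g ^ (N + 1) = y := by
    rw [pow_succ, hgN, hg, ← mul_assoc, ← pow_two, hJsq, one_mul]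
  have hgN2 : g ^ (N + 2) = J * y ^ 2 := by
    rw [pow_succ, hgN1, hg, ← mul_assoc, ← hc.eq, mul_assoc, ← pow_two]
  have hg2N : g ^ (2 * N) = 1 := by
    rw [mul_comm, pow_mul, hgN, hJsq]
  -- eigenbasis
  obtain ⟨ι, hι, hd, v0, μ0, hv0, -, -, -⟩ := Cfsg.Agent.Lib.Helper4.exists_eigenbasis_rep ρ g
  have hcard : Fintype.card ι = 3 := by
    rw [← Module.finrank_eq_card_basis v0, Module.finrank_fin_fun]
  let e0 : ι ≃ Fin 3 := Fintype.equivFinOfCardEq hcard
  let v : Module.Basis (Fin 3) ℂ (Fin 3 → ℂ) := v0.reindex e0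
  let μ : Fin 3 → ℂ := fun i => μ0 (e0.symm i)
  have hv : ∀ i, ρ g (v i) = μ i • v i := by
    intro i
    simp only [v, μ, Module.Basis.reindex_apply]
    exact hv0 _
  have hpow : ∀ (m : ℕ) (i : Fin 3), ρ (g ^ m) (v i) = μ i ^ m • v i := by
    intro m i
    induction m with
    | zero => simp
    | succ m ih =>
      rw [pow_succ, map_mul, Module.End.mul_apply, hv, map_smul, ih, smul_smul, pow_succ,
        mul_comm]
  have htr : ∀ m : ℕ, (χ : G → ℂ) (g ^ m) = ∑ i, μ i ^ m := by
    intro m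
    rw [hχ]
    exact Cfsg.Agent.Lib.Helper4.trace_eq_sum_of_eigenbasis v (ρ (g ^ m)) (fun i => μ i ^ m)
      (fun i => hpow m i)
  have hμ2N : ∀ i, μ i ^ (2 * N) = 1 := by
    intro i
    have h3 := hpow (2 * N) i
    rw [hg2N, map_one, Module.End.one_apply] at h3
    have h4 : (μ i ^ (2 * N) - 1) • v i = 0 := by rw [sub_smul, ← h3, one_smul, sub_self]
    rcases smul_eq_zero.mp h4 with h | h
    · exact sub_eq_zero.mp h
    · exact absurd h (v.ne_zero i)
  -- determinant
  have hdet : ∏ i, μ i = 1 := by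
    have hmat : LinearMap.toMatrix v v (ρ g) = Matrix.diagonal μ := by
      ext i j
      rw [LinearMap.toMatrix_apply, hv, map_smul, Module.Basis.repr_self, Matrix.diagonal_apply]
      by_cases hij : i = j
      · subst hij; simp
      · have : j ≠ i := fun h => hij h.symm
        simp [hij]
    have h3 : LinearMap.det (ρ g) = ∏ i, μ i := by
      rw [← LinearMap.det_toMatrix v, hmat, Matrix.det_diagonal]
    rw [← h3]
    exact hom_trivial hna (LinearMap.det.comp ρ) g
  set e : Fin 3 → ℂ := fun i => μ i ^ N with he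
  set t : Fin 3 → ℂ := fun i => μ i ^ (N + 1) with ht
  have he2 : ∀ i, e i = 1 ∨ e i = -1 := by
    intro i
    have : e i * e i = 1 := by
      simp only [he]
      rw [← pow_add, ← two_mul]; exact hμ2N i
    exact mul_self_eq_one_iff.1 this
  have htN : ∀ i, t i ^ N = 1 := by
    intro i
    simp only [ht]
    have hN1 : N + 1 = 2 * (k + 1) := by omega
    rw [← pow_mul, hN1, mul_assoc, mul_comm (k + 1) N, ← mul_assoc, pow_mul, hμ2N, one_pow]
  have hμet : ∀ i, μ i = e i * t i := by
    intro i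
    simp only [he, ht]
    rw [show μ i ^ N * μ i ^ (N + 1) = μ i ^ (2 * N) * μ i by ring, hμ2N, one_mul]
  have hμet2 : ∀ i, μ i ^ (N + 2) = e i * t i ^ 2 := by
    intro i
    simp only [he, ht]
    rw [show μ i ^ N * (μ i ^ (N + 1)) ^ 2 = μ i ^ (2 * N) * μ i ^ (N + 2) by ring, hμ2N,
      one_mul]
  have hs0 : e 0 + e 1 + e 2 = -1 := by
    have := htr N
    rw [hgN, h0, Fin.sum_univ_three] at this
    exact this.symm
  have hs1 : e 0 * t 0 + e 1 * t 1 + e 2 * t 2 = -1 := by
    have := htr 1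
    rw [pow_one, h1, Fin.sum_univ_three] at this
    simp only [pow_one] at this
    rw [hμet 0, hμet 1, hμet 2] at this
    exact this.symm
  have hs2 : e 0 * t 0 ^ 2 + e 1 * t 1 ^ 2 + e 2 * t 2 ^ 2 = -1 := by
    have := htr (N + 2)
    rw [hgN2, h2, Fin.sum_univ_three, hμet2 0, hμet2 1, hμet2 2] at this
    exact this.symm
  have hp : (e 0 * t 0) * (e 1 * t 1) * (e 2 * t 2) = 1 := by
    have := hdet
    rw [Fin.prod_univ_three, hμet 0, hμet 1, hμet 2] at this
    exact this
  have hsum : t 0 + t 1 + t 2 = 3 := by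
    rcases he2 0 with a0 | a0 <;> rcases he2 1 with a1 | a1 <;> rcases he2 2 with a2 | a2 <;>
      rw [a0, a1, a2] at hs0 hs1 hs2 hp
    · norm_num at hs0
    · norm_num at hs0
    · norm_num at hs0
    · exact aux_three (t 0) (t 1) (t 2) N ⟨k, hk⟩ (htN 0) (by linear_combination hs1)
        (by linear_combination hs2) (by linear_combination hp)
    · norm_num at hs0
    · have := aux_three (t 1) (t 0) (t 2) N ⟨k, hk⟩ (htN 1) (by linear_combination hs1)
        (by linear_combination hs2) (by linear_combination hp)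
      linear_combination this
    · have := aux_three (t 2) (t 0) (t 1) N ⟨k, hk⟩ (htN 2) (by linear_combination hs1)
        (by linear_combination hs2) (by linear_combination hp)
      linear_combination this
    · norm_num at hs0
  -- χ y = 3 = χ 1
  have hχy : (χ : G → ℂ) y = (χ : G → ℂ) 1 := by
    have := htr (N + 1)
    rw [hgN1, Fin.sum_univ_three] at this
    rw [this, hχ1]
    simp only [ht] at hsum
    rw [hsum]; norm_num
  have hρy : ρ y = 1 := by
    apply (Cfsg.Agent.Lib.Helper83.char_eq_iff_rho_eq_one ρ y).1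
    rw [hρ]; exact hχy
  -- faithfulness
  have hker : (ρ : G →* _).ker.Normal := MonoidHom.normal_ker _
  rcases hker.eq_bot_or_eq_top with h | h
  · have : y ∈ (ρ : G →* _).ker := MonoidHom.mem_ker.2 hρy
    rw [h] at this
    exact Subgroup.mem_bot.1 this
  · exfalso
    have hJ : J ∈ (ρ : G →* _).ker := by rw [h]; exact Subgroup.mem_top J
    have hρJ : ρ J = 1 := MonoidHom.mem_ker.1 hJ
    have : (χ : G → ℂ) J = (χ : G → ℂ) 1 := by
      rw [← hρ]
      exact (Cfsg.Agent.Lib.Helper83.char_eq_iff_rho_eq_one ρ J).2 hρJ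
    rw [h0, hχ1] at this
    norm_num at this

end Cfsg.Agent.Lib.Helper30.S4501.K4a
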