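import Mathlib
import Cfsg.Agent.Lib.Helper22.BFDefs

/-! S4503 project (helper22), piece TCONJ: `Tri` is invariant under conjugating `z`. -/

set_option autoImplicit false
set_option linter.unusedVariables false
set_option linter.unusedSectionVars false

namespace Cfsg.Agent.Lib.Helper31.BFT

open Cfsg Cfsg.Agent.Lib.Helper22.BFD
open scoped ComplexConjugate

universe u

variable {G : Type u} [Group G] [Fintype G]

theorem mem_Kf_conj (p : ℕ) (z g y : G) :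
    y ∈ Kf p (g * z * g⁻¹) ↔ g⁻¹ * y * g ∈ Kf p z := by
  classical
  have hord : orderOf (g⁻¹ * y * g) = orderOf y := by
    have := (MulAut.conj g⁻¹).orderOf_eq y
    rw [MulAut.conj_apply, inv_inv] at this
    exact this
  simp only [Kf, Finset.mem_filter, Finset.mem_univ, true_and, hord]
  constructor
  · rintro ⟨h1, h2⟩
    refine ⟨?_, h2⟩
    have : g⁻¹ * (y * (g * z * g⁻¹)) * g = g⁻¹ * ((g * z * g⁻¹) * y) * g := by rw [h1]
    calc g⁻¹ * y * g * z = g⁻¹ * (y * (g * z * g⁻¹)) * g := by group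
      _ = g⁻¹ * ((g * z * g⁻¹) * y) * g := this
      _ = z * (g⁻¹ * y * g) := by group
  · rintro ⟨h1, h2⟩
    refine ⟨?_, h2⟩
    calc y * (g * z * g⁻¹) = g * (g⁻¹ * y * g * z) * g⁻¹ := by group
      _ = g * (z * (g⁻¹ * y * g)) * g⁻¹ := by rw [h1]
      _ = g * z * g⁻¹ * y := by group

theorem sum_Kf_conj (p : ℕ) (z g : G) (F : G → ℂ) :
    ∑ y ∈ Kf p (g * z * g⁻¹), F (g⁻¹ * y * g) = ∑ y ∈ Kf p z, F y := by
  refine Finset.sum_nbij' (fun y => g⁻¹ * y * g) (fun y => g * y * g⁻¹) ?_ ?_ ?_ ?_ ?_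
  · intro y hy
    exact (mem_Kf_conj p z g y).1 hy
  · intro y hy
    rw [mem_Kf_conj]
    have : g⁻¹ * (g * y * g⁻¹) * g = y := by group
    rw [this]; exact hy
  · intro y _; group
  · intro y _; group
  · intro y _; rfl

theorem val_conj (z g : G) (φ : G → ℂ) (hφ : ∀ x h : G, φ (h * x * h⁻¹) = φ x) (m : ℕ)
    (y : G) : φ ((g * z * g⁻¹) ^ m * y) = φ (z ^ m * (g⁻¹ * y * g)) := by
  rw [conj_pow]
  have : g * z ^ m * g⁻¹ * y = g * (z ^ m * (g⁻¹ * y * g)) * g⁻¹ := by group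
  rw [this, hφ]

theorem val_conj' (z g : G) (φ : G → ℂ) (hφ : ∀ x h : G, φ (h * x * h⁻¹) = φ x) (m : ℕ) :
    φ ((g * z * g⁻¹) ^ m) = φ (z ^ m) := by
  rw [conj_pow, hφ]

theorem Ef_conj (p : ℕ) [Fact p.Prime] (z g : G) : Ef p (g * z * g⁻¹) = Ef p z := by
  classical
  unfold Ef
  apply Finset.filter_congr
  intro k _
  rw [conj_pow]
  constructor
  · intro h
    obtain ⟨c, hc⟩ := isConj_iff.1 h
    refine isConj_iff.2 ⟨g⁻¹ * c * g, ?_⟩
    calc g⁻¹ * c * g * z ^ k.val * (g⁻¹ * c * g)⁻¹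
        = g⁻¹ * (c * (g * z ^ k.val * g⁻¹) * c⁻¹) * g := by group
      _ = g⁻¹ * (g * z * g⁻¹) * g := by rw [hc]
      _ = z := by group
  · intro h
    obtain ⟨c, hc⟩ := isConj_iff.1 h
    refine isConj_iff.2 ⟨g * c * g⁻¹, ?_⟩
    calc g * c * g⁻¹ * (g * z ^ k.val * g⁻¹) * (g * c * g⁻¹)⁻¹
        = g * (c * z ^ k.val * c⁻¹) * g⁻¹ := by group
      _ = g * z * g⁻¹ := by rw [hc]

theorem sP_conj (p : ℕ) [Fact p.Prime] (z g : G) (φ : G → ℂ)
    (hφ : ∀ x h : G, φ (h * x * h⁻¹) = φ x) : sP p (g * z * g⁻¹) φ = sP p z φ := by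
  unfold sP
  apply Finset.sum_congr rfl
  intro t _
  exact val_conj' z g φ hφ _

/-- PIECE TCONJ -/
theorem tri_conj (p : ℕ) [Fact p.Prime] (z g : G) (hz : orderOf z = p) (φ : G → ℂ)
    (hφ : ∀ x h : G, φ (h * x * h⁻¹) = φ x) (h : Tri p z φ) : Tri p (g * z * g⁻¹) φ := by
  rcases h with h | ⟨ε, hε, h⟩ | ⟨h1, h2⟩
  · left
    intro t ht
    have := sum_Kf_conj p z g (fun y => φ (z ^ t.val * y))
    rw [← h t ht, ← this]
    apply Finset.sum_congr rfl
    intro y _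
    exact val_conj z g φ hφ _ y
  · right; left
    refine ⟨ε, hε, ?_⟩
    intro t ht y hy
    rw [val_conj z g φ hφ]
    exact h t ht _ ((mem_Kf_conj p z g y).1 hy)
  · right; right
    refine ⟨?_, ?_⟩
    · intro t ht y hy
      rw [val_conj z g φ hφ, val_conj' z g φ hφ]
      exact h1 t ht _ ((mem_Kf_conj p z g y).1 hy)
    · rw [sP_conj p z g φ hφ, Ef_conj]
      exact h2

end Cfsg.Agent.Lib.Helper31.BFT
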