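import Mathlib
import Cfsg.Agent.Lib.Helper22.BFDefs
import Cfsg.Agent.Lib.Helper79.DefZero

/-! S4503 project (helper22), piece TRIZ: a character of `p`-defect zero satisfies the first
alternative of `Tri`. -/

set_option autoImplicit false

namespace Cfsg.Agent.Lib.Helper31.BFT

open Cfsg Cfsg.Agent.Lib.Helper22.BFD
open scoped ComplexConjugate

universe u

variable {G : Type u} [Group G] [Fintype G]

/-- PIECE TRIZ -/
theorem tri_defect_zero (p : ℕ) [Fact p.Prime] (hdiv : p ∣ Nat.card G)
    (hsq : ¬ p ^ 2 ∣ Nat.card G) (φ : IrrCharacter G) (hφ : p ∣ charDegree φ.1) (z : G)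
    (hz : orderOf z = p) : Tri p z φ.1 := by
  have hp : p.Prime := Fact.out
  left
  intro t ht
  apply Finset.sum_eq_zero
  intro y hy
  have hy' : y * z = z * y ∧ ¬ p ∣ orderOf y := by
    classical
    simpa [Kf] using hy
  have hfac : (Nat.card G).factorization p = 1 := by
    have hpos : Nat.card G ≠ 0 := Nat.card_pos.ne'
    have h1 : 1 ≤ (Nat.card G).factorization p :=
      (hp.dvd_iff_one_le_factorization hpos).1 hdiv
    have h2 : ¬ 2 ≤ (Nat.card G).factorization p := fun h =>
      hsq ((hp.pow_dvd_iff_le_factorization hpos).2 h)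
    omega
  apply Cfsg.Agent.Lib.Helper79.irr_eq_zero_of_defect_zero p φ
  · rw [hfac, pow_one]; exact hφ
  · have hcomm : Commute (z ^ t.val) y := by
      have h0 : Commute z y := hy'.1.symm
      exact h0.pow_left _
    have htv : t.val ≠ 0 := by
      intro h0
      exact ht ((ZMod.val_eq_zero t).1 h0)
    have hlt : t.val < p := ZMod.val_lt t
    have hcop0 : (orderOf z).Coprime t.val := by
      rw [hz]
      exact (Nat.Prime.coprime_iff_not_dvd hp).2
        (Nat.not_dvd_of_pos_of_lt (Nat.pos_of_ne_zero htv) hlt)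
    have hord : orderOf (z ^ t.val) = p := by
      rw [hcop0.orderOf_pow, hz]
    have hcop : (orderOf (z ^ t.val)).Coprime (orderOf y) := by
      rw [hord]; exact (Nat.Prime.coprime_iff_not_dvd hp).2 hy'.2
    rw [hcomm.orderOf_mul_eq_mul_orderOf_of_coprime hcop, hord]
    exact dvd_mul_right _ _

end Cfsg.Agent.Lib.Helper31.BFT
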