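import Mathlib
import Cfsg.Agent.Lib.Helper53.GTALT

/-! GT4 project (helper53), piece GT4-ALBERT: Albert's theorem.  A non-alternating symmetric
nondegenerate form over a finite field of characteristic two has an orthonormal basis; in matrix
form, a symmetric invertible matrix with a nonzero diagonal entry is congruent to `1`. -/

set_option autoImplicit false

namespace Cfsg.Agent.Lib.Helper31.GT4ALBERT

open Module

section abstract

variable {F : Type*} [Field F] {V : Type*} [AddCommGroup V] [Module F V]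

/-- the orthogonal of a vector inside a subspace -/
def perpIn (B : LinearMap.BilinForm F V) (W : Submodule F V) (v : V) : Submodule F V :=
  W ⊓ LinearMap.ker (B v)

theorem mem_perpIn (B : LinearMap.BilinForm F V) (W : Submodule F V) (v w : V) :
    w ∈ perpIn B W v ↔ w ∈ W ∧ B v w = 0 := by
  simp [perpIn]

theorem finrank_perpIn [FiniteDimensional F V] (B : LinearMap.BilinForm F V)
    (W : Submodule F V) (v : V) (hv : v ∈ W) (h1 : B v v = 1) (d : ℕ)
    (hd : finrank F W = d + 1) : finrank F (perpIn B W v) = d := by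
  let φ : W →ₗ[F] F := (B v).domRestrict W
  have hker : (LinearMap.ker φ).map W.subtype = perpIn B W v := by
    ext w
    rw [mem_perpIn]
    constructor
    · rintro ⟨x, hx, rfl⟩
      exact ⟨x.2, LinearMap.mem_ker.1 hx⟩
    · rintro ⟨hw, h0⟩
      exact ⟨⟨w, hw⟩, LinearMap.mem_ker.2 h0, rfl⟩
  have hrange : LinearMap.range φ = ⊤ := by
    apply LinearMap.range_eq_top.2
    intro c
    refine ⟨c • ⟨v, hv⟩, ?_⟩
    rw [map_smul]
    show c • B v v = c
    rw [h1, smul_eq_mul, mul_one]
  have := LinearMap.finrank_range_add_finrank_ker φ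
  rw [hrange, finrank_top, finrank_self, hd] at this
  rw [← hker, Submodule.finrank_map_subtype_eq]
  omega

theorem nondeg_perpIn (B : LinearMap.BilinForm F V) (hsym : ∀ x y, B x y = B y x)
    (W : Submodule F V) (hnd : ∀ u ∈ W, (∀ w ∈ W, B u w = 0) → u = 0) (v : V) (hv : v ∈ W)
    (h1 : B v v = 1) : ∀ u ∈ perpIn B W v, (∀ w ∈ perpIn B W v, B u w = 0) → u = 0 := by
  intro u hu h
  rw [mem_perpIn] at hu
  apply hnd u hu.1
  intro x hx
  have hx' : x - (B v x) • v ∈ perpIn B W v := by
    rw [mem_perpIn]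
    refine ⟨W.sub_mem hx (W.smul_mem _ hv), ?_⟩
    rw [map_sub, map_smul, h1, smul_eq_mul, mul_one, sub_self]
  have h2 := h _ hx'
  rw [map_sub, map_smul, hsym u v, hu.2, smul_eq_mul, mul_zero, sub_zero] at h2
  exact h2

theorem exists_orthonormal [FiniteDimensional F V] [Finite F] (h20 : (2 : F) = 0)
    (B : LinearMap.BilinForm F V) (hsym : ∀ x y, B x y = B y x) :
    ∀ (d : ℕ) (W : Submodule F V), finrank F W = d →
      (∀ u ∈ W, (∀ w ∈ W, B u w = 0) → u = 0) → (∃ w ∈ W, B w w ≠ 0) →
      ∃ b : Fin d → V, (∀ i, b i ∈ W) ∧ ∀ i j, B (b i) (b j) = if i = j then 1 else 0 := by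
  have hchar : ringChar F = 2 :=
    CharP.ringChar_of_prime_eq_zero Nat.prime_two (by exact_mod_cast h20)
  have two : (1 : F) + 1 = 0 := by rw [one_add_one_eq_two]; exact h20
  intro d
  induction d with
  | zero =>
    rintro W hW hnd ⟨w, hw, hne⟩
    exfalso
    have : W = ⊥ := Submodule.finrank_eq_zero.1 hW
    rw [this, Submodule.mem_bot] at hw
    apply hne; rw [hw]; simp
  | succ d ih =>
    rintro W hW hnd ⟨w, hw, hne⟩
    obtain ⟨s, hs⟩ := FiniteField.isSquare_of_char_two hchar (B w w)
    have hs0 : s ≠ 0 := by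
      rintro rfl
      apply hne; rw [hs]; simp
    have key : ∀ v ∈ W, B v v = 1 → (∃ u ∈ perpIn B W v, B u u ≠ 0) →
        ∃ b : Fin (d + 1) → V, (∀ i, b i ∈ W) ∧
          ∀ i j, B (b i) (b j) = if i = j then 1 else 0 := by
      intro v hv h1 hex
      obtain ⟨b', hb'W, hb'⟩ := ih (perpIn B W v) (finrank_perpIn B W v hv h1 d hW)
        (nondeg_perpIn B hsym W hnd v hv h1) hex
      refine ⟨Fin.cons v b', ?_, ?_⟩
      · intro i
        refine Fin.cases ?_ (fun j => ?_) i
        · simpa using hv
        · simpa using ((mem_perpIn B W v _).1 (hb'W j)).1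
      · intro i j
        refine Fin.cases ?_ (fun i' => ?_) i <;> refine Fin.cases ?_ (fun j' => ?_) j
        · simp [h1]
        · have h0 := ((mem_perpIn B W v _).1 (hb'W j')).2
          have hne0 : (0 : Fin (d + 1)) ≠ j'.succ := (Fin.succ_ne_zero j').symm
          simp [h0, hne0]
        · have h0 := ((mem_perpIn B W v _).1 (hb'W i')).2
          have hne0 : i'.succ ≠ (0 : Fin (d + 1)) := Fin.succ_ne_zero i'
          rw [hsym] at h0
          simp [h0, hne0]
        · simp [hb']
    set v := s⁻¹ • w with hvdef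
    have hv : v ∈ W := W.smul_mem _ hw
    have h1 : B v v = 1 := by
      rw [hvdef]
      simp only [map_smul, LinearMap.smul_apply, smul_eq_mul]
      rw [hs]
      field_simp
    by_cases hex : ∃ u ∈ perpIn B W v, B u u ≠ 0
    · exact key v hv h1 hex
    · push Not at hex
      rcases Nat.eq_zero_or_pos d with hd0 | hdpos
      · subst hd0
        refine ⟨fun _ => v, fun _ => hv, fun i j => ?_⟩
        have : i = j := Fin.ext (by have := i.2; have := j.2; omega)
        simp [this, h1]
      · have hfr := finrank_perpIn B W v hv h1 d hW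
        have hne' : perpIn B W v ≠ ⊥ := by
          intro hbot
          rw [hbot, finrank_bot] at hfr
          omega
        obtain ⟨w1, hw1, hw10⟩ := Submodule.exists_mem_ne_zero_of_ne_bot hne'
        have hndp := nondeg_perpIn B hsym W hnd v hv h1
        have hw2ex : ∃ w2' ∈ perpIn B W v, B w1 w2' ≠ 0 := by
          by_contra hcon
          push Not at hcon
          exact hw10 (hndp w1 hw1 hcon)
        obtain ⟨w2', hw2', hw2ne⟩ := hw2ex
        have hw2 : (B w1 w2')⁻¹ • w2' ∈ perpIn B W v := Submodule.smul_mem _ _ hw2'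
        have h12 : B w1 ((B w1 w2')⁻¹ • w2') = 1 := by
          rw [map_smul, smul_eq_mul, inv_mul_cancel₀ hw2ne]
        have e11 := hex w1 hw1
        have e22 := hex _ hw2
        rw [mem_perpIn] at hw1 hw2
        have hv1 : B w1 v = 0 := by rw [hsym]; exact hw1.2
        have hv2 : B ((B w1 w2')⁻¹ • w2') v = 0 := by rw [hsym]; exact hw2.2
        apply key (v + w1) (W.add_mem hv hw1.1)
        · simp only [map_add, LinearMap.add_apply]
          rw [h1, hw1.2, hv1, e11]; simp
        · refine ⟨v + (B w1 w2')⁻¹ • w2', ?_, ?_⟩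
          · rw [mem_perpIn]
            refine ⟨W.add_mem hv hw2.1, ?_⟩
            simp only [map_add, LinearMap.add_apply]
            rw [h1, hw2.2, hv1, h12]; simpa using two
          · simp only [map_add, LinearMap.add_apply]
            rw [h1, hw2.2, hv2, e22]; simp

end abstract

/-- GT4-ALBERT -/
theorem albert {F : Type*} [Field F] [Finite F] (h20 : (2 : F) = 0) {n : ℕ}
    (g : Matrix (Fin n) (Fin n) F) (hg : g.transpose = g) (hdet : g.det ≠ 0)
    (hna : ∃ i, g i i ≠ 0) :
    ∃ h : GL (Fin n) F, (h : Matrix (Fin n) (Fin n) F) * g *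
      (h : Matrix (Fin n) (Fin n) F).transpose = 1 := by
  classical
  have hsym : ∀ x y, Matrix.toBilin' g x y = Matrix.toBilin' g y x := by
    intro x y
    rw [Matrix.toBilin'_apply', Matrix.toBilin'_apply', Matrix.dotProduct_mulVec,
      ← Matrix.mulVec_transpose, hg, dotProduct_comm]
  obtain ⟨i, hi⟩ := hna
  have hex : ∃ w ∈ (⊤ : Submodule F (Fin n → F)), Matrix.toBilin' g w w ≠ 0 := by
    refine ⟨Pi.single i 1, Submodule.mem_top, ?_⟩
    rw [Matrix.toBilin'_single]
    exact hi
  have hfr : finrank F (⊤ : Submodule F (Fin n → F)) = n := by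
    rw [finrank_top, Module.finrank_fin_fun]
  obtain ⟨b, -, hb⟩ := exists_orthonormal h20 (Matrix.toBilin' g) hsym n ⊤ hfr
    (Cfsg.Agent.Lib.Helper53.GTALT.nondeg_of_det g hdet) hex
  have hmul : (Matrix.of b) * g * (Matrix.of b).transpose = 1 := by
    ext a c
    rw [Cfsg.Agent.Lib.Helper53.GTALT.congr_entry, Matrix.one_apply]
    exact hb a c
  have hdeth : (Matrix.of b).det ≠ 0 := by
    intro h0
    have := congrArg Matrix.det hmul
    rw [Matrix.det_mul, Matrix.det_mul, h0] at this
    simp at this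
  exact ⟨Matrix.GeneralLinearGroup.mkOfDetNeZero (Matrix.of b) hdeth, hmul⟩

end Cfsg.Agent.Lib.Helper31.GT4ALBERT
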