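import Mathlib
import Cfsg.Agent.Lib.Helper26.GrossDefs
import Cfsg.Agent.Lib.Helper26.FpfBasic
import Cfsg.Agent.Lib.Helper30.Basic
import Cfsg.Agent.Lib.Helper31.GrossChain

set_option autoImplicit false

open scoped commutatorElement

universe u

open Cfsg.Agent.Lib.Helper26

namespace Cfsg.Agent.Lib.Helper31

theorem gross_T_of_cent_aux {p : ℕ} (hC : GrossCentStmt.{u} p) (n : ℕ) (m : ℕ) :
    ∀ (G : Type u) [Group G] [Finite G], Nat.card G = m → Group.IsSolvable G →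
      ∀ (σ : MulAut G), σ ^ p ^ (n + 1) = 1 → (∀ g : G, σ g = g → g = 1) →
      ∀ g : G, g⁻¹ * (σ ^ p ^ n) g ∈ Cfsg.fittingSubgroup G := by
  induction m using Nat.strong_induction_on with
  | _ m IH =>
  intro G _ _ hm hG σ hσ hfpf g
  rcases subsingleton_or_nontrivial G with hsub | hnt
  · have h1 : g⁻¹ * (σ ^ p ^ n) g = 1 := Subsingleton.elim _ _
    rw [h1]
    exact one_mem _
  -- a minimal nontrivial `σ`-invariant normal subgroup
  obtain ⟨N, -, hNmin'⟩ := Finite.exists_le_minimal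
    (p := fun N : Subgroup G => N.Normal ∧ N ≠ ⊥ ∧ ∀ x ∈ N, σ x ∈ N) (a := ⊤)
    ⟨inferInstance, top_ne_bot, fun x _ => Subgroup.mem_top _⟩
  obtain ⟨hNn, hN0, hNσ⟩ := hNmin'.prop
  have hNmin : ∀ N₀ : Subgroup G, N₀.Normal → N₀ ≤ N → (∀ x ∈ N₀, σ x ∈ N₀) →
      N₀ = ⊥ ∨ N₀ = N := by
    intro N₀ h1 h2 h3
    by_cases h0 : N₀ = ⊥
    · exact Or.inl h0
    · exact Or.inr (le_antisymm h2 (hNmin'.le_of_le ⟨h1, h0, h3⟩ h2))
  have ih : ∀ (H : Type u) [Group H] [Finite H], Nat.card H < Nat.card G → Group.IsSolvable H →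
      ∀ (τ : MulAut H), τ ^ p ^ (n + 1) = 1 → (∀ h : H, τ h = h → h = 1) →
      ∀ h : H, h⁻¹ * (τ ^ p ^ n) h ∈ Cfsg.fittingSubgroup H := by
    intro H _ _ hlt hH τ hτ hτf
    exact IH (Nat.card H) (hm ▸ hlt) H rfl hH τ hτ hτf
  have hcent : ∀ g : G, g⁻¹ * (σ ^ p ^ n) g ∈ Subgroup.centralizer (N : Set G) :=
    hC G hG σ n hσ hfpf ih N hNn hN0 hNσ hNmin
  -- the quotient by `N`
  have hmap : N.map (σ : G →* G) = N := map_eq_of_forall_mem σ N hNσ
  have hfpf' : ∀ x : G ⧸ N, (quotAut σ N hmap : MulAut (G ⧸ N)) x = x → x = 1 :=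
    quotAut_fpf σ N hmap hfpf
  have hpow : (quotAut σ N hmap : MulAut (G ⧸ N)) ^ p ^ (n + 1) = 1 := by
    apply MulEquiv.ext
    intro x
    induction x using QuotientGroup.induction_on with
    | H g =>
      rw [gross_quotAut_pow_mk, MulAut.one_apply, hσ, MulAut.one_apply]
  have hcard : Nat.card (G ⧸ N) < Nat.card G := by
    have h1 := Subgroup.card_eq_card_quotient_mul_card_subgroup N
    have h2 : 1 < Nat.card N := (Subgroup.one_lt_card_iff_ne_bot N).mpr hN0
    have h3 : 0 < Nat.card (G ⧸ N) := Nat.card_pos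
    rw [h1]
    nlinarith
  have hquot : ∀ g : G, g⁻¹ * (σ ^ p ^ n) g ∈
      (Cfsg.fittingSubgroup (G ⧸ N)).comap (QuotientGroup.mk' N) := by
    intro g
    have h1 := IH (Nat.card (G ⧸ N)) (hm ▸ hcard) (G ⧸ N) rfl inferInstance
      (quotAut σ N hmap) hpow hfpf' (QuotientGroup.mk g)
    rw [gross_quotAut_pow_mk] at h1
    rw [Subgroup.mem_comap]
    exact h1
  -- the normal nilpotent subgroup `D`
  have hFn : (Cfsg.fittingSubgroup (G ⧸ N)).Normal := Cfsg.Agent.Lib.Helper30.fitting_normal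
  have hF1n : ((Cfsg.fittingSubgroup (G ⧸ N)).comap (QuotientGroup.mk' N)).Normal :=
    hFn.comap _
  have hCn : (Subgroup.centralizer (N : Set G)).Normal := Subgroup.normal_centralizer
  have hDn : (((Cfsg.fittingSubgroup (G ⧸ N)).comap (QuotientGroup.mk' N)) ⊓
      Subgroup.centralizer (N : Set G)).Normal := inferInstance
  have hDnil : Group.IsNilpotent ↥(((Cfsg.fittingSubgroup (G ⧸ N)).comap (QuotientGroup.mk' N)) ⊓
      Subgroup.centralizer (N : Set G)) := by
    have hFnil : Group.IsNilpotent ↥(Cfsg.fittingSubgroup (G ⧸ N)) :=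
      Cfsg.Agent.Lib.Helper30.fitting_nilpotent
    have hmem : ∀ x : ↥(((Cfsg.fittingSubgroup (G ⧸ N)).comap (QuotientGroup.mk' N)) ⊓
        Subgroup.centralizer (N : Set G)),
        ((QuotientGroup.mk' N).comp (Subgroup.subtype _)) x ∈ Cfsg.fittingSubgroup (G ⧸ N) :=
      fun x => x.2.1
    apply Subgroup.isNilpotent_of_ker_le_center
      (((QuotientGroup.mk' N).comp (Subgroup.subtype _)).codRestrict
        (Cfsg.fittingSubgroup (G ⧸ N)) hmem)
    intro x hx
    rw [MonoidHom.ker_codRestrict, MonoidHom.mem_ker] at hx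
    have hxN : (x : G) ∈ N := by
      have h1 : (QuotientGroup.mk' N) (x : G) = 1 := hx
      rw [QuotientGroup.mk'_apply, QuotientGroup.eq_one_iff] at h1
      exact h1
    rw [Subgroup.mem_center_iff]
    intro y
    apply Subtype.ext
    have hy : (y : G) ∈ Subgroup.centralizer (N : Set G) := y.2.2
    rw [Subgroup.mem_centralizer_iff] at hy
    exact (hy (x : G) hxN).symm
  have hle : (((Cfsg.fittingSubgroup (G ⧸ N)).comap (QuotientGroup.mk' N)) ⊓
      Subgroup.centralizer (N : Set G)) ≤ Cfsg.fittingSubgroup G :=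
    le_sSup ⟨hDn, hDnil⟩
  exact hle ⟨hquot g, hcent g⟩

theorem gross_T_of_cent {p : ℕ} (hp : p.Prime) (hC : GrossCentStmt.{u} p) : GrossTStmt.{u} p := by
  intro G _ _ hG σ n hσ hfpf g
  exact gross_T_of_cent_aux hC n (Nat.card G) G rfl hG σ hσ hfpf g

end Cfsg.Agent.Lib.Helper31
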