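import Mathlib
import Cfsg.Agent.Lib.Helper22.HPDefs
import Cfsg.Agent.Lib.Helper31.HPETA

/-!
# S4504 project (helper22), piece ETA4: the fourth moment of the Gauss periods
-/

set_option autoImplicit false
set_option linter.style.haveILetI false
set_option linter.unusedVariables false
set_option linter.unusedSectionVars false

namespace Cfsg.Agent.Lib.Helper31.HPT

open Cfsg Cfsg.Agent.Lib.Helper22.BFD Cfsg.Agent.Lib.Helper22.HPD
open scoped ComplexConjugate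

universe u

/-- PIECE ETA4 (fourth moment of the Gauss periods) -/
theorem eta_four (p : ℕ) [Fact p.Prime] (hp2 : p ≠ 2) (ζ : ℂ) (hζ : IsPrimitiveRoot ζ p)
    (e : ℕ) (he : 2 * e + 1 = p) :
    ∑ t ∈ Finset.univ.filter (fun t : ZMod p => t ≠ 0), ‖eta p ζ t‖ ^ 4 =
      if Even e then (e : ℝ) * ((e : ℝ) ^ 2 + 4 * e + 2) / 2 else (e : ℝ) * ((e : ℝ) + 1) ^ 2 / 2 := by
  obtain ⟨hcard, h0, hsum0, hinv, hpars, h6⟩ := eta_facts p hp2 ζ hζ
  have hpe : (p : ℝ) = 2 * (e : ℝ) + 1 := by rw [← he]; push_cast; ring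
  have hcard' : (Sq p).card = e := by rw [hcard]; omega
  have hm1 : (-1 : ZMod p) ≠ 0 := neg_ne_zero.mpr one_ne_zero
  have hpow4 : ∀ x : ℝ, |x| ^ 4 = x ^ 4 := by
    intro x
    rw [show (4 : ℕ) = 2 * 2 from rfl, pow_mul, sq_abs, ← pow_mul]
  by_cases hev : Even e
  · rw [if_pos hev]
    have hsq : (-1 : ZMod p) ∈ Sq p := by
      rw [eta_aux_mem]
      refine ⟨hm1, ZMod.exists_sq_eq_neg_one_iff.mpr ?_⟩
      rw [Nat.even_iff] at hev
      omega
    have hreal : ∀ t : ZMod p, ∃ r : ℝ, eta p ζ t = (r : ℂ) := by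
      intro t
      apply Complex.conj_eq_iff_real.mp
      rw [eta_aux_conj p ζ hζ, ← neg_one_mul, hinv _ hsq]
    obtain ⟨s, hs0, hs⟩ := eta_aux_exists_nsq p hp2
    obtain ⟨a, ha⟩ := hreal 1
    obtain ⟨b, hb⟩ := hreal (s * 1)
    obtain ⟨hab1, hab2⟩ := (h6 s hs0 hs).2 1 one_ne_zero
    rw [ha, hb] at hab1 hab2
    have h1 : a + b = -1 := by exact_mod_cast hab1
    have h2 : (a - b) ^ 2 = (p : ℝ) := by
      rw [← hab2, ← Complex.ofReal_sub, Complex.norm_real, Real.norm_eq_abs, sq_abs]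
    rw [eta_aux_split p s hs0 hs (fun c => ‖eta p ζ c‖ ^ 4)]
    have e5 : ∀ c ∈ Sq p, ‖eta p ζ c‖ ^ 4 = a ^ 4 := by
      intro c hc
      have h3 := hinv c hc 1
      rw [mul_one] at h3
      rw [h3, ha, Complex.norm_real, Real.norm_eq_abs, hpow4]
    have e6 : ∀ c ∈ Sq p, ‖eta p ζ (c * s)‖ ^ 4 = b ^ 4 := by
      intro c hc
      have h3 := hinv c hc (s * 1)
      rw [mul_one] at h3 hb
      rw [h3, hb, Complex.norm_real, Real.norm_eq_abs, hpow4]
    rw [Finset.sum_congr rfl e5, Finset.sum_congr rfl e6, Finset.sum_const, Finset.sum_const,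
      hcard']
    simp only [nsmul_eq_mul]
    rw [hpe] at h2
    have hb' : b = -1 - a := by linarith
    subst hb'
    have h3 : a ^ 2 + a = (e : ℝ) / 2 := by nlinarith
    have h4 : a ^ 4 + (-1 - a) ^ 4 = (e : ℝ) ^ 2 / 2 + 2 * e + 1 := by
      have h5 : a ^ 4 + (-1 - a) ^ 4 = 2 * (a ^ 2 + a) ^ 2 + 4 * (a ^ 2 + a) + 1 := by ring
      rw [h5, h3]; ring
    calc (e : ℝ) * a ^ 4 + e * (-1 - a) ^ 4 = e * (a ^ 4 + (-1 - a) ^ 4) := by ring
      _ = _ := by rw [h4]; ring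
  · rw [if_neg hev]
    have hnsq : (-1 : ZMod p) ∉ Sq p := by
      rw [eta_aux_mem]
      rintro ⟨-, h⟩
      have h1 := ZMod.exists_sq_eq_neg_one_iff.mp h
      rw [Nat.even_iff] at hev
      omega
    have hval : ∀ t ∈ Finset.univ.filter (fun t : ZMod p => t ≠ 0),
        ‖eta p ζ t‖ ^ 4 = (((e : ℝ) + 1) / 2) ^ 2 := by
      intro t ht
      rw [Finset.mem_filter] at ht
      obtain ⟨h1, h2⟩ := (h6 (-1) hm1 hnsq).2 t ht.2
      rw [neg_one_mul, ← eta_aux_conj p ζ hζ] at h1 h2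
      have h3 := parallelogram_law_with_norm ℝ (eta p ζ t) (conj (eta p ζ t))
      rw [h1, norm_neg, norm_one, RCLike.norm_conj] at h3
      have h4 : ‖eta p ζ t‖ ^ 2 = ((e : ℝ) + 1) / 2 := by
        rw [h2, hpe] at h3
        linarith
      rw [show (4 : ℕ) = 2 * 2 from rfl, pow_mul, h4]
    rw [Finset.sum_congr rfl hval, Finset.sum_const, eta_aux_card_ne]
    have h7 : p - 1 = 2 * e := by omega
    rw [h7]
    simp only [nsmul_eq_mul]
    push_cast
    ring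

end Cfsg.Agent.Lib.Helper31.HPT
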