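import Mathlib
import Cfsg.Agent.Lib.Helper22.HPDefs
import Cfsg.Agent.Lib.Helper83.IrrBasic
import Cfsg.Agent.Lib.Helper4.CharDecomp
import Cfsg.Agent.Lib.Helper4.CharSimple
import Cfsg.Agent.Lib.Helper4.BrSpan
import Cfsg.Agent.Lib.Helper4.CharDual

/-!
# S4504 / HP-NORM4 (helper64): the decomposition sub-piece DEC

The decomposition of `χ χ̄` into irreducible characters with natural multiplicities, its inner
products, the degree count and the fourth moment of `χ`.
-/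

set_option autoImplicit false

namespace Cfsg.Agent.Lib.Helper31.HPT

open Cfsg
open scoped ComplexConjugate

universe u

/-- the decomposition of `χ χ̄` into irreducible characters -/
theorem norm4_dec {G : Type u} [Group G] [Fintype G] [Fintype (IrrCharacter G)]
    (χ : IrrCharacter G) :
    ∃ m : IrrCharacter G → ℕ,
      (∀ g : G, χ.1 g * conj (χ.1 g) = ∑ φ : IrrCharacter G, (m φ : ℂ) * φ.1 g) ∧
      (∀ φ : IrrCharacter G, classInner (fun g => χ.1 g * conj (χ.1 g)) φ.1 = (m φ : ℂ)) ∧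
      (∀ φ : IrrCharacter G, φ.1 = (fun _ => 1) → m φ = 1) ∧
      ∑ φ : IrrCharacter G, m φ * charDegree φ.1 = charDegree χ.1 ^ 2 ∧
      ∑ g : G, ‖χ.1 g‖ ^ 4 = (Nat.card G : ℝ) * ∑ φ : IrrCharacter G, (m φ : ℝ) ^ 2 := by
  classical
  have hχc : IsCharacter G χ.1 := Cfsg.Agent.Lib.Helper4.isCharacter_of_irr χ
  have hPi : IsCharacter G (χ.1 * fun g => conj (χ.1 g)) :=
    Cfsg.Agent.Lib.Helper4.isCharacter_mul _ _ hχc (Cfsg.Agent.Lib.Helper4.isCharacter_conj _ hχc)
  obtain ⟨m, hm⟩ := Cfsg.Agent.Lib.Helper4.exists_decomp_of_isCharacter _ hPi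
  have hfun : (fun g => χ.1 g * conj (χ.1 g)) = ∑ φ : IrrCharacter G, (m φ : ℂ) • (φ : G → ℂ) := by
    rw [← hm]; rfl
  have hNpos : 0 < Nat.card G := Nat.card_pos
  have hne : (Nat.card G : ℂ) ≠ 0 := by exact_mod_cast hNpos.ne'
  have hval : ∀ g : G, χ.1 g * conj (χ.1 g) = ∑ φ : IrrCharacter G, (m φ : ℂ) * φ.1 g := by
    intro g
    have h := congrFun hfun g
    simp only [Finset.sum_apply, Pi.smul_apply, smul_eq_mul] at h
    exact h
  have hinner : ∀ φ : IrrCharacter G,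
      classInner (fun g => χ.1 g * conj (χ.1 g)) φ.1 = (m φ : ℂ) := by
    intro φ
    rw [hfun]
    exact Cfsg.Agent.Lib.Helper4.classInner_sum_irr (fun φ => (m φ : ℂ)) φ
  refine ⟨m, hval, hinner, ?_, ?_, ?_⟩
  · intro φ hφ
    have h1 := hinner φ
    have h2 : classInner (fun g => χ.1 g * conj (χ.1 g)) φ.1 = classInner χ.1 χ.1 := by
      unfold classInner
      rw [hφ]
      simp
    rw [h2, Cfsg.Agent.Lib.Helper83.irr_orthonormal χ χ, if_pos rfl] at h1
    exact_mod_cast h1.symm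
  · have h1 := hval 1
    have hdeg : ∀ φ : IrrCharacter G, φ.1 1 = (charDegree φ.1 : ℂ) := fun φ =>
      (Cfsg.Agent.Lib.Helper83.irr_degree φ.2).2
    rw [hdeg χ] at h1
    have h2 : ((∑ φ : IrrCharacter G, m φ * charDegree φ.1 : ℕ) : ℂ) =
        ((charDegree χ.1 ^ 2 : ℕ) : ℂ) := by
      push_cast
      rw [pow_two]
      have h3 : conj ((charDegree χ.1 : ℕ) : ℂ) = ((charDegree χ.1 : ℕ) : ℂ) := by
        simp
      rw [h3] at h1
      rw [h1]
      refine Finset.sum_congr rfl fun φ _ => ?_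
      rw [hdeg φ]
    exact_mod_cast h2
  · have h1 := Cfsg.Agent.Lib.Helper4.classInner_sum_sum_irr (G := G) (fun φ => (m φ : ℂ))
      (fun φ => (m φ : ℂ))
    rw [← hfun] at h1
    unfold classInner at h1
    rw [inv_mul_eq_iff_eq_mul₀ hne] at h1
    have h2 : ((∑ g : G, ‖χ.1 g‖ ^ 4 : ℝ) : ℂ) =
        (((Nat.card G : ℝ) * ∑ φ : IrrCharacter G, (m φ : ℝ) ^ 2 : ℝ) : ℂ) := by
      push_cast
      have h3 : ∑ φ : IrrCharacter G, (m φ : ℂ) * conj (m φ : ℂ) =
          ∑ φ : IrrCharacter G, (m φ : ℂ) ^ 2 := by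
        refine Finset.sum_congr rfl fun φ _ => ?_
        rw [Complex.conj_natCast, pow_two]
      rw [h3] at h1
      rw [← h1]
      refine Finset.sum_congr rfl fun g _ => ?_
      show ((‖χ.1 g‖ : ℂ)) ^ 4 = (χ.1 g * conj (χ.1 g)) * conj (χ.1 g * conj (χ.1 g))
      rw [Complex.mul_conj' (χ.1 g), map_pow, Complex.conj_ofReal]
      ring
    exact_mod_cast h2

end Cfsg.Agent.Lib.Helper31.HPT
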