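import Mathlib
import Cfsg.Agent.Lib.Helper72.JLDefs

/-!
# Project JL (S2942, helper72), piece BO

A largest elementary abelian subgroup `A` of `T` acts on `V = ⟨Ω₁(Z(T))^X⟩` as a best offender
(inside `V ⋊ Aut V`).
-/

set_option autoImplicit false

namespace Cfsg.Agent.Lib.Helper31.JL

open Cfsg.Agent.Lib.Helper72.JL Cfsg.Agent.Lib.Helper72.SC Cfsg.Agent.Lib.Helper78.Jc

open scoped commutatorElement

universe u

theorem bo_card_mul_relIndex {G : Type*} [Group G] (K L : Subgroup G) (h : K ≤ L) :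
    Nat.card K * K.relIndex L = Nat.card L := by
  have h1 := Subgroup.relIndex_mul_relIndex (⊥ : Subgroup G) K L bot_le h
  rwa [Subgroup.relIndex_bot_left, Subgroup.relIndex_bot_left] at h1

theorem bo_comm_iff {V : Type*} [Group V] (a : MulAut V) (v : V) :
    (SemidirectProduct.inr a : Gam V) * SemidirectProduct.inl v =
      SemidirectProduct.inl v * SemidirectProduct.inr a ↔ a v = v := by
  have h2 : (SemidirectProduct.inl (a v) : Gam V) =
      SemidirectProduct.inr a * SemidirectProduct.inl v * SemidirectProduct.inr a⁻¹ :=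
    SemidirectProduct.inl_aut a v
  constructor
  · intro h1
    have h3 : (SemidirectProduct.inl (a v) : Gam V) = SemidirectProduct.inl v := by
      rw [h2, h1, mul_assoc, ← map_mul, mul_inv_cancel, map_one, mul_one]
    exact SemidirectProduct.inl_injective h3
  · intro h1
    have h3 : (SemidirectProduct.inl v : Gam V) =
        SemidirectProduct.inr a * SemidirectProduct.inl v * SemidirectProduct.inr a⁻¹ := by
      rw [← h2, h1]
    calc (SemidirectProduct.inr a : Gam V) * SemidirectProduct.inl v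
        = SemidirectProduct.inr a * SemidirectProduct.inl v * SemidirectProduct.inr a⁻¹ *
            SemidirectProduct.inr a := by
          rw [mul_assoc _ (SemidirectProduct.inr a⁻¹), ← map_mul, inv_mul_cancel, map_one,
            mul_one]
      _ = SemidirectProduct.inl v * SemidirectProduct.inr a := by rw [← h3]

theorem bo_rho_val {X : Type*} [Group X] (T : Subgroup X) (b : X) (v : ↥(VT T)) :
    ((rhoT T b v : ↥(VT T)) : X) = b * (v : X) * b⁻¹ := rfl

theorem bo_mem_cent {X : Type*} [Group X] (T B : Subgroup X) (v : ↥(VT T)) :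
    (SemidirectProduct.inl v : Gam ↥(VT T)) ∈
        Subgroup.centralizer
          ((up (B.map (rhoT T)) : Subgroup (Gam ↥(VT T))) : Set (Gam ↥(VT T))) ↔
      (v : X) ∈ Subgroup.centralizer (B : Set X) := by
  rw [Subgroup.mem_centralizer_iff, Subgroup.mem_centralizer_iff]
  constructor
  · intro h b hb
    have h1 := h (SemidirectProduct.inr (rhoT T b)) ⟨rhoT T b, ⟨b, hb, rfl⟩, rfl⟩
    rw [bo_comm_iff] at h1
    have h2 := congrArg Subtype.val h1
    rw [bo_rho_val] at h2
    calc b * (v : X) = b * (v : X) * b⁻¹ * b := by group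
      _ = (v : X) * b := by rw [h2]
  · rintro h _ ⟨_, ⟨b, hb, rfl⟩, rfl⟩
    rw [bo_comm_iff]
    apply Subtype.ext
    rw [bo_rho_val, h b hb]
    group

theorem bo_card_cent {X : Type*} [Group X] (T B : Subgroup X) :
    Nat.card ↥(Vs ↥(VT T) ⊓ Subgroup.centralizer
        ((up (B.map (rhoT T)) : Subgroup (Gam ↥(VT T))) : Set (Gam ↥(VT T)))) =
      Nat.card ↥(VT T ⊓ Subgroup.centralizer (B : Set X)) := by
  symm
  let f : ↥(VT T ⊓ Subgroup.centralizer (B : Set X)) →
      ↥(Vs ↥(VT T) ⊓ Subgroup.centralizer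
        ((up (B.map (rhoT T)) : Subgroup (Gam ↥(VT T))) : Set (Gam ↥(VT T)))) :=
    fun v => ⟨SemidirectProduct.inl ⟨v.1, v.2.1⟩,
      ⟨⟨_, rfl⟩, (bo_mem_cent T B ⟨v.1, v.2.1⟩).2 v.2.2⟩⟩
  apply Nat.card_congr (Equiv.ofBijective f ⟨?_, ?_⟩)
  · intro v w hvw
    have h1 := congrArg Subtype.val hvw
    have h2 := SemidirectProduct.inl_injective h1
    apply Subtype.ext
    have h3 := congrArg Subtype.val h2
    exact h3
  · rintro ⟨w, ⟨⟨v, rfl⟩, hw⟩⟩
    refine ⟨⟨v.1, ⟨v.2, (bo_mem_cent T B v).1 hw⟩⟩, ?_⟩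
    apply Subtype.ext
    rfl

/-- the product inequality for two subgroups -/
theorem bo_card_mul_le {G : Type*} [Group G] [Finite G] (B C : Subgroup G) :
    Nat.card B * Nat.card C ≤ Nat.card ↥(B ⊔ C) * Nat.card ↥(B ⊓ C) := by
  have h1 := bo_card_mul_relIndex (B ⊓ C) B inf_le_left
  rw [Subgroup.inf_relIndex_left] at h1
  have h2 := bo_card_mul_relIndex C (B ⊔ C) le_sup_right
  have h3 : C.relIndex (B ⊔ C) ≠ 0 := by
    intro h0
    rw [h0, mul_zero] at h2
    exact (Nat.card_pos (α := ↥(B ⊔ C))).ne' h2.symm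
  have h4 : C.relIndex B ≤ C.relIndex (B ⊔ C) := Subgroup.relIndex_le_of_le_right le_sup_left h3
  calc Nat.card B * Nat.card C = Nat.card ↥(B ⊓ C) * C.relIndex B * Nat.card C := by rw [h1]
    _ ≤ Nat.card ↥(B ⊓ C) * C.relIndex (B ⊔ C) * Nat.card C :=
        Nat.mul_le_mul_right _ (Nat.mul_le_mul_left _ h4)
    _ = Nat.card ↥(B ⊔ C) * Nat.card ↥(B ⊓ C) := by rw [← h2]; ring

/-- the main inequality inside `X` -/
theorem bo_main {X : Type u} [Group X] [Finite X] (T : Subgroup X)
    (hVQ : VT T ≤ Cfsg.pCore 2 X) (hVcomm : ∀ a ∈ VT T, ∀ b ∈ VT T, a * b = b * a)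
    (hVexp : ∀ a ∈ VT T, a * a = 1) (hQT : Cfsg.pCore 2 X ≤ T)
    (A : Subgroup X) (hA : IsMaxEA T A) (B : Subgroup X) (hBA : B ≤ A) :
    Nat.card B * Nat.card ↥(VT T ⊓ Subgroup.centralizer (B : Set X)) ≤
      Nat.card A * Nat.card ↥(VT T ⊓ Subgroup.centralizer (A : Set X)) := by
  obtain ⟨hAT, hAcomm, hAexp, hAmax⟩ := hA
  set C : Subgroup X := VT T ⊓ Subgroup.centralizer (B : Set X) with hC
  have hD1 : B ⊔ C ≤ Subgroup.centralizer ((B : Set X) ∪ (C : Set X)) := by
    apply sup_le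
    · intro b hb
      rw [Subgroup.mem_centralizer_iff]
      rintro y (hy | hy)
      · exact hAcomm y (hBA hy) b (hBA hb)
      · exact ((Subgroup.mem_centralizer_iff.1 hy.2) b hb).symm
    · intro c hc
      rw [Subgroup.mem_centralizer_iff]
      rintro y (hy | hy)
      · exact (Subgroup.mem_centralizer_iff.1 hc.2) y hy
      · exact hVcomm y hy.1 c hc.1
  have hD2 : ∀ x ∈ B ⊔ C, ∀ y ∈ B ⊔ C, x * y = y * x := by
    have hD3 : B ⊔ C ≤ Subgroup.centralizer ((B ⊔ C : Subgroup X) : Set X) := by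
      apply sup_le
      · intro b hb
        rw [Subgroup.mem_centralizer_iff]
        intro d hd
        exact ((Subgroup.mem_centralizer_iff.1 (hD1 hd)) b (Or.inl hb)).symm
      · intro c hc
        rw [Subgroup.mem_centralizer_iff]
        intro d hd
        exact ((Subgroup.mem_centralizer_iff.1 (hD1 hd)) c (Or.inr hc)).symm
    intro x hx y hy
    exact ((Subgroup.mem_centralizer_iff.1 (hD3 hy)) x hx)
  have hDexp : ∀ x ∈ B ⊔ C, x * x = 1 := by
    let E2 : Subgroup X :=
      { carrier := {x | x ∈ B ⊔ C ∧ x * x = 1}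
        mul_mem' := by
          rintro x y ⟨hx, hx2⟩ ⟨hy, hy2⟩
          refine ⟨mul_mem hx hy, ?_⟩
          calc x * y * (x * y) = x * (y * x) * y := by group
            _ = x * (x * y) * y := by rw [hD2 y hy x hx]
            _ = (x * x) * (y * y) := by group
            _ = 1 := by rw [hx2, hy2, one_mul]
        one_mem' := ⟨one_mem _, one_mul 1⟩
        inv_mem' := by
          rintro x ⟨hx, hx2⟩
          refine ⟨inv_mem hx, ?_⟩
          rw [← mul_inv_rev, hx2, inv_one] }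
    have hle : B ⊔ C ≤ E2 := by
      apply sup_le
      · intro b hb
        exact ⟨Subgroup.mem_sup_left hb, hAexp b (hBA hb)⟩
      · intro c hc
        exact ⟨Subgroup.mem_sup_right hc, hVexp c hc.1⟩
    intro x hx
    exact (hle hx).2
  have hDT : B ⊔ C ≤ T := sup_le (hBA.trans hAT) (inf_le_left.trans (hVQ.trans hQT))
  have hDA : Nat.card ↥(B ⊔ C) ≤ Nat.card A := hAmax (B ⊔ C) hDT hD2 hDexp
  have hinf : B ⊓ C ≤ VT T ⊓ Subgroup.centralizer (A : Set X) := by
    intro x hx
    have hxB : x ∈ B := (Subgroup.mem_inf.1 hx).1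
    have hxC : x ∈ C := (Subgroup.mem_inf.1 hx).2
    refine Subgroup.mem_inf.2 ⟨(Subgroup.mem_inf.1 hxC).1, ?_⟩
    rw [Subgroup.mem_centralizer_iff]
    intro a ha
    exact hAcomm a ha x (hBA hxB)
  have hinf' : Nat.card ↥(B ⊓ C) ≤ Nat.card ↥(VT T ⊓ Subgroup.centralizer (A : Set X)) :=
    Subgroup.card_le_of_le hinf
  calc Nat.card B * Nat.card C ≤ Nat.card ↥(B ⊔ C) * Nat.card ↥(B ⊓ C) := bo_card_mul_le B C
    _ ≤ Nat.card A * Nat.card ↥(VT T ⊓ Subgroup.centralizer (A : Set X)) :=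
        Nat.mul_le_mul hDA hinf'

theorem bo (h : VabStmt.{u}) : BoStmt.{u} := by
  intro X _ _ T hS A hA
  obtain ⟨hVQ, hVcomm, hVexp, hQT, -⟩ := h X T hS
  have hAcomm := hA.2.1
  have hAexp := hA.2.2.1
  let φ : X →* Gam ↥(VT T) :=
    (SemidirectProduct.inr : MulAut ↥(VT T) →* Gam ↥(VT T)).comp (rhoT T)
  have hup : ∀ B : Subgroup X, up (B.map (rhoT T)) = B.map φ := by
    intro B
    unfold up
    rw [Subgroup.map_map]
  refine ⟨?_, ?_, ?_⟩
  · intro B' hB'
    rw [hup] at hB'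
    let B : Subgroup X := B'.comap φ ⊓ A
    have hBA : B ≤ A := inf_le_right
    have hBmap : B.map φ = B' := by
      ext x
      constructor
      · rintro ⟨b, hb, rfl⟩
        exact hb.1
      · intro hx
        obtain ⟨a, ha, rfl⟩ := hB' hx
        exact ⟨a, ⟨hx, ha⟩, rfl⟩
    have hrel : B.relIndex A = B'.relIndex (A.map φ) := by
      show (B'.comap φ ⊓ A).relIndex A = _
      rw [Subgroup.inf_relIndex_right, Subgroup.relIndex_comap]
    have h1 : Nat.card B * B.relIndex A = Nat.card A := bo_card_mul_relIndex B A hBA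
    have h2 : Nat.card B' * B'.relIndex (A.map φ) = Nat.card ↥(A.map φ) :=
      bo_card_mul_relIndex B' (A.map φ) hB'
    have hcB : Nat.card ↥(Vs ↥(VT T) ⊓ Subgroup.centralizer (B' : Set (Gam ↥(VT T)))) =
        Nat.card ↥(VT T ⊓ Subgroup.centralizer (B : Set X)) := by
      rw [← bo_card_cent T B, hup, hBmap]
    have hcA := bo_card_cent T A
    have hmain := bo_main T hVQ hVcomm hVexp hQT A hA B hBA
    rw [← h1, hrel] at hmain
    have hBpos : 0 < Nat.card B := Nat.card_pos
    have hle : Nat.card ↥(VT T ⊓ Subgroup.centralizer (B : Set X)) ≤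
        B'.relIndex (A.map φ) * Nat.card ↥(VT T ⊓ Subgroup.centralizer (A : Set X)) := by
      rw [mul_assoc] at hmain
      exact Nat.le_of_mul_le_mul_left hmain hBpos
    rw [hcB, hcA, hup, ← h2, mul_assoc]
    exact Nat.mul_le_mul_left _ hle
  · rw [Subgroup.commutator_le]
    rintro _ ⟨_, ⟨a₁, ha₁, rfl⟩, rfl⟩ _ ⟨_, ⟨a₂, ha₂, rfl⟩, rfl⟩
    have h1 : ⁅a₁, a₂⁆ = 1 := by
      rw [commutatorElement_eq_one_iff_commute]
      exact hAcomm a₁ ha₁ a₂ ha₂
    rw [← map_commutatorElement, ← map_commutatorElement, h1, map_one, map_one]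
    exact one_mem _
  · rintro _ ⟨_, ⟨a, ha, rfl⟩, rfl⟩
    rw [← map_pow, ← map_pow, pow_two, hAexp a ha, map_one, map_one]
    exact one_mem _

end Cfsg.Agent.Lib.Helper31.JL
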