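import Mathlib
import Cfsg.Agent.Lib.Helper72.JMDefs

/-!
# Project JM (S2943, helper72), piece C2

A 2-element of `X` acting on `V` inside a 3-group lies in `O₂(X)`.
-/

set_option autoImplicit false

namespace Cfsg.Agent.Lib.Helper31.JM

open Cfsg.Agent.Lib.Helper72.JM Cfsg.Agent.Lib.Helper72.JL Cfsg.Agent.Lib.Helper72.SC
  Cfsg.Agent.Lib.Helper78.Jc

open scoped commutatorElement

universe u

/-- a 2-element of the kernel of `ρ` lies in `T` -/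
theorem c2_mem_T {X : Type u} [Group X] [Finite X] (T : Subgroup X) (hS : Setting X T)
    (c : X) (hc : c ∈ (rhoT T).ker) (n : ℕ) (hcn : c ^ 2 ^ n = 1) : c ∈ T := by
  have : Fact (Nat.Prime 2) := ⟨Nat.prime_two⟩
  -- `c` centralizes `Ω₁(Z(T))`
  have hcZ : ∀ z ∈ Cfsg.omegaCenterOf T, c * z = z * c := by
    intro z hz
    have hzV : z ∈ VT T := Subgroup.subset_normalClosure hz
    have h1 : rhoT T c ⟨z, hzV⟩ = ⟨z, hzV⟩ := by
      rw [MonoidHom.mem_ker.1 hc]; rfl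
    have h2 : c * z * c⁻¹ = z := congrArg Subtype.val h1
    calc c * z = c * z * c⁻¹ * c := by group
      _ = z * c := by rw [h2]
  have hcN : c ∈ Subgroup.normalizer (T : Set X) := hS.hZN c hcZ
  -- `⟨c⟩` is a 2-group
  have hz2 : IsPGroup 2 ↥(Subgroup.zpowers c) := by
    rintro ⟨g, hg⟩
    refine ⟨n, ?_⟩
    apply Subtype.ext
    obtain ⟨i, rfl⟩ := Subgroup.mem_zpowers_iff.1 hg
    show (c ^ i) ^ 2 ^ n = 1
    rw [← zpow_natCast, ← zpow_mul, mul_comm, zpow_mul, zpow_natCast, hcn, one_zpow]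
  have hzN : Subgroup.zpowers c ≤ Subgroup.normalizer (T : Set X) :=
    (Subgroup.zpowers_le).2 hcN
  have hP2 : IsPGroup 2 ↥(Subgroup.zpowers c ⊔ T) :=
    IsPGroup.to_sup_of_normal_right' hz2 hS.hT2 hzN
  have hTP : T ≤ Subgroup.zpowers c ⊔ T := le_sup_right
  obtain ⟨m, hm⟩ := IsPGroup.index hP2 (T.subgroupOf (Subgroup.zpowers c ⊔ T))
  have hm' : T.relIndex (Subgroup.zpowers c ⊔ T) = 2 ^ m := hm
  have hdvd : T.relIndex (Subgroup.zpowers c ⊔ T) ∣ T.index :=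
    Dvd.intro _ (Subgroup.relIndex_mul_index hTP)
  have hm0 : m = 0 := by
    by_contra hne
    have h2 : 2 ∣ T.index := by
      rw [hm'] at hdvd
      exact dvd_trans (dvd_pow_self 2 hne) hdvd
    obtain ⟨k, hk⟩ := hS.hTodd
    omega
  rw [hm0, pow_zero, Subgroup.relIndex_eq_one] at hm'
  exact hm' (Subgroup.mem_sup_left (Subgroup.mem_zpowers c))

theorem c2 : C2Stmt.{u} := by
  intro X _ _ T hS N hN p hpN hp
  have : Fact (Nat.Prime 2) := ⟨Nat.prime_two⟩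
  obtain ⟨n, hn⟩ := hp
  -- `ρ p = 1`
  have hpC : p ∈ (rhoT T).ker := by
    rw [MonoidHom.mem_ker]
    obtain ⟨k, hk⟩ := hN ⟨rhoT T p, hpN⟩
    have hk' : (rhoT T p) ^ 3 ^ k = 1 := congrArg Subtype.val hk
    have h2 : (rhoT T p) ^ 2 ^ n = 1 := by rw [← map_pow, hn, map_one]
    have h3 : (rhoT T p) ^ Nat.gcd (3 ^ k) (2 ^ n) = 1 := pow_gcd_eq_one.2 ⟨hk', h2⟩
    have hcop : Nat.gcd (3 ^ k) (2 ^ n) = 1 :=
      Nat.Coprime.pow k n (by norm_num)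
    rw [hcop, pow_one] at h3
    exact h3
  -- the normal 2-subgroup `C ⊓ T`
  have hD2 : IsPGroup 2 ↥((rhoT T).ker ⊓ T) := IsPGroup.to_le hS.hT2 inf_le_right
  have hDn : ((rhoT T).ker ⊓ T).Normal := by
    constructor
    intro d hd x
    have hdC : d ∈ (rhoT T).ker := hd.1
    have hdT : d ∈ T := hd.2
    obtain ⟨m, hm⟩ := hS.hT2 ⟨d, hdT⟩
    have hm' : d ^ 2 ^ m = 1 := congrArg Subtype.val hm
    have hxC : x * d * x⁻¹ ∈ (rhoT T).ker :=
      (MonoidHom.normal_ker (rhoT T)).conj_mem d hdC x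
    have hxm : (x * d * x⁻¹) ^ 2 ^ m = 1 := by
      rw [conj_pow, hm', mul_one, mul_inv_cancel]
    exact ⟨hxC, c2_mem_T T hS _ hxC m hxm⟩
  have hle : (rhoT T).ker ⊓ T ≤ Cfsg.pCore 2 X :=
    le_sSup (show (rhoT T).ker ⊓ T ∈ {N : Subgroup X | N.Normal ∧ IsPGroup 2 N} from ⟨hDn, hD2⟩)
  exact hle ⟨hpC, c2_mem_T T hS p hpC n hn⟩

end Cfsg.Agent.Lib.Helper31.JM
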