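import Mathlib
import Cfsg.Agent.Lib.Helper72.JMDefs

/-!
# Project JM (S2943, helper72), piece YY

Linear algebra over `F₂`: two commuting automorphisms `y`, `y'` of 3-power order of an elementary
abelian 2-group whose commutator spaces `W`, `W'` have 4 elements and share a nonzero vector
satisfy `y' = y ^ i`.
-/

set_option autoImplicit false

namespace Cfsg.Agent.Lib.Helper31.JM

open Cfsg.Agent.Lib.Helper72.JM Cfsg.Agent.Lib.Helper72.JL Cfsg.Agent.Lib.Helper72.SC
  Cfsg.Agent.Lib.Helper78.Jc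

open scoped commutatorElement

universe u

/-- a subgroup with four elements is the set of any four distinct elements of it -/
theorem yy_enum {V : Type*} [Group V] [Finite V] (W : Subgroup V) (hW4 : Nat.card ↥W = 4)
    (a b c d : V) (ha : a ∈ W) (hb : b ∈ W) (hc : c ∈ W) (hd : d ∈ W)
    (hab : a ≠ b) (hac : a ≠ c) (had : a ≠ d) (hbc : b ≠ c) (hbd : b ≠ d) (hcd : c ≠ d) :
    ∀ w ∈ W, w = a ∨ w = b ∨ w = c ∨ w = d := by
  classical
  have : Fintype ↥W := Fintype.ofFinite _
  have hS : ({⟨a, ha⟩, ⟨b, hb⟩, ⟨c, hc⟩, ⟨d, hd⟩} : Finset ↥W).card = 4 := by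
    rw [Finset.card_insert_of_notMem, Finset.card_insert_of_notMem,
      Finset.card_insert_of_notMem, Finset.card_singleton]
    · simp [hcd]
    · simp [hbc, hbd]
    · simp [hab, hac, had]
  have huniv : ({⟨a, ha⟩, ⟨b, hb⟩, ⟨c, hc⟩, ⟨d, hd⟩} : Finset ↥W) = Finset.univ := by
    apply Finset.eq_univ_of_card
    rw [hS, ← Nat.card_eq_fintype_card, hW4]
  intro w hw
  have hmem : (⟨w, hw⟩ : ↥W) ∈ ({⟨a, ha⟩, ⟨b, hb⟩, ⟨c, hc⟩, ⟨d, hd⟩} : Finset ↥W) := by
    rw [huniv]; exact Finset.mem_univ _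
  simpa using hmem

/-- the structure of the commutator space `W` of `y` -/
theorem yy_struct {V : Type*} [Group V] [Finite V] (hcomm : ∀ a b : V, a * b = b * a)
    (hexp : ∀ v : V, v * v = 1) (y : MulAut V) (W : Subgroup V) (hW4 : Nat.card ↥W = 4)
    (hW : ∀ v : V, y v * v⁻¹ ∈ W) (hf : ∀ w ∈ W, y w = w → w = 1) (z : V) (hz : z ∈ W)
    (hz1 : z ≠ 1) :
    y z ∈ W ∧ y (y z) ∈ W ∧ (∀ w ∈ W, w = 1 ∨ w = z ∨ w = y z ∨ w = y (y z)) ∧
      z = y (y z) * y z := by
  have hinv : ∀ v : V, v⁻¹ = v := fun v => inv_eq_of_mul_eq_one_right (hexp v)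
  have hyW : ∀ w ∈ W, y w ∈ W := by
    intro w hw
    have h1 := W.mul_mem (hW w) hw
    rwa [inv_mul_cancel_right] at h1
  have hyz : y z ∈ W := hyW z hz
  have hyyz : y (y z) ∈ W := hyW _ hyz
  have h1z : (1 : V) ≠ z := fun h => hz1 h.symm
  have h1yz : (1 : V) ≠ y z := by
    intro h
    apply hz1
    apply y.injective
    rw [map_one]; exact h.symm
  have h1yyz : (1 : V) ≠ y (y z) := by
    intro h
    apply h1yz
    apply y.injective
    rw [map_one]; exact h
  have hzyz : z ≠ y z := fun h => hz1 (hf z hz h.symm)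
  have hyzyyz : y z ≠ y (y z) := fun h => hzyz (y.injective h)
  have hzyyz : z ≠ y (y z) := by
    intro h
    have hfix : y (z * y z) = z * y z := by
      rw [map_mul, ← h, hcomm]
    have h2 := hf _ (W.mul_mem hz hyz) hfix
    apply hzyz
    have h3 : y z = z⁻¹ := eq_inv_of_mul_eq_one_right h2
    rw [h3, hinv]
  have henum := yy_enum W hW4 1 z (y z) (y (y z)) W.one_mem hz hyz hyyz h1z h1yz h1yyz hzyz
    hzyyz hyzyyz
  refine ⟨hyz, hyyz, henum, ?_⟩
  have hprod : z * y z = y (y z) := by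
    rcases henum (z * y z) (W.mul_mem hz hyz) with h | h | h | h
    · exfalso
      apply hzyz
      have h3 : y z = z⁻¹ := eq_inv_of_mul_eq_one_right h
      rw [h3, hinv]
    · exfalso
      apply h1yz
      have h3 : z * y z = z * 1 := by rw [h, mul_one]
      exact (mul_left_cancel h3).symm
    · exfalso
      apply hz1
      have h3 : z * y z = 1 * y z := by rw [h, one_mul]
      exact mul_right_cancel h3
    · exact h
  rw [← hprod, mul_assoc, hexp, mul_one]

/-- an automorphism commuting with `y` and fixing `z` fixes `W` pointwise -/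
theorem yy_fix {V : Type*} [Group V] (y u : MulAut V) (W : Subgroup V) (z : V)
    (henum : ∀ w ∈ W, w = 1 ∨ w = z ∨ w = y z ∨ w = y (y z)) (hcomm : u * y = y * u)
    (huz : u z = z) : ∀ w ∈ W, u w = w := by
  have h1 : ∀ v, u (y v) = y (u v) := fun v => by
    rw [← MulAut.mul_apply, ← MulAut.mul_apply, hcomm]
  intro w hw
  rcases henum w hw with h | h | h | h
  · rw [h]; exact map_one u
  · rw [h]; exact huz
  · rw [h, h1, huz]
  · rw [h, h1, h1, huz]

theorem yy : YyStmt.{u} := by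
  intro V _ _ hcomm hexp N hN hNc y y' hy hy' W W' hW4 hW'4 hW hW' hf hf' z hzW hzW' hz1
  have hinv : ∀ v : V, v⁻¹ = v := fun v => inv_eq_of_mul_eq_one_right (hexp v)
  obtain ⟨hyz, hyyz, henum, hzeq⟩ := yy_struct hcomm hexp y W hW4 hW hf z hzW hz1
  obtain ⟨hy'z, hy'y'z, henum', -⟩ := yy_struct hcomm hexp y' W' hW'4 hW' hf' z hzW' hz1
  have hyy' : y' * y = y * y' := hNc y' hy' y hy
  have hap : ∀ v, y' (y v) = y (y' v) := fun v => by
    rw [← MulAut.mul_apply, ← MulAut.mul_apply, hyy']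
  -- `y' z ∈ W`
  have hy'zW : y' z ∈ W := by
    have h1 := hW (y' (y z))
    rw [hinv] at h1
    have h2 : y (y' (y z)) * y' (y z) = y' z := by
      rw [← hap, ← map_mul, ← hzeq]
    rwa [h2] at h1
  have hi : ∃ i : ℕ, y' z = (y ^ i) z := by
    rcases henum (y' z) hy'zW with h | h | h | h
    · exfalso; apply hz1; apply y'.injective; rw [map_one]; exact h
    · exfalso; exact hz1 (hf' z hzW' h)
    · exact ⟨1, by rw [pow_one]; exact h⟩
    · exact ⟨2, by rw [pow_two, MulAut.mul_apply]; exact h⟩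
  obtain ⟨i, hi⟩ := hi
  refine ⟨i, ?_⟩
  -- `(y ^ j) v * v ∈ W`
  have hpowW : ∀ (j : ℕ) (v : V), (y ^ j) v * v ∈ W := by
    intro j
    induction j with
    | zero => intro v; rw [pow_zero, MulAut.one_apply, hexp]; exact W.one_mem
    | succ j ih =>
      intro v
      have h0 : y v * v ∈ W := by
        have h := hW v
        rwa [hinv] at h
      have h1 := W.mul_mem (ih (y v)) h0
      have h2 : (y ^ j) (y v) * y v * (y v * v) = (y ^ (j + 1)) v * v := by
        rw [pow_succ, MulAut.mul_apply, mul_assoc, ← mul_assoc (y v), hexp, one_mul]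
      rwa [h2] at h1
  set a : MulAut V := y ^ i with ha
  have haN : a ∈ N := N.pow_mem hy i
  have haW : ∀ v : V, a v * v ∈ W := fun v => hpowW i v
  set u : MulAut V := a⁻¹ * y' with hu
  have huN : u ∈ N := N.mul_mem (N.inv_mem haN) hy'
  have huz : u z = z := by
    show a⁻¹ (y' z) = z
    rw [hi]
    exact MulAut.inv_apply_self V a z
  have hfixW := yy_fix y u W z henum (hNc u huN y hy) huz
  have hfixW' := yy_fix y' u W' z henum' (hNc u huN y' hy') huz
  -- `u * u = 1`
  have huu : u * u = 1 := by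
    ext v
    rw [MulAut.mul_apply, MulAut.one_apply]
    have hc : u (u v * v) = u v * v := by
      have e1 : u v * v = a⁻¹ (y' v * v) * (a (a⁻¹ v) * a⁻¹ v) := by
        have e2 : a (a⁻¹ v) = v := MulAut.apply_inv_self V a v
        rw [e2, map_mul a⁻¹]
        show a⁻¹ (y' v) * v = a⁻¹ (y' v) * a⁻¹ v * (v * a⁻¹ v)
        rw [mul_assoc, hcomm v (a⁻¹ v), ← mul_assoc (a⁻¹ v), hexp, one_mul]
      rw [e1, map_mul u]
      congr 1
      · have hcm : u * a⁻¹ = a⁻¹ * u := hNc u huN a⁻¹ (N.inv_mem haN)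
        have h3 : u (a⁻¹ (y' v * v)) = a⁻¹ (u (y' v * v)) := by
          rw [← MulAut.mul_apply, ← MulAut.mul_apply, hcm]
        have h4 : y' v * v ∈ W' := by
          have h := hW' v
          rwa [hinv] at h
        rw [h3, hfixW' _ h4]
      · exact hfixW _ (haW (a⁻¹ v))
    have e3 : u v = (u v * v) * v := by rw [mul_assoc, hexp, mul_one]
    calc u (u v) = u ((u v * v) * v) := by rw [← e3]
      _ = u (u v * v) * u v := map_mul u _ _
      _ = (u v * v) * u v := by rw [hc]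
      _ = v := by rw [hcomm (u v) v, mul_assoc, hexp, mul_one]
  -- `u = 1`
  have hu1 : u = 1 := by
    obtain ⟨k, hk⟩ := hN ⟨u, huN⟩
    have hk' : u ^ 3 ^ k = 1 := congrArg Subtype.val hk
    have h2 : u ^ 2 = 1 := by rw [pow_two]; exact huu
    have h3 : u ^ Nat.gcd (3 ^ k) 2 = 1 := pow_gcd_eq_one.2 ⟨hk', h2⟩
    have hcop : Nat.gcd (3 ^ k) 2 = 1 := Nat.Coprime.pow_left k (by norm_num)
    rwa [hcop, pow_one] at h3
  have hau : a * u = y' := by rw [hu, ← mul_assoc, mul_inv_cancel, one_mul]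
  rw [← hau, hu1, mul_one]

end Cfsg.Agent.Lib.Helper31.JM
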