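import Mathlib
import Cfsg.Agent.Lib.Helper78.JNDefs

/-!
# Project JN (S2944, helper78), piece OFFB

Inside `H = E × D` with `|E| = 6` acting on the four-group `[V, E]`, an element `z` of order 3
with `[V, z]` of order at most 4 which is not centralized by `b ∈ E` is inverted by `b`, and `b`
centralizes `C_V(z)`.
-/

set_option autoImplicit false

namespace Cfsg.Agent.Lib.Helper31.JN

open Cfsg.Agent.Lib.Helper78.JN Cfsg.Agent.Lib.Helper72.JL Cfsg.Agent.Lib.Helper72.SC
  Cfsg.Agent.Lib.Helper78.Jc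

open scoped commutatorElement

universe u

/-- elements of the join of two elementwise commuting subgroups are products -/
theorem offb_mem_sup {G : Type*} [Group G] (A B : Subgroup G)
    (hAB : ∀ a ∈ A, ∀ b ∈ B, a * b = b * a) (x : G) (hx : x ∈ A ⊔ B) :
    ∃ a ∈ A, ∃ b ∈ B, x = a * b := by
  let P : Subgroup G :=
    { carrier := {x | ∃ a ∈ A, ∃ b ∈ B, x = a * b}
      mul_mem' := by
        rintro x y ⟨a1, ha1, b1, hb1, rfl⟩ ⟨a2, ha2, b2, hb2, rfl⟩
        refine ⟨a1 * a2, A.mul_mem ha1 ha2, b1 * b2, B.mul_mem hb1 hb2, ?_⟩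
        calc a1 * b1 * (a2 * b2) = a1 * (b1 * a2) * b2 := by group
          _ = a1 * (a2 * b1) * b2 := by rw [hAB a2 ha2 b1 hb1]
          _ = a1 * a2 * (b1 * b2) := by group
      one_mem' := ⟨1, A.one_mem, 1, B.one_mem, (mul_one 1).symm⟩
      inv_mem' := by
        rintro x ⟨a, ha, b, hb, rfl⟩
        refine ⟨a⁻¹, A.inv_mem ha, b⁻¹, B.inv_mem hb, ?_⟩
        rw [mul_inv_rev, hAB a⁻¹ (A.inv_mem ha) b⁻¹ (B.inv_mem hb)] }
  have hle : A ⊔ B ≤ P := by
    apply sup_le
    · intro a ha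
      exact ⟨a, ha, 1, B.one_mem, (mul_one a).symm⟩
    · intro b hb
      exact ⟨1, A.one_mem, b, hb, (one_mul b).symm⟩
  exact hle hx

/-- an element commuting with two subgroups commutes with their join -/
theorem offb_cent {G : Type*} [Group G] (V WE U : Subgroup G) (hsup : WE ⊔ U = V) (x : G)
    (h1 : ∀ w ∈ WE, w * x = x * w) (h2 : ∀ u ∈ U, u * x = x * u) :
    x ∈ Subgroup.centralizer (V : Set G) := by
  rw [Subgroup.mem_centralizer_iff]
  have hle : WE ⊔ U ≤ Subgroup.centralizer ({x} : Set G) := by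
    apply sup_le
    · intro w hw
      rw [Subgroup.mem_centralizer_iff]
      intro y hy
      rw [Set.mem_singleton_iff] at hy
      rw [hy]; exact (h1 w hw).symm
    · intro u hu
      rw [Subgroup.mem_centralizer_iff]
      intro y hy
      rw [Set.mem_singleton_iff] at hy
      rw [hy]; exact (h2 u hu).symm
  intro v hv
  rw [← hsup] at hv
  have h3 := Subgroup.mem_centralizer_iff.1 (hle hv) x (Set.mem_singleton x)
  exact h3.symm

theorem offb_card_mul_relIndex {G : Type*} [Group G] (K L : Subgroup G) (h : K ≤ L) :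
    Nat.card K * K.relIndex L = Nat.card L := by
  have h1 := Subgroup.relIndex_mul_relIndex (⊥ : Subgroup G) K L bot_le h
  rwa [Subgroup.relIndex_bot_left, Subgroup.relIndex_bot_left] at h1

/-- a subgroup with three elements is the set of any three distinct elements of it -/
theorem offb_enum3 {G : Type*} [Group G] [Finite G] (K : Subgroup G) (hK3 : Nat.card ↥K = 3)
    (a b c : G) (ha : a ∈ K) (hb : b ∈ K) (hc : c ∈ K) (hab : a ≠ b) (hac : a ≠ c)
    (hbc : b ≠ c) : ∀ w ∈ K, w = a ∨ w = b ∨ w = c := by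
  classical
  have : Fintype ↥K := Fintype.ofFinite _
  have hS : ({⟨a, ha⟩, ⟨b, hb⟩, ⟨c, hc⟩} : Finset ↥K).card = 3 := by
    rw [Finset.card_insert_of_notMem, Finset.card_insert_of_notMem, Finset.card_singleton]
    · simp [hbc]
    · simp [hab, hac]
  have huniv : ({⟨a, ha⟩, ⟨b, hb⟩, ⟨c, hc⟩} : Finset ↥K) = Finset.univ := by
    apply Finset.eq_univ_of_card
    rw [hS, ← Nat.card_eq_fintype_card, hK3]
  intro w hw
  have hmem : (⟨w, hw⟩ : ↥K) ∈ ({⟨a, ha⟩, ⟨b, hb⟩, ⟨c, hc⟩} : Finset ↥K) := by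
    rw [huniv]; exact Finset.mem_univ _
  simpa using hmem

/-- an element of order dividing 3 normalizing a subgroup with four elements and centralizing
a nonidentity element of it centralizes it -/
theorem offb_fix {G : Type*} [Group G] [Finite G] (WE : Subgroup G) (hWE4 : Nat.card ↥WE = 4)
    (e : G) (he3 : e ^ 3 = 1)
    (hnorm : ∀ x ∈ Subgroup.zpowers e, ∀ w ∈ WE, x * w * x⁻¹ ∈ WE)
    (w0 : G) (hw0 : w0 ∈ WE) (hw01 : w0 ≠ 1) (hfix : e * w0 = w0 * e) :
    ∀ w ∈ WE, e * w = w * e := by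
  classical
  have : Fact (Nat.Prime 3) := ⟨by norm_num⟩
  let _ : MulAction (Subgroup.zpowers e) ↥WE :=
    { smul := fun x w => ⟨(x : G) * (w : G) * (x : G)⁻¹, hnorm x x.2 w w.2⟩
      one_smul := fun w => Subtype.ext (by
        show ((1 : Subgroup.zpowers e) : G) * (w : G) * ((1 : Subgroup.zpowers e) : G)⁻¹ = w
        simp)
      mul_smul := fun x y w => Subtype.ext (by
        show ((x * y : Subgroup.zpowers e) : G) * (w : G) *
            ((x * y : Subgroup.zpowers e) : G)⁻¹ =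
          (x : G) * ((y : G) * (w : G) * (y : G)⁻¹) * (x : G)⁻¹
        rw [Subgroup.coe_mul]; group) }
  have hsmul : ∀ (x : Subgroup.zpowers e) (w : ↥WE),
      ((x • w : ↥WE) : G) = (x : G) * w * (x : G)⁻¹ := fun x w => rfl
  have hP3 : IsPGroup 3 (Subgroup.zpowers e) := by
    rintro ⟨g, hg⟩
    refine ⟨1, ?_⟩
    apply Subtype.ext
    obtain ⟨i, rfl⟩ := Subgroup.mem_zpowers_iff.1 hg
    show (e ^ i) ^ 3 ^ 1 = 1
    rw [pow_one, ← zpow_natCast, ← zpow_mul, mul_comm, zpow_mul, zpow_natCast, he3, one_zpow]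
  have hcong := hP3.card_modEq_card_fixedPoints ↥WE
  let F : Subgroup ↥WE := (Subgroup.centralizer ({e} : Set G)).subgroupOf WE
  have hFmem : ∀ w : ↥WE, w ∈ F ↔ e * (w : G) = (w : G) * e := by
    intro w
    show (w : G) ∈ Subgroup.centralizer ({e} : Set G) ↔ _
    rw [Subgroup.mem_centralizer_iff]
    constructor
    · intro hn
      exact hn e (Set.mem_singleton e)
    · intro hn g hg
      rw [Set.mem_singleton_iff] at hg
      rw [hg]; exact hn
  have hset : MulAction.fixedPoints (Subgroup.zpowers e) ↥WE = (F : Set ↥WE) := by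
    ext w
    rw [MulAction.mem_fixedPoints, SetLike.mem_coe, hFmem]
    constructor
    · intro hn
      have h1 := congrArg Subtype.val (hn ⟨e, Subgroup.mem_zpowers e⟩)
      rw [hsmul] at h1
      have h2 : e * (w : G) * e⁻¹ = (w : G) := h1
      calc e * (w : G) = e * (w : G) * e⁻¹ * e := by group
        _ = (w : G) * e := by rw [h2]
    · intro hn x
      apply Subtype.ext
      rw [hsmul]
      obtain ⟨k, hk⟩ := Subgroup.mem_zpowers_iff.1 x.2
      have hcomm : Commute e (w : G) := hn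
      have hcomm2 : Commute (e ^ k) (w : G) := hcomm.zpow_left k
      rw [← hk]
      have h3 : e ^ k * (w : G) = (w : G) * e ^ k := hcomm2
      rw [h3]
      group
  have hcardF : Nat.card (MulAction.fixedPoints (Subgroup.zpowers e) ↥WE) = Nat.card F := by
    rw [hset]; rfl
  rw [hcardF, hWE4] at hcong
  have hFd : Nat.card F ∣ 4 := by
    rw [← hWE4]; exact Subgroup.card_subgroup_dvd_card F
  have hw0F : (⟨w0, hw0⟩ : ↥WE) ∈ F := (hFmem _).2 hfix
  have hF1 : Nat.card F ≠ 1 := by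
    intro h1
    have hb := Subgroup.eq_bot_of_card_eq F h1
    rw [hb, Subgroup.mem_bot] at hw0F
    exact hw01 (congrArg Subtype.val hw0F)
  have hF4 : Nat.card F = 4 := by
    have hle : Nat.card F ≤ 4 := Nat.le_of_dvd (by norm_num) hFd
    unfold Nat.ModEq at hcong
    generalize Nat.card ↥F = k at hcong hFd hF1 hle
    interval_cases k <;> first | rfl | (exfalso; revert hcong hFd hF1; decide)
  have hFtop : F = ⊤ := Subgroup.eq_top_of_card_eq F (by rw [hF4, hWE4])
  intro w hw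
  have hwF : (⟨w, hw⟩ : ↥WE) ∈ F := by rw [hFtop]; exact Subgroup.mem_top _
  exact (hFmem _).1 hwF

theorem offb : OffbStmt.{u} := by
  intro G _ _ V H E D hVc hHN hHV hE6 hWE4 hdis hsup hED hEDbot hEDH hDWE hVD z b hzH hz3 hbE
    hbz W hW4 hW
  classical
  have : Fact (Nat.Prime 3) := ⟨by norm_num⟩
  have hEH : E ≤ H := by rw [← hEDH]; exact le_sup_left
  have hDH : D ≤ H := by rw [← hEDH]; exact le_sup_right
  have hWEV : ⁅V, E⁆ ≤ V := by
    have h1 : ⁅V, E⁆ ≤ ⁅V, E⁆ ⊔ (V ⊓ Subgroup.centralizer (E : Set G)) := le_sup_left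
    rwa [hsup] at h1
  have hUE : ∀ u ∈ V ⊓ Subgroup.centralizer (E : Set G), ∀ x ∈ E, x * u = u * x :=
    fun u hu x hx => Subgroup.mem_centralizer_iff.1 (Subgroup.mem_inf.1 hu).2 x hx
  -- `E` normalizes `V` and `[V, E]`
  have hEV : ∀ x ∈ E, ∀ v ∈ V, x * v * x⁻¹ ∈ V := fun x hx v hv =>
    (Subgroup.mem_normalizer_iff.1 (hHN (hEH hx)) v).1 hv
  have hEWE : ∀ x ∈ E, ∀ w ∈ ⁅V, E⁆, x * w * x⁻¹ ∈ ⁅V, E⁆ := by
    intro x hx
    have hle : ⁅V, E⁆ ≤ (⁅V, E⁆ : Subgroup G).comap (MulAut.conj x).toMonoidHom := by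
      rw [Subgroup.commutator_le]
      intro v hv y hy
      show x * ⁅v, y⁆ * x⁻¹ ∈ ⁅V, E⁆
      have h1 : x * ⁅v, y⁆ * x⁻¹ = ⁅x * v * x⁻¹, x * y * x⁻¹⁆ := by
        simp only [commutatorElement_def]; group
      rw [h1]
      exact Subgroup.commutator_mem_commutator (hEV x hx v hv)
        (E.mul_mem (E.mul_mem hx hy) (E.inv_mem hx))
    intro w hw
    exact hle hw
  -- decompose `z`
  obtain ⟨e, heE, d, hdD, hzed⟩ := offb_mem_sup E D hED z (by rw [hEDH]; exact hzH)
  have hbd : b * d = d * b := hED b hbE d hdD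
  have hed : e * d = d * e := hED e heE d hdD
  have hbe : b * e ≠ e * b := by
    intro h
    apply hbz
    rw [hzed]
    calc b * (e * d) = (b * e) * d := by group
      _ = (e * b) * d := by rw [h]
      _ = e * (b * d) := by group
      _ = e * (d * b) := by rw [hbd]
      _ = e * d * b := by group
  have he1 : e ≠ 1 := by
    intro h
    apply hbe
    rw [h, mul_one, one_mul]
  have he3 : e ^ 3 = 1 := by
    have h1 : (e * d) ^ 3 = e ^ 3 * d ^ 3 := (show Commute e d from hed).mul_pow 3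
    rw [← hzed, hz3] at h1
    have h2 : e ^ 3 = (d ^ 3)⁻¹ := eq_inv_of_mul_eq_one_left h1.symm
    have h3 : e ^ 3 ∈ E ⊓ D :=
      Subgroup.mem_inf.2 ⟨E.pow_mem heE 3, by rw [h2]; exact D.inv_mem (D.pow_mem hdD 3)⟩
    rw [hEDbot, Subgroup.mem_bot] at h3
    exact h3
  -- `e` does not centralize `[V, E]`
  have hnc : ¬ ∀ w ∈ ⁅V, E⁆, w * e = e * w := by
    intro hall
    have hc := offb_cent V ⁅V, E⁆ (V ⊓ Subgroup.centralizer (E : Set G)) hsup e hall
      (fun u hu => (hUE u hu e heE).symm)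
    have h1 : e ∈ H ⊓ Subgroup.centralizer (V : Set G) := Subgroup.mem_inf.2 ⟨hEH heE, hc⟩
    rw [hHV, Subgroup.mem_bot] at h1
    exact he1 h1
  -- `e` acts without fixed points on `[V, E]`
  have hfpf : ∀ w ∈ ⁅V, E⁆, e * w * e⁻¹ = w → w = 1 := by
    intro w0 hw0 hfix
    by_contra hw01
    apply hnc
    have hfix' : e * w0 = w0 * e := by
      calc e * w0 = e * w0 * e⁻¹ * e := by group
        _ = w0 * e := by rw [hfix]
    have hnorm : ∀ x ∈ Subgroup.zpowers e, ∀ w ∈ ⁅V, E⁆, x * w * x⁻¹ ∈ ⁅V, E⁆ :=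
      fun x hx w hw => hEWE x ((Subgroup.zpowers_le.2 heE) hx) w hw
    intro w hw
    exact (offb_fix ⁅V, E⁆ hWE4 e he3 hnorm w0 hw0 hw01 hfix' w hw).symm
  -- the map `w ↦ w⁻¹ * (e w e⁻¹)` is onto `[V, E]`
  have hsurj : ∀ w' ∈ ⁅V, E⁆, ∃ w ∈ ⁅V, E⁆, w⁻¹ * (e * w * e⁻¹) = w' := by
    let fδ : ↥(⁅V, E⁆ : Subgroup G) → ↥(⁅V, E⁆ : Subgroup G) := fun w =>
      ⟨(w : G)⁻¹ * (e * (w : G) * e⁻¹),
        Subgroup.mul_mem _ (Subgroup.inv_mem _ w.2) (hEWE e heE w w.2)⟩
    have hinj : Function.Injective fδ := by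
      intro w1 w2 h
      have h' : (w1 : G)⁻¹ * (e * (w1 : G) * e⁻¹) = (w2 : G)⁻¹ * (e * (w2 : G) * e⁻¹) :=
        congrArg Subtype.val h
      have hx : e * ((w2 : G) * (w1 : G)⁻¹) * e⁻¹ = (w2 : G) * (w1 : G)⁻¹ := by
        calc e * ((w2 : G) * (w1 : G)⁻¹) * e⁻¹
            = (w2 : G) * ((w2 : G)⁻¹ * (e * (w2 : G) * e⁻¹)) * (e * (w1 : G) * e⁻¹)⁻¹ := by
              group
          _ = (w2 : G) * ((w1 : G)⁻¹ * (e * (w1 : G) * e⁻¹)) * (e * (w1 : G) * e⁻¹)⁻¹ := by
              rw [h']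
          _ = (w2 : G) * (w1 : G)⁻¹ := by group
      have h1 := hfpf _ (Subgroup.mul_mem _ w2.2 (Subgroup.inv_mem _ w1.2)) hx
      apply Subtype.ext
      have h2 : (w2 : G) = (w1 : G) := mul_inv_eq_one.1 h1
      exact h2.symm
    have hsur := Finite.surjective_of_injective hinj
    intro w' hw'
    obtain ⟨w, hw⟩ := hsur ⟨w', hw'⟩
    exact ⟨w, w.2, congrArg Subtype.val hw⟩
  -- `d` acts trivially on `[V, E]`
  have hdWE : ∀ w ∈ ⁅V, E⁆, d * w * d⁻¹ = w := by
    intro w hw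
    have h1 := Subgroup.mem_centralizer_iff.1 (hDWE hdD) w hw
    rw [← h1]; group
  have hzw : ∀ w ∈ ⁅V, E⁆, z * w * z⁻¹ = e * w * e⁻¹ := by
    intro w hw
    rw [hzed]
    calc e * d * w * (e * d)⁻¹ = e * (d * w * d⁻¹) * e⁻¹ := by group
      _ = e * w * e⁻¹ := by rw [hdWE w hw]
  -- `[V, E] = W`
  have hWEW : ⁅V, E⁆ ≤ W := by
    intro w' hw'
    obtain ⟨w, hw, rfl⟩ := hsurj w' hw'
    rw [← hzw w hw]
    exact hW w (hWEV hw)
  have hWeq : ⁅V, E⁆ = W := Subgroup.eq_of_le_of_card_ge hWEW (by rw [hWE4]; exact hW4)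
  -- `d` centralizes `U`
  have hdU : ∀ u ∈ V ⊓ Subgroup.centralizer (E : Set G), u * d = d * u := by
    intro u hu
    have hduV : d * u * d⁻¹ ∈ V := (Subgroup.mem_normalizer_iff.1 (hHN (hDH hdD)) u).1
      (Subgroup.mem_inf.1 hu).1
    have hduU : d * u * d⁻¹ ∈ V ⊓ Subgroup.centralizer (E : Set G) := by
      refine Subgroup.mem_inf.2 ⟨hduV, ?_⟩
      rw [Subgroup.mem_centralizer_iff]
      intro x hx
      have h1 : x * d = d * x := hED x hx d hdD
      have h2 : x * u = u * x := hUE u hu x hx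
      have h3 : x * d⁻¹ = d⁻¹ * x := by
        calc x * d⁻¹ = d⁻¹ * (d * x) * d⁻¹ := by group
          _ = d⁻¹ * (x * d) * d⁻¹ := by rw [h1]
          _ = d⁻¹ * x := by group
      calc x * (d * u * d⁻¹) = (x * d) * u * d⁻¹ := by group
        _ = d * (x * u) * d⁻¹ := by rw [h1]; group
        _ = d * u * (x * d⁻¹) := by rw [h2]; group
        _ = d * u * d⁻¹ * x := by rw [h3]; group
    have hzu : z * u * z⁻¹ = d * u * d⁻¹ := by
      rw [hzed]
      have h1 : e * (d * u * d⁻¹) = (d * u * d⁻¹) * e := hUE _ hduU e heE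
      calc e * d * u * (e * d)⁻¹ = e * (d * u * d⁻¹) * e⁻¹ := by group
        _ = (d * u * d⁻¹) * e * e⁻¹ := by rw [h1]
        _ = d * u * d⁻¹ := by group
    have h1 : u⁻¹ * (d * u * d⁻¹) ∈ ⁅V, E⁆ ⊓ (V ⊓ Subgroup.centralizer (E : Set G)) := by
      refine Subgroup.mem_inf.2 ⟨?_, Subgroup.mul_mem _ (Subgroup.inv_mem _ hu) hduU⟩
      rw [hWeq, ← hzu]
      exact hW u (Subgroup.mem_inf.1 hu).1
    rw [hdis, Subgroup.mem_bot] at h1
    have h2 : u = d * u * d⁻¹ := inv_mul_eq_one.1 h1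
    calc u * d = (d * u * d⁻¹) * d := by rw [← h2]
      _ = d * u := by group
  have hd1 : d = 1 := by
    have hc := offb_cent V ⁅V, E⁆ (V ⊓ Subgroup.centralizer (E : Set G)) hsup d
      (fun w hw => Subgroup.mem_centralizer_iff.1 (hDWE hdD) w hw) hdU
    have h1 : d ∈ H ⊓ Subgroup.centralizer (V : Set G) := Subgroup.mem_inf.2 ⟨hDH hdD, hc⟩
    rw [hHV, Subgroup.mem_bot] at h1
    exact h1
  have hze : z = e := by rw [hzed, hd1, mul_one]
  have hzE : z ∈ E := by rw [hze]; exact heE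
  have hz1 : z ≠ 1 := by rw [hze]; exact he1
  -- `⟨z⟩` is normal in `E`
  have hord : orderOf z = 3 := orderOf_eq_prime hz3 hz1
  have hzle : Subgroup.zpowers z ≤ E := Subgroup.zpowers_le.2 hzE
  have hcardz : Nat.card (Subgroup.zpowers z) = 3 := by rw [Nat.card_zpowers, hord]
  have hidx : ((Subgroup.zpowers z).subgroupOf E).index = 2 := by
    have h1 := offb_card_mul_relIndex (Subgroup.zpowers z) E hzle
    rw [hcardz, hE6] at h1
    show (Subgroup.zpowers z).relIndex E = 2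
    omega
  have hnormal : ((Subgroup.zpowers z).subgroupOf E).Normal :=
    Subgroup.normal_of_index_eq_two hidx
  have hconj : b * z * b⁻¹ ∈ Subgroup.zpowers z := by
    have h1 := hnormal.conj_mem ⟨z, hzE⟩
      (Subgroup.mem_subgroupOf.2 (Subgroup.mem_zpowers z)) ⟨b, hbE⟩
    exact Subgroup.mem_subgroupOf.1 h1
  have hzinv : z⁻¹ ∈ Subgroup.zpowers z :=
    (Subgroup.zpowers z).inv_mem (Subgroup.mem_zpowers z)
  have hz_ne_inv : z ≠ z⁻¹ := by
    intro h
    apply hz1
    have h2 : z * z = 1 := by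
      calc z * z = z * z⁻¹ := by rw [← h]
        _ = 1 := mul_inv_cancel z
    have h3 : z ^ 3 = z := by rw [pow_succ, pow_two, h2, one_mul]
    rw [← h3, hz3]
  have h3cases := offb_enum3 (Subgroup.zpowers z) hcardz 1 z z⁻¹ (one_mem _)
    (Subgroup.mem_zpowers z) hzinv (Ne.symm hz1) (fun h => hz1 (inv_eq_one.1 h.symm))
    hz_ne_inv (b * z * b⁻¹) hconj
  have hinvt : b * z * b⁻¹ = z⁻¹ := by
    rcases h3cases with h | h | h
    · exfalso
      apply hz1
      have h4 : z = b⁻¹ * (b * z * b⁻¹) * b := by group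
      rw [h4, h]; group
    · exfalso
      apply hbz
      calc b * z = b * z * b⁻¹ * b := by group
        _ = z * b := by rw [h]
    · exact h
  refine ⟨hinvt, ?_⟩
  intro v hv hzv
  obtain ⟨w, hw, u, hu, hvwu⟩ := offb_mem_sup ⁅V, E⁆ (V ⊓ Subgroup.centralizer (E : Set G))
    (fun w hw u hu => hVc w (hWEV hw) u (Subgroup.mem_inf.1 hu).1) v (by rw [hsup]; exact hv)
  have hzu : z * u = u * z := hUE u hu z hzE
  have hw1 : w = 1 := by
    apply hfpf w hw
    rw [← hze]
    have h1 : z * w * u = w * z * u := by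
      calc z * w * u = z * (w * u) := by group
        _ = w * u * z := by rw [← hvwu]; exact hzv
        _ = w * (u * z) := by group
        _ = w * (z * u) := by rw [hzu]
        _ = w * z * u := by group
    have h2 : z * w = w * z := mul_right_cancel h1
    rw [h2]; group
  rw [hvwu, hw1, one_mul]
  exact hUE u hu b hbE

end Cfsg.Agent.Lib.Helper31.JN
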