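import Mathlib
import Cfsg.Agent.Lib.Helper72.JPDefs

/-!
# Project JP (helper72), piece K4C

Counting with a largest elementary abelian subgroup `A`: if `W ≠ C_W(A₁)` a second layer gives an
elementary abelian subgroup of order `2 |A|`; conclusion `|W| = 4`.
-/

set_option autoImplicit false

namespace Cfsg.Agent.Lib.Helper31.JP

open Cfsg.Agent.Lib.Helper72.JP Cfsg.Agent.Lib.Helper72.JM Cfsg.Agent.Lib.Helper72.JL
  Cfsg.Agent.Lib.Helper72.SC Cfsg.Agent.Lib.Helper78.Jc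

open scoped commutatorElement

universe u

/-- elements of the join of two elementwise commuting subgroups are products -/
theorem k4c_mem_sup {G : Type*} [Group G] (A B : Subgroup G)
    (hAB : ∀ a ∈ A, ∀ b ∈ B, a * b = b * a) (x : G) (hx : x ∈ A ⊔ B) :
    ∃ a ∈ A, ∃ b ∈ B, x = a * b := by
  let P : Subgroup G :=
    { carrier := {x | ∃ a ∈ A, ∃ b ∈ B, x = a * b}
      mul_mem' := by
        rintro x y ⟨a1, ha1, b1, hb1, rfl⟩ ⟨a2, ha2, b2, hb2, rfl⟩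
        refine ⟨a1 * a2, A.mul_mem ha1 ha2, b1 * b2, B.mul_mem hb1 hb2, ?_⟩
        calc a1 * b1 * (a2 * b2) = a1 * (b1 * a2) * b2 := by group
          _ = a1 * (a2 * b1) * b2 := by rw [hAB a2 ha2 b1 hb1]
          _ = a1 * a2 * (b1 * b2) := by group
      one_mem' := ⟨1, A.one_mem, 1, B.one_mem, (mul_one 1).symm⟩
      inv_mem' := by
        rintro x ⟨a, ha, b, hb, rfl⟩
        refine ⟨a⁻¹, A.inv_mem ha, b⁻¹, B.inv_mem hb, ?_⟩
        rw [mul_inv_rev, hAB a⁻¹ (A.inv_mem ha) b⁻¹ (B.inv_mem hb)] }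
  have hle : A ⊔ B ≤ P := by
    apply sup_le
    · intro a ha
      exact ⟨a, ha, 1, B.one_mem, (mul_one a).symm⟩
    · intro b hb
      exact ⟨1, A.one_mem, b, hb, (one_mul b).symm⟩
  exact hle hx

theorem k4c_mem_inf_cent {G : Type*} [Group G] (H : Subgroup G) (c g : G) :
    g ∈ H ⊓ Subgroup.centralizer ({c} : Set G) ↔ g ∈ H ∧ c * g = g * c := by
  constructor
  · intro h
    obtain ⟨h1, h2⟩ := Subgroup.mem_inf.1 h
    exact ⟨h1, Subgroup.mem_centralizer_iff.1 h2 c (Set.mem_singleton c)⟩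
  · rintro ⟨h1, h2⟩
    refine Subgroup.mem_inf.2 ⟨h1, ?_⟩
    rw [Subgroup.mem_centralizer_iff]
    intro y hy
    rw [Set.mem_singleton_iff] at hy
    rw [hy]; exact h2

/-- a strictly larger subgroup has at least twice the order -/
theorem k4c_lt2 {G : Type*} [Group G] [Finite G] (H K : Subgroup G) (hHK : H ≤ K) (x : G)
    (hxK : x ∈ K) (hxH : x ∉ H) : 2 * Nat.card H ≤ Nat.card K := by
  obtain ⟨m, hm⟩ := Subgroup.card_dvd_of_le hHK
  have hpos : 0 < Nat.card K := Nat.card_pos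
  have hm1 : m ≠ 1 := by
    intro h1
    rw [h1, mul_one] at hm
    have h2 := Subgroup.eq_of_le_of_card_ge hHK (le_of_eq hm)
    exact hxH (h2 ▸ hxK)
  have hm0 : m ≠ 0 := by
    intro h0
    rw [h0, mul_zero] at hm
    omega
  have h2 : 2 ≤ m := by omega
  calc 2 * Nat.card H = Nat.card H * 2 := mul_comm _ _
    _ ≤ Nat.card H * m := Nat.mul_le_mul_left _ h2
    _ = Nat.card K := hm.symm

/-- a subgroup covered by two cosets of another has at most twice its order -/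
theorem k4c_idx2 {G : Type*} [Group G] [Finite G] (H K : Subgroup G) (c : G)
    (h : ∀ x ∈ K, x ∈ H ∨ x * c ∈ H) : Nat.card K ≤ 2 * Nat.card H := by
  classical
  let f : ↥K → ↥H × Bool := fun x =>
    if hx : (x : G) ∈ H then (⟨x, hx⟩, true)
    else (⟨(x : G) * c, (h x x.2).resolve_left hx⟩, false)
  have hf : Function.Injective f := by
    intro x y hxy
    by_cases hx : (x : G) ∈ H <;> by_cases hy : (y : G) ∈ H
    · simp only [f, dif_pos hx, dif_pos hy, Prod.mk.injEq, Subtype.mk.injEq, and_true] at hxy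
      exact Subtype.ext hxy
    · simp only [f, dif_pos hx, dif_neg hy, Prod.mk.injEq] at hxy
      exact absurd hxy.2 (by decide)
    · simp only [f, dif_neg hx, dif_pos hy, Prod.mk.injEq] at hxy
      exact absurd hxy.2 (by decide)
    · simp only [f, dif_neg hx, dif_neg hy, Prod.mk.injEq, Subtype.mk.injEq, and_true] at hxy
      exact Subtype.ext (mul_right_cancel hxy)
  have h1 := Nat.card_le_card_of_injective f hf
  rw [Nat.card_prod, Nat.card_eq_fintype_card (α := Bool), Fintype.card_bool] at h1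
  omega

theorem k4c_four_le {G : Type*} [Group G] [Finite G] (K : Subgroup G) (a b c d : G)
    (ha : a ∈ K) (hb : b ∈ K) (hc : c ∈ K) (hd : d ∈ K) (hab : a ≠ b) (hac : a ≠ c)
    (had : a ≠ d) (hbc : b ≠ c) (hbd : b ≠ d) (hcd : c ≠ d) : 4 ≤ Nat.card K := by
  classical
  have : Fintype ↥K := Fintype.ofFinite _
  have hS : ({⟨a, ha⟩, ⟨b, hb⟩, ⟨c, hc⟩, ⟨d, hd⟩} : Finset ↥K).card = 4 := by
    rw [Finset.card_insert_of_notMem, Finset.card_insert_of_notMem,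
      Finset.card_insert_of_notMem, Finset.card_singleton]
    · simp [hcd]
    · simp [hbc, hbd]
    · simp [hab, hac, had]
  rw [Nat.card_eq_fintype_card, ← hS]
  exact Finset.card_le_univ _

theorem k4c_two {G : Type*} [Group G] [Finite G] (K : Subgroup G) (hK : Nat.card K ≤ 2)
    (g g' : G) (hg : g ∈ K) (hg' : g' ∈ K) (hg1 : g ≠ 1) (hg'1 : g' ≠ 1) : g = g' := by
  classical
  by_contra hne
  have : Fintype ↥K := Fintype.ofFinite _
  have hS : ({⟨1, K.one_mem⟩, ⟨g, hg⟩, ⟨g', hg'⟩} : Finset ↥K).card = 3 := by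
    rw [Finset.card_insert_of_notMem, Finset.card_insert_of_notMem, Finset.card_singleton]
    · simp [hne]
    · simp [Ne.symm hg1, Ne.symm hg'1]
  have h3 : 3 ≤ Nat.card K := by
    rw [Nat.card_eq_fintype_card, ← hS]
    exact Finset.card_le_univ _
  omega

/-- the product formula as an inequality, for elementwise commuting subgroups -/
theorem k4c_prod {G : Type*} [Group G] [Finite G] (H K : Subgroup G)
    (hc : ∀ h ∈ H, ∀ k ∈ K, h * k = k * h) :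
    Nat.card H * Nat.card K ≤ Nat.card ↥(H ⊓ K) * Nat.card ↥(H ⊔ K) := by
  classical
  let f : ↥H × ↥K →* G :=
    H.subtype.noncommCoprod K.subtype (fun h k => hc h h.2 k k.2)
  have hf : ∀ p : ↥H × ↥K, f p = (p.1 : G) * (p.2 : G) := fun p => rfl
  have h1 : Nat.card f.ker * Nat.card f.range = Nat.card (↥H × ↥K) := by
    rw [← Subgroup.index_ker]
    exact Subgroup.card_mul_index f.ker
  have h2 : Nat.card f.range ≤ Nat.card ↥(H ⊔ K) := by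
    apply Subgroup.card_le_of_le
    rintro _ ⟨p, rfl⟩
    rw [hf]
    exact Subgroup.mul_mem _ (Subgroup.mem_sup_left p.1.2) (Subgroup.mem_sup_right p.2.2)
  have hker : ∀ p : f.ker, ((p : ↥H × ↥K).2 : G) = ((p : ↥H × ↥K).1 : G)⁻¹ := by
    intro p
    have hp : f (p : ↥H × ↥K) = 1 := MonoidHom.mem_ker.1 p.2
    rw [hf] at hp
    exact eq_inv_of_mul_eq_one_right hp
  have h3 : Nat.card f.ker ≤ Nat.card ↥(H ⊓ K) := by
    let g : f.ker → ↥(H ⊓ K) := fun p =>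
      ⟨((p : ↥H × ↥K).1 : G), Subgroup.mem_inf.2 ⟨(p : ↥H × ↥K).1.2, by
        have h := hker p
        have h' : ((p : ↥H × ↥K).1 : G) = ((p : ↥H × ↥K).2 : G)⁻¹ := by rw [h, inv_inv]
        rw [h']
        exact K.inv_mem (p : ↥H × ↥K).2.2⟩⟩
    apply Nat.card_le_card_of_injective g
    intro p q hpq
    have h4 : ((p : ↥H × ↥K).1 : G) = ((q : ↥H × ↥K).1 : G) := by
      have h := congrArg Subtype.val hpq
      exact h
    apply Subtype.ext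
    apply Prod.ext
    · exact Subtype.ext h4
    · apply Subtype.ext
      rw [hker p, hker q, h4]
  rw [Nat.card_prod] at h1
  calc Nat.card H * Nat.card K = Nat.card f.ker * Nat.card f.range := h1.symm
    _ ≤ Nat.card ↥(H ⊓ K) * Nat.card ↥(H ⊔ K) := Nat.mul_le_mul h3 h2

/-- descent: an elementary abelian 2-group `B` acting on an elementary abelian 2-group `W` with
a subgroup `U` not containing `W`: some element of `W` outside `U` has all its commutators with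
`B` in `U` -/
theorem k4c_desc {G : Type*} [Group G] [Finite G] (B W U : Subgroup G)
    (hBc : ∀ x ∈ B, ∀ y ∈ B, x * y = y * x) (hB2 : ∀ x ∈ B, x * x = 1)
    (hWc : ∀ u ∈ W, ∀ v ∈ W, u * v = v * u) (hW2 : ∀ u ∈ W, u * u = 1)
    (hBW : ∀ x ∈ B, ∀ u ∈ W, x * u * x⁻¹ ∈ W) (hne : ∃ w ∈ W, w ∉ U) :
    ∃ w ∈ W, w ∉ U ∧ ∀ x ∈ B, x * w * x⁻¹ * w⁻¹ ∈ U := by
  classical
  obtain ⟨w0, hw0W, hw0U⟩ := hne
  have hne' : Nonempty {w : G // w ∈ W ∧ w ∉ U} := ⟨⟨w0, hw0W, hw0U⟩⟩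
  obtain ⟨s, hs⟩ := Finite.exists_max (fun s : {w : G // w ∈ W ∧ w ∉ U} =>
    Nat.card ↥(B ⊓ Subgroup.centralizer ({(s : G)} : Set G)))
  obtain ⟨w, hwW, hwU⟩ := s
  refine ⟨w, hwW, hwU, ?_⟩
  intro x hx
  by_contra hnot
  have hcW : x * w * x⁻¹ ∈ W := hBW x hx w hwW
  have hw'W : x * w * x⁻¹ * w⁻¹ ∈ W := W.mul_mem hcW (W.inv_mem hwW)
  have hle : B ⊓ Subgroup.centralizer ({w} : Set G) ≤
      B ⊓ Subgroup.centralizer ({x * w * x⁻¹ * w⁻¹} : Set G) := by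
    intro y hy
    obtain ⟨hyB, hyw⟩ := (k4c_mem_inf_cent B w y).1 hy
    refine (k4c_mem_inf_cent B _ y).2 ⟨hyB, ?_⟩
    have c1 : Commute y w := hyw.symm
    have c2 : Commute y x := hBc y hyB x hx
    have c3 : Commute y (x * w * x⁻¹ * w⁻¹) :=
      ((c2.mul_right c1).mul_right c2.inv_right).mul_right c1.inv_right
    exact c3.eq.symm
  have hmax : Nat.card ↥(B ⊓ Subgroup.centralizer ({x * w * x⁻¹ * w⁻¹} : Set G)) ≤
      Nat.card ↥(B ⊓ Subgroup.centralizer ({w} : Set G)) :=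
    hs ⟨x * w * x⁻¹ * w⁻¹, hw'W, hnot⟩
  have heq := Subgroup.eq_of_le_of_card_ge hle hmax
  have hx2 : x * x = 1 := hB2 x hx
  have hxinv : x⁻¹ = x := inv_eq_of_mul_eq_one_left hx2
  have hw2 : w * w = 1 := hW2 w hwW
  have hwinv : w⁻¹ = w := inv_eq_of_mul_eq_one_left hw2
  have hcomm : (x * w * x⁻¹) * w = w * (x * w * x⁻¹) := hWc _ hcW w hwW
  have hxin : x ∈ B ⊓ Subgroup.centralizer ({x * w * x⁻¹ * w⁻¹} : Set G) := by
    refine (k4c_mem_inf_cent B _ x).2 ⟨hx, ?_⟩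
    rw [hwinv]
    rw [hxinv] at hcomm ⊢
    calc x * w * x * w * x = (w * (x * w * x)) * x := by rw [← hcomm]
      _ = w * x * w * (x * x) := by group
      _ = w * x * w := by rw [hx2, mul_one]
      _ = (x * x) * w * x * w := by rw [hx2, one_mul]
      _ = x * (x * w * x * w) := by group
  rw [← heq] at hxin
  have h5 : w * x = x * w := ((k4c_mem_inf_cent B w x).1 hxin).2
  apply hnot
  have h6 : x * w * x⁻¹ * w⁻¹ = 1 := by rw [← h5]; group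
  rw [h6]
  exact U.one_mem

theorem k4c : K4cStmt.{u} := by
  intro X _ _ T A A₁ P W a k hA ha hA₁ hcov hPT hAN hkN hk3 hak hA₁k hWP hWc hW2 hfpf hkW hAW h4
    hW0
  classical
  obtain ⟨hAT, hAc, hA2, hAmax⟩ := hA
  have hWcomm : ∀ u ∈ W, ∀ v ∈ W, u * v = v * u := fun u hu v hv => hWc u hu v (hWP hv)
  -- conjugation by `A₁` commutes with conjugation by `k` on `W`
  have hcomm1 : ∀ x ∈ A₁, ∀ w ∈ W, x * (k * w * k⁻¹) * x⁻¹ = k * (x * w * x⁻¹) * k⁻¹ := by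
    intro x hx w hw
    have hp : x * k * x⁻¹ * k⁻¹ ∈ P := hA₁k x hx
    have hc : k * (x * w * x⁻¹) * k⁻¹ ∈ W := hkW _ (hAW x (hA₁ hx) w hw)
    have h1 := hWc _ hc _ hp
    calc x * (k * w * k⁻¹) * x⁻¹
        = (x * k * x⁻¹ * k⁻¹) * (k * (x * w * x⁻¹) * k⁻¹) * (x * k * x⁻¹ * k⁻¹)⁻¹ := by group
      _ = (k * (x * w * x⁻¹) * k⁻¹) * (x * k * x⁻¹ * k⁻¹) * (x * k * x⁻¹ * k⁻¹)⁻¹ := by
          rw [← h1]
      _ = k * (x * w * x⁻¹) * k⁻¹ := by group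
  have hkinv : k⁻¹ = k * k := by
    have h1 : k * (k * k) = 1 := by
      have h := hk3
      rw [pow_succ, pow_two, mul_assoc] at h
      exact h
    exact inv_eq_of_mul_eq_one_right h1
  have hkk : ∀ v : X, k * (k * v * k⁻¹) * k⁻¹ = k⁻¹ * v * k := by
    intro v
    calc k * (k * v * k⁻¹) * k⁻¹ = (k * k) * v * (k * k)⁻¹ := by group
      _ = k⁻¹ * v * k := by rw [← hkinv, inv_inv]
  have hkkk : ∀ v : X, k * (k * (k * v * k⁻¹) * k⁻¹) * k⁻¹ = v := by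
    intro v
    rw [hkk]
    group
  have hκinvW : ∀ w ∈ W, k⁻¹ * w * k ∈ W := by
    intro w hw
    have h1 := hkW _ (hkW w hw)
    rwa [hkk] at h1
  -- `W₁`
  obtain ⟨W₁, hW₁def⟩ : ∃ W₁ : Subgroup X, W₁ = W ⊓ Subgroup.centralizer (A₁ : Set X) :=
    ⟨_, rfl⟩
  rw [← hW₁def] at h4
  have hW₁mem : ∀ w, w ∈ W₁ ↔ w ∈ W ∧ ∀ x ∈ A₁, x * w = w * x := by
    intro w
    rw [hW₁def, Subgroup.mem_inf, Subgroup.mem_centralizer_iff]
    exact Iff.rfl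
  have hW₁W : W₁ ≤ W := fun w hw => ((hW₁mem w).1 hw).1
  have hκW₁ : ∀ w ∈ W₁, k * w * k⁻¹ ∈ W₁ := by
    intro w hw
    obtain ⟨hwW, hwc⟩ := (hW₁mem w).1 hw
    refine (hW₁mem _).2 ⟨hkW w hwW, fun x hx => ?_⟩
    have h1 := hcomm1 x hx w hwW
    have h2 : x * w * x⁻¹ = w := by rw [hwc x hx]; group
    rw [h2] at h1
    calc x * (k * w * k⁻¹) = x * (k * w * k⁻¹) * x⁻¹ * x := by group
      _ = k * w * k⁻¹ * x := by rw [h1]
  have hκinvW₁ : ∀ w ∈ W₁, k⁻¹ * w * k ∈ W₁ := by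
    intro w hw
    have h1 := hκW₁ _ (hκW₁ w hw)
    rwa [hkk] at h1
  -- `W₁ ≠ ⊥`
  have hexW : ∃ w ∈ W, w ∉ (⊥ : Subgroup X) := by
    by_contra hcon
    push Not at hcon
    exact hW0 ((Subgroup.eq_bot_iff_forall W).2 (fun w hw => Subgroup.mem_bot.1 (hcon w hw)))
  obtain ⟨w₁, hw₁W, hw₁ne, hw₁c⟩ := k4c_desc A₁ W ⊥
    (fun x hx y hy => hAc x (hA₁ hx) y (hA₁ hy)) (fun x hx => hA2 x (hA₁ hx)) hWcomm hW2
    (fun x hx u hu => hAW x (hA₁ hx) u hu) hexW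
  have hw₁1 : w₁ ≠ 1 := fun h => hw₁ne (Subgroup.mem_bot.2 h)
  have hw₁ : w₁ ∈ W₁ := by
    refine (hW₁mem w₁).2 ⟨hw₁W, fun x hx => ?_⟩
    have h1 : x * w₁ * x⁻¹ * w₁⁻¹ = 1 := Subgroup.mem_bot.1 (hw₁c x hx)
    calc x * w₁ = (x * w₁ * x⁻¹ * w₁⁻¹) * w₁ * x := by group
      _ = w₁ * x := by rw [h1, one_mul]
  -- the four elements of `W₁`
  have hd1 : k * w₁ * k⁻¹ ≠ w₁ := fun h => hw₁1 (hfpf w₁ hw₁W h)
  have hd2 : k * w₁ * k⁻¹ ≠ k⁻¹ * w₁ * k := by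
    intro h
    apply hd1
    have e1 : k * (k * w₁ * k⁻¹) * k⁻¹ = w₁ := by rw [h]; group
    calc k * w₁ * k⁻¹ = k * (k * (k * w₁ * k⁻¹) * k⁻¹) * k⁻¹ := by rw [e1]
      _ = w₁ := hkkk w₁
  have hd3 : k⁻¹ * w₁ * k ≠ w₁ := by
    intro h
    apply hd1
    calc k * w₁ * k⁻¹ = k * (k⁻¹ * w₁ * k) * k⁻¹ := by rw [h]
      _ = w₁ := by group
  have hd4 : k * w₁ * k⁻¹ ≠ 1 := by
    intro h
    apply hw₁1
    calc w₁ = k⁻¹ * (k * w₁ * k⁻¹) * k := by group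
      _ = 1 := by rw [h]; group
  have hd5 : k⁻¹ * w₁ * k ≠ 1 := by
    intro h
    apply hw₁1
    calc w₁ = k * (k⁻¹ * w₁ * k) * k⁻¹ := by group
      _ = 1 := by rw [h]; group
  have hW₁4 : Nat.card W₁ = 4 := by
    have h1 := k4c_four_le W₁ 1 w₁ (k * w₁ * k⁻¹) (k⁻¹ * w₁ * k) W₁.one_mem hw₁
      (hκW₁ w₁ hw₁) (hκinvW₁ w₁ hw₁) (Ne.symm hw₁1) (Ne.symm hd4) (Ne.symm hd5) (Ne.symm hd1)
      (Ne.symm hd3) hd2
    omega
  -- `a` does not centralize `W₁`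
  have hak' : a * k⁻¹ * a⁻¹ = k := by
    calc a * k⁻¹ * a⁻¹ = (a * k * a⁻¹)⁻¹ := by group
      _ = k := by rw [hak, inv_inv]
  have hexa : ∃ w₀ ∈ W₁, a * w₀ ≠ w₀ * a := by
    by_contra hcon
    push Not at hcon
    apply hd2
    have ha1 : a * w₁ = w₁ * a := hcon w₁ hw₁
    have ha2 : a * (k⁻¹ * w₁ * k) = (k⁻¹ * w₁ * k) * a := hcon _ (hκinvW₁ w₁ hw₁)
    calc k * w₁ * k⁻¹ = (a * k⁻¹ * a⁻¹) * w₁ * (a * k⁻¹ * a⁻¹)⁻¹ := by rw [hak']
      _ = a * k⁻¹ * a⁻¹ * (w₁ * a) * k * a⁻¹ := by group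
      _ = a * k⁻¹ * a⁻¹ * (a * w₁) * k * a⁻¹ := by rw [ha1]
      _ = (a * (k⁻¹ * w₁ * k)) * a⁻¹ := by group
      _ = (k⁻¹ * w₁ * k) * a * a⁻¹ := by rw [ha2]
      _ = k⁻¹ * w₁ * k := by group
  obtain ⟨w₀, hw₀, hw₀a⟩ := hexa
  obtain ⟨F, hFdef⟩ : ∃ F : Subgroup X, F = W₁ ⊓ Subgroup.centralizer ({a} : Set X) := ⟨_, rfl⟩
  have hFmem : ∀ g, g ∈ F ↔ g ∈ W₁ ∧ a * g = g * a := by
    intro g
    rw [hFdef]
    exact k4c_mem_inf_cent W₁ a g
  have hF2 : Nat.card F ≤ 2 := by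
    have h1 := k4c_lt2 F W₁ (fun g hg => ((hFmem g).1 hg).1) w₀ hw₀
      (fun h => hw₀a ((hFmem w₀).1 h).2)
    omega
  -- main argument
  by_contra hcard
  have hexw : ∃ w ∈ W, w ∉ W₁ := by
    by_contra hcon
    push Not at hcon
    have h1 : W₁ = W := le_antisymm hW₁W hcon
    rw [← h1] at hcard
    exact hcard hW₁4
  obtain ⟨w, hwW, hwW₁, hwA⟩ := k4c_desc A W W₁ hAc hA2 hWcomm hW2 hAW hexw
  obtain ⟨A₂, hA₂def⟩ : ∃ A₂ : Subgroup X, A₂ = A₁ ⊓ Subgroup.centralizer ({w} : Set X) :=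
    ⟨_, rfl⟩
  have hA₂mem : ∀ x, x ∈ A₂ ↔ x ∈ A₁ ∧ x * w = w * x := by
    intro x
    rw [hA₂def, k4c_mem_inf_cent]
    constructor
    · rintro ⟨h1, h2⟩
      exact ⟨h1, h2.symm⟩
    · rintro ⟨h1, h2⟩
      exact ⟨h1, h2.symm⟩
  have hA₂A₁ : A₂ ≤ A₁ := fun x hx => ((hA₂mem x).1 hx).1
  -- the commutators `[x, w]`, `x ∈ A₁`, lie in `F`
  have hφF : ∀ x ∈ A₁, x * w * x⁻¹ * w⁻¹ ∈ F := by
    intro x hx
    have hg : x * w * x⁻¹ * w⁻¹ ∈ W₁ := hwA x (hA₁ hx)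
    refine (hFmem _).2 ⟨hg, ?_⟩
    obtain ⟨u, hu_def⟩ : ∃ u, u = a * w * a⁻¹ * w⁻¹ := ⟨_, rfl⟩
    have hu : u ∈ W₁ := by rw [hu_def]; exact hwA a ha
    have hxa : a * x = x * a := hAc a ha x (hA₁ hx)
    have hxu : x * u = u * x := ((hW₁mem u).1 hu).2 x hx
    have hgu : u * (x * w * x⁻¹ * w⁻¹) = (x * w * x⁻¹ * w⁻¹) * u :=
      hWcomm u (hW₁W hu) _ (hW₁W hg)
    have e1 : a * w * a⁻¹ = u * w := by rw [hu_def]; group
    have e2 : a * x * a⁻¹ = x := by rw [hxa]; group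
    have e3 : x * u * x⁻¹ = u := by rw [hxu]; group
    have e4 : a * (x * w * x⁻¹ * w⁻¹) * a⁻¹ = x * w * x⁻¹ * w⁻¹ := by
      calc a * (x * w * x⁻¹ * w⁻¹) * a⁻¹
          = (a * x * a⁻¹) * (a * w * a⁻¹) * (a * x * a⁻¹)⁻¹ * (a * w * a⁻¹)⁻¹ := by group
        _ = x * (u * w) * x⁻¹ * (u * w)⁻¹ := by rw [e1, e2]
        _ = (x * u * x⁻¹) * (x * w * x⁻¹ * w⁻¹) * u⁻¹ := by group
        _ = u * (x * w * x⁻¹ * w⁻¹) * u⁻¹ := by rw [e3]
        _ = (x * w * x⁻¹ * w⁻¹) * u * u⁻¹ := by rw [hgu]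
        _ = x * w * x⁻¹ * w⁻¹ := by group
    calc a * (x * w * x⁻¹ * w⁻¹) = a * (x * w * x⁻¹ * w⁻¹) * a⁻¹ * a := by group
      _ = (x * w * x⁻¹ * w⁻¹) * a := by rw [e4]
  -- `|A₁| ≤ 2 |A₂|`
  have hA₁A₂ : Nat.card A₁ ≤ 2 * Nat.card A₂ := by
    by_cases hex : ∃ x₀ ∈ A₁, x₀ * w ≠ w * x₀
    · obtain ⟨x₀, hx₀, hx₀w⟩ := hex
      apply k4c_idx2 A₂ A₁ x₀⁻¹
      intro x hx
      by_cases hxw : x * w = w * x
      · exact Or.inl ((hA₂mem x).2 ⟨hx, hxw⟩)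
      · right
        refine (hA₂mem _).2 ⟨A₁.mul_mem hx (A₁.inv_mem hx₀), ?_⟩
        have hg1 : x * w * x⁻¹ * w⁻¹ ≠ 1 := by
          intro h
          apply hxw
          calc x * w = (x * w * x⁻¹ * w⁻¹) * w * x := by group
            _ = w * x := by rw [h, one_mul]
        have hg2 : x₀ * w * x₀⁻¹ * w⁻¹ ≠ 1 := by
          intro h
          apply hx₀w
          calc x₀ * w = (x₀ * w * x₀⁻¹ * w⁻¹) * w * x₀ := by group
            _ = w * x₀ := by rw [h, one_mul]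
        have h1 := k4c_two F hF2 _ _ (hφF x hx) (hφF x₀ hx₀) hg1 hg2
        have h2 : x * w * x⁻¹ = x₀ * w * x₀⁻¹ := mul_right_cancel h1
        have h3 : x * x₀⁻¹ = x₀⁻¹ * x :=
          hAc x (hA₁ hx) x₀⁻¹ (A.inv_mem (hA₁ hx₀))
        calc x * x₀⁻¹ * w = x₀⁻¹ * x * w := by rw [h3]
          _ = x₀⁻¹ * (x * w * x⁻¹) * x := by group
          _ = x₀⁻¹ * (x₀ * w * x₀⁻¹) * x := by rw [h2]
          _ = w * (x₀⁻¹ * x) := by group
          _ = w * (x * x₀⁻¹) := by rw [h3]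
    · push Not at hex
      apply k4c_idx2 A₂ A₁ 1
      intro x hx
      exact Or.inl ((hA₂mem x).2 ⟨hx, hex x hx⟩)
  have hAA₁ : Nat.card A ≤ 2 * Nat.card A₁ := k4c_idx2 A₁ A a hcov
  -- the subgroup `N`
  obtain ⟨N₁, hN₁def⟩ : ∃ N₁ : Subgroup X, N₁ = W₁ ⊔ Subgroup.zpowers w := ⟨_, rfl⟩
  obtain ⟨N, hNdef⟩ : ∃ N : Subgroup X, N = N₁ ⊔ Subgroup.zpowers (k * w * k⁻¹) := ⟨_, rfl⟩
  have hzw : Subgroup.zpowers w ≤ W := Subgroup.zpowers_le.2 hwW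
  have hzκw : Subgroup.zpowers (k * w * k⁻¹) ≤ W := Subgroup.zpowers_le.2 (hkW w hwW)
  have hN₁W : N₁ ≤ W := by rw [hN₁def]; exact sup_le hW₁W hzw
  have hNW : N ≤ W := by rw [hNdef]; exact sup_le hN₁W hzκw
  have hW₁N₁ : W₁ ≤ N₁ := by rw [hN₁def]; exact le_sup_left
  have hN₁N : N₁ ≤ N := by rw [hNdef]; exact le_sup_left
  have hwN₁ : w ∈ N₁ := by
    rw [hN₁def]; exact Subgroup.mem_sup_right (Subgroup.mem_zpowers w)
  have hκwN : k * w * k⁻¹ ∈ N := by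
    rw [hNdef]; exact Subgroup.mem_sup_right (Subgroup.mem_zpowers _)
  have hN₁8 : 8 ≤ Nat.card N₁ := by
    have h1 := k4c_lt2 W₁ N₁ hW₁N₁ w hwN₁ hwW₁
    omega
  have hzmem : ∀ b ∈ Subgroup.zpowers w, b = 1 ∨ b = w := by
    intro b hb
    obtain ⟨i, rfl⟩ := Subgroup.mem_zpowers_iff.1 hb
    have hw2 : w * w = 1 := hW2 w hwW
    rcases Int.even_or_odd' i with ⟨j, rfl | rfl⟩
    · left
      rw [zpow_mul, zpow_two, hw2, one_zpow]
    · right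
      rw [zpow_add, zpow_mul, zpow_two, hw2, one_zpow, one_mul, zpow_one]
  have hp3 : w * (k * w * k⁻¹) * (k⁻¹ * w * k) = 1 := by
    have hc1W : k * w * k⁻¹ ∈ W := hkW w hwW
    have hc2W : k⁻¹ * w * k ∈ W := hκinvW w hwW
    apply hfpf _ (W.mul_mem (W.mul_mem hwW hc1W) hc2W)
    have e1 : k * (w * (k * w * k⁻¹) * (k⁻¹ * w * k)) * k⁻¹ =
        (k * w * k⁻¹) * (k * (k * w * k⁻¹) * k⁻¹) * w := by group
    rw [e1, hkk]
    have h1 : (k * w * k⁻¹) * (k⁻¹ * w * k) * w = w * ((k * w * k⁻¹) * (k⁻¹ * w * k)) :=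
      hWcomm _ (W.mul_mem hc1W hc2W) w hwW
    rw [h1]; group
  have hκwN₁ : k * w * k⁻¹ ∉ N₁ := by
    intro hmem
    rw [hN₁def] at hmem
    obtain ⟨u, hu, b, hb, hub⟩ := k4c_mem_sup W₁ (Subgroup.zpowers w)
      (fun u hu b hb => hWcomm u (hW₁W hu) b (hzw hb)) _ hmem
    rcases hzmem b hb with hb1 | hb1
    · rw [hb1, mul_one] at hub
      have h1 : k⁻¹ * (k * w * k⁻¹) * k ∈ W₁ := hκinvW₁ _ (by rw [hub]; exact hu)
      have h2 : k⁻¹ * (k * w * k⁻¹) * k = w := by group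
      rw [h2] at h1
      exact hwW₁ h1
    · rw [hb1] at hub
      have h2 : k⁻¹ * w * k = (w * (k * w * k⁻¹))⁻¹ := eq_inv_of_mul_eq_one_right hp3
      rw [hub] at h2
      have h3 : w * (u * w) = u := by
        have h := hWcomm w hwW u (hW₁W hu)
        calc w * (u * w) = (w * u) * w := by group
          _ = (u * w) * w := by rw [h]
          _ = u * (w * w) := by group
          _ = u := by rw [hW2 w hwW, mul_one]
      rw [h3] at h2
      have h4 : k⁻¹ * w * k ∈ W₁ := by rw [h2]; exact W₁.inv_mem hu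
      have h5 := hκW₁ _ h4
      have h6 : k * (k⁻¹ * w * k) * k⁻¹ = w := by group
      rw [h6] at h5
      exact hwW₁ h5
  have hN16 : 16 ≤ Nat.card N := by
    have h1 := k4c_lt2 N₁ N hN₁N _ hκwN hκwN₁
    omega
  -- `A₂` centralizes `N`
  have hNcent : N ≤ Subgroup.centralizer (A₂ : Set X) := by
    rw [hNdef, hN₁def]
    refine sup_le (sup_le ?_ ?_) ?_
    · intro u hu
      rw [Subgroup.mem_centralizer_iff]
      intro x hx
      exact ((hW₁mem u).1 hu).2 x (hA₂A₁ hx)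
    · rw [Subgroup.zpowers_le, Subgroup.mem_centralizer_iff]
      intro x hx
      exact ((hA₂mem x).1 hx).2
    · rw [Subgroup.zpowers_le, Subgroup.mem_centralizer_iff]
      intro x hx
      obtain ⟨hxA₁, hxw⟩ := (hA₂mem x).1 hx
      have h1 := hcomm1 x hxA₁ w hwW
      have h2 : x * w * x⁻¹ = w := by rw [hxw]; group
      rw [h2] at h1
      calc x * (k * w * k⁻¹) = x * (k * w * k⁻¹) * x⁻¹ * x := by group
        _ = k * w * k⁻¹ * x := by rw [h1]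
  have hA₂N : ∀ x ∈ A₂, ∀ n ∈ N, x * n = n * x := fun x hx n hn =>
    Subgroup.mem_centralizer_iff.1 (hNcent hn) x hx
  -- `M = A₂ ⊔ N` is elementary abelian inside `T`
  have hMT : A₂ ⊔ N ≤ T :=
    sup_le (le_trans hA₂A₁ (le_trans hA₁ hAT)) (le_trans hNW (le_trans hWP hPT))
  have hMc : ∀ m ∈ A₂ ⊔ N, ∀ m' ∈ A₂ ⊔ N, m * m' = m' * m := by
    intro m hm m' hm'
    obtain ⟨x, hx, n, hn, rfl⟩ := k4c_mem_sup A₂ N hA₂N m hm
    obtain ⟨x', hx', n', hn', rfl⟩ := k4c_mem_sup A₂ N hA₂N m' hm'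
    have hxx' : x * x' = x' * x := hAc x (hA₁ (hA₂A₁ hx)) x' (hA₁ (hA₂A₁ hx'))
    have hnn' : n * n' = n' * n := hWcomm n (hNW hn) n' (hNW hn')
    calc (x * n) * (x' * n') = x * (n * x') * n' := by group
      _ = x * (x' * n) * n' := by rw [← hA₂N x' hx' n hn]
      _ = (x * x') * (n * n') := by group
      _ = (x' * x) * (n' * n) := by rw [hxx', hnn']
      _ = x' * (x * n') * n := by group
      _ = x' * (n' * x) * n := by rw [hA₂N x hx n' hn']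
      _ = (x' * n') * (x * n) := by group
  have hM2 : ∀ m ∈ A₂ ⊔ N, m * m = 1 := by
    intro m hm
    obtain ⟨x, hx, n, hn, rfl⟩ := k4c_mem_sup A₂ N hA₂N m hm
    calc (x * n) * (x * n) = x * (n * x) * n := by group
      _ = x * (x * n) * n := by rw [← hA₂N x hx n hn]
      _ = (x * x) * (n * n) := by group
      _ = 1 := by rw [hA2 x (hA₁ (hA₂A₁ hx)), hW2 n (hNW hn), one_mul]
  have hMmax : Nat.card ↥(A₂ ⊔ N) ≤ Nat.card A := hAmax (A₂ ⊔ N) hMT hMc hM2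
  have hinter : A₂ ⊓ N ≤ F := by
    intro g hg
    obtain ⟨hgA₂, hgN⟩ := Subgroup.mem_inf.1 hg
    have hgA : g ∈ A := hA₁ (hA₂A₁ hgA₂)
    refine (hFmem g).2 ⟨(hW₁mem g).2 ⟨hNW hgN, fun x hx => hAc x (hA₁ hx) g hgA⟩,
      hAc a ha g hgA⟩
  have hprod := k4c_prod A₂ N hA₂N
  have h1 : Nat.card A₂ * 16 ≤ Nat.card A₂ * Nat.card N := Nat.mul_le_mul_left _ hN16
  have h2 : Nat.card ↥(A₂ ⊓ N) * Nat.card ↥(A₂ ⊔ N) ≤ 2 * Nat.card ↥(A₂ ⊔ N) :=
    Nat.mul_le_mul_right _ (le_trans (Subgroup.card_le_of_le hinter) hF2)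
  have hpos : 0 < Nat.card A₂ := Nat.card_pos
  omega

end Cfsg.Agent.Lib.Helper31.JP
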