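import Mathlib
import Cfsg.Prelude.Def_Transfer
import Cfsg.Agent.Lib.Helper31.PGrp

/-!
# Normal elementary abelian subgroups of order `p ^ 4` (p odd) — S0122

* `alperin` : for `p` odd, a maximal normal elementary abelian subgroup `N` of a `p`-group contains
  every element of order `p` of its centralizer.
* `exists_normal_elemAb_four` : a `p`-group (`p` odd) with an elementary abelian subgroup of order
  `p ^ 4` has a normal one.
-/

set_option autoImplicit false

namespace Cfsg.Agent.Lib.Helper31.NEA4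

open Cfsg Cfsg.Agent.Lib.Helper31

universe u

section basic

variable {G : Type*} [Group G]

theorem card_sup_mul_card_inf [Finite G] (A B : Subgroup G) [B.Normal] :
    Nat.card ↥(A ⊔ B) * Nat.card ↥(A ⊓ B) = Nat.card ↥A * Nat.card ↥B := by
  have h1 : Nat.card ↥B * B.relIndex (A ⊔ B) = Nat.card ↥(A ⊔ B) := by
    have := Subgroup.relIndex_mul_relIndex ⊥ B (A ⊔ B) bot_le le_sup_right
    rwa [Subgroup.relIndex_bot_left, Subgroup.relIndex_bot_left] at this
  rw [Subgroup.relIndex_sup_right] at h1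
  have h2 : Nat.card ↥(A ⊓ B) * (A ⊓ B).relIndex A = Nat.card ↥A := by
    have := Subgroup.relIndex_mul_relIndex ⊥ (A ⊓ B) A bot_le inf_le_left
    rwa [Subgroup.relIndex_bot_left, Subgroup.relIndex_bot_left] at this
  have h3 : (A ⊓ B).relIndex A = B.relIndex A := by
    rw [inf_comm, Subgroup.inf_relIndex_right]
  rw [h3] at h2
  rw [← h1, ← h2]
  ring

theorem pow_mul_comm_twist {a b d : G} (h : b * a = a * b * d) (hdb : Commute d b) (n : ℕ) :
    b ^ n * a = a * b ^ n * d ^ n := by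
  induction n with
  | zero => simp
  | succ n ih =>
    calc b ^ (n + 1) * a = b ^ n * (b * a) := by rw [pow_succ, mul_assoc]
      _ = b ^ n * (a * b * d) := by rw [h]
      _ = (b ^ n * a) * b * d := by simp only [mul_assoc]
      _ = a * b ^ n * d ^ n * b * d := by rw [ih]
      _ = a * b ^ n * (d ^ n * b) * d := by simp only [mul_assoc]
      _ = a * b ^ n * (b * d ^ n) * d := by rw [(hdb.pow_left n).eq]
      _ = a * b ^ (n + 1) * d ^ (n + 1) := by
        rw [pow_succ, pow_succ]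
        simp only [mul_assoc]

theorem mul_pow_class_two {a b d : G} (h : b * a = a * b * d) (hda : Commute d a)
    (hdb : Commute d b) (n : ℕ) :
    (a * b) ^ n = a ^ n * b ^ n * d ^ (∑ i ∈ Finset.range n, i) := by
  induction n with
  | zero => simp
  | succ n ih =>
    rw [pow_succ, ih, Finset.sum_range_succ]
    have h1 := pow_mul_comm_twist h hdb n
    have hdS : Commute (d ^ (∑ i ∈ Finset.range n, i)) a := hda.pow_left _
    have hdSb : Commute (d ^ (∑ i ∈ Finset.range n, i)) b := hdb.pow_left _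
    have hdd : Commute (d ^ n) (d ^ (∑ i ∈ Finset.range n, i)) :=
      (Commute.refl d).pow_pow _ _
    calc a ^ n * b ^ n * d ^ (∑ i ∈ Finset.range n, i) * (a * b)
        = a ^ n * b ^ n * (d ^ (∑ i ∈ Finset.range n, i) * a) * b := by simp only [mul_assoc]
      _ = a ^ n * b ^ n * (a * d ^ (∑ i ∈ Finset.range n, i)) * b := by rw [hdS.eq]
      _ = a ^ n * (b ^ n * a) * (d ^ (∑ i ∈ Finset.range n, i) * b) := by simp only [mul_assoc]
      _ = a ^ n * (a * b ^ n * d ^ n) * (b * d ^ (∑ i ∈ Finset.range n, i)) := by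
        rw [h1, hdSb.eq]
      _ = a ^ n * a * b ^ n * (d ^ n * b) * d ^ (∑ i ∈ Finset.range n, i) := by
        simp only [mul_assoc]
      _ = a ^ n * a * b ^ n * (b * d ^ n) * d ^ (∑ i ∈ Finset.range n, i) := by
        rw [(hdb.pow_left n).eq]
      _ = a ^ (n + 1) * b ^ (n + 1) * (d ^ n * d ^ (∑ i ∈ Finset.range n, i)) := by
        rw [pow_succ, pow_succ]
        simp only [mul_assoc]
      _ = a ^ (n + 1) * b ^ (n + 1) * d ^ (∑ i ∈ Finset.range n, i + n) := by
        rw [hdd.eq, ← pow_add]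

theorem mul_pow_prime_of_class_two {p : ℕ} (hp : p.Prime) (hp2 : p ≠ 2) {a b d : G}
    (h : b * a = a * b * d) (hda : Commute d a) (hdb : Commute d b) (hd : d ^ p = 1) :
    (a * b) ^ p = a ^ p * b ^ p := by
  rw [mul_pow_class_two h hda hdb p]
  have hdvd : p ∣ ∑ i ∈ Finset.range p, i := by
    have h2 := Finset.sum_range_id_mul_two p
    have hcop : Nat.Coprime p 2 := (Nat.coprime_primes hp Nat.prime_two).mpr hp2
    apply hcop.dvd_of_dvd_mul_right
    rw [h2]
    exact Dvd.intro _ rfl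
  obtain ⟨k, hk⟩ := hdvd
  rw [hk, pow_mul, hd, one_pow, mul_one]

/-- A maximal normal elementary abelian subgroup of `G` stays maximal among the elementary abelian
subgroups of a normal subgroup `M` that are normalised by `M` (`p` odd). -/
theorem max_in_normal {p : ℕ} [Fact p.Prime] (hp : p ≠ 2) [Finite G] (hG : IsPGroup p G)
    {N : Subgroup G} (hNn : N.Normal) (hN : IsElementaryAbelian p N)
    (hmax : ∀ N' : Subgroup G, N'.Normal → IsElementaryAbelian p N' → N ≤ N' → N' = N)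
    {M : Subgroup G} (hMn : M.Normal)
    {N₁ : Subgroup G} (hN₁M : N₁ ≤ M) (hN₁n : ∀ m ∈ M, ∀ y ∈ N₁, m * y * m⁻¹ ∈ N₁)
    (hN₁ : IsElementaryAbelian p N₁) (hNN₁ : N ≤ N₁) : N₁ ≤ N := by
  classical
  have hpp := (Fact.out : p.Prime)
  by_contra hne
  have hNc := isMulComm_iff.mp hN.1
  have hN₁c := isMulComm_iff.mp hN₁.1
  have : Group.IsNilpotent ↥M := (hG.to_subgroup M).isNilpotent
  have : (N₁.subgroupOf M).Normal := ⟨fun y hy m => by
    rw [Subgroup.mem_subgroupOf] at hy ⊢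
    exact hN₁n m.1 m.2 y.1 hy⟩
  have hne' : ¬ N₁.subgroupOf M ≤ N.subgroupOf M := by
    intro h
    apply hne
    intro y hy
    exact Subgroup.mem_subgroupOf.mp
      (h (Subgroup.mem_subgroupOf.mpr (show ((⟨y, hN₁M hy⟩ : M) : G) ∈ N₁ from hy)))
  obtain ⟨y', hy'1, hy'2, hy'3⟩ := exists_central_mod hne'
  have hy1 : (y' : G) ∈ N₁ := Subgroup.mem_subgroupOf.mp hy'1
  have hy2 : (y' : G) ∉ N := fun h => hy'2 (Subgroup.mem_subgroupOf.mpr h)
  have hy3 : ∀ m ∈ M, (y' : G) * m * (y' : G)⁻¹ * m⁻¹ ∈ N := by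
    intro m hm
    have := hy'3 ⟨m, hm⟩
    rw [Subgroup.mem_subgroupOf] at this
    simpa using this
  let W : Subgroup G :=
    { carrier := {l | l ∈ M ∧ l ∈ Subgroup.centralizer (N : Set G) ∧
        (∀ m ∈ M, l * m * l⁻¹ * m⁻¹ ∈ N) ∧ l ^ p = 1}
      mul_mem' := by
        rintro a b ⟨ha1, ha2, ha3, ha4⟩ ⟨hb1, hb2, hb3, hb4⟩
        refine ⟨M.mul_mem ha1 hb1, Subgroup.mul_mem _ ha2 hb2, ?_, ?_⟩
        · intro m hm
          have : a * b * m * (a * b)⁻¹ * m⁻¹ =
              a * (b * m * b⁻¹ * m⁻¹) * a⁻¹ * (a * m * a⁻¹ * m⁻¹) := by group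
          rw [this]
          exact N.mul_mem (hNn.conj_mem _ (hb3 m hm) a) (ha3 m hm)
        · have hd : b⁻¹ * a⁻¹ * b * a ∈ N := by
            have h1 := hb3 a ha1
            have h2 := hNn.conj_mem _ h1 (b⁻¹ * a⁻¹)
            have h3 : b⁻¹ * a⁻¹ * (b * a * b⁻¹ * a⁻¹) * (b⁻¹ * a⁻¹)⁻¹ = b⁻¹ * a⁻¹ * b * a := by
              group
            rwa [h3] at h2
          have hba : b * a = a * b * (b⁻¹ * a⁻¹ * b * a) := by group
          have hda : Commute (b⁻¹ * a⁻¹ * b * a) a := ha2 _ hd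
          have hdb : Commute (b⁻¹ * a⁻¹ * b * a) b := hb2 _ hd
          rw [mul_pow_prime_of_class_two hpp hp hba hda hdb (hN.2 _ hd), ha4, hb4, one_mul]
      one_mem' := by
        refine ⟨M.one_mem, Subgroup.one_mem _, fun m hm => ?_, one_pow _⟩
        have : (1 : G) * m * 1⁻¹ * m⁻¹ = 1 := by group
        rw [this]
        exact N.one_mem
      inv_mem' := by
        rintro a ⟨ha1, ha2, ha3, ha4⟩
        refine ⟨M.inv_mem ha1, Subgroup.inv_mem _ ha2, ?_, by rw [inv_pow, ha4, inv_one]⟩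
        intro m hm
        have h1 := N.inv_mem (ha3 m hm)
        have h2 := hNn.conj_mem _ h1 a⁻¹
        have h3 : a⁻¹ * (a * m * a⁻¹ * m⁻¹)⁻¹ * a⁻¹⁻¹ = a⁻¹ * m * a⁻¹⁻¹ * m⁻¹ := by group
        rwa [h3] at h2 }
  have hWmem : ∀ l, l ∈ W ↔ l ∈ M ∧ l ∈ Subgroup.centralizer (N : Set G) ∧
        (∀ m ∈ M, l * m * l⁻¹ * m⁻¹ ∈ N) ∧ l ^ p = 1 := fun l => Iff.rfl
  have hWn : W.Normal := by
    refine ⟨?_⟩
    intro l hl g
    rw [hWmem] at hl ⊢
    obtain ⟨hl1, hl2, hl3, hl4⟩ := hl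
    refine ⟨hMn.conj_mem l hl1 g, ?_, ?_, ?_⟩
    · rw [Subgroup.mem_centralizer_iff]
      intro n hn
      have h1 := hl2 (g⁻¹ * n * g⁻¹⁻¹) (hNn.conj_mem n hn g⁻¹)
      calc n * (g * l * g⁻¹) = g * ((g⁻¹ * n * g⁻¹⁻¹) * l) * g⁻¹ := by group
        _ = g * (l * (g⁻¹ * n * g⁻¹⁻¹)) * g⁻¹ := by rw [h1]
        _ = g * l * g⁻¹ * n := by group
    · intro m hm
      have h1 := hl3 (g⁻¹ * m * g⁻¹⁻¹) (hMn.conj_mem m hm g⁻¹)
      have h2 := hNn.conj_mem _ h1 g
      have h3 : g * (l * (g⁻¹ * m * g⁻¹⁻¹) * l⁻¹ * (g⁻¹ * m * g⁻¹⁻¹)⁻¹) * g⁻¹ =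
          g * l * g⁻¹ * m * (g * l * g⁻¹)⁻¹ * m⁻¹ := by group
      rwa [h3] at h2
    · rw [conj_pow, hl4]
      group
  have hyW : (y' : G) ∈ W := by
    rw [hWmem]
    refine ⟨hN₁M hy1, ?_, hy3, hN₁.2 _ hy1⟩
    rw [Subgroup.mem_centralizer_iff]
    intro k hk
    exact hN₁c k (hNN₁ hk) _ hy1
  have hWN : ¬ W ≤ N := fun h => hy2 (h hyW)
  have := hWn
  have : Group.IsNilpotent G := hG.isNilpotent
  obtain ⟨w, hw1, hw2, hw3⟩ := exists_central_mod hWN
  rw [hWmem] at hw1
  have hwp : w ^ p = 1 := hw1.2.2.2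
  have hwc : w ∈ Subgroup.centralizer (N : Set G) := hw1.2.1
  have hE₁ : IsElementaryAbelian p (N ⊔ Subgroup.zpowers w) := by
    apply elemAb_sup hN (elemAb_zpowers hwp)
    intro a ha b hb
    have : Subgroup.zpowers w ≤ Subgroup.centralizer (N : Set G) := Subgroup.zpowers_le.mpr hwc
    exact this hb a ha
  have hE₁n : (N ⊔ Subgroup.zpowers w).Normal := by
    apply normal_of_map_conj_le
    intro g
    rw [Subgroup.map_sup]
    refine sup_le ?_ ?_
    · refine le_trans ?_ le_sup_left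
      rintro _ ⟨n, hn, rfl⟩
      exact hNn.conj_mem n hn g
    · rw [MonoidHom.map_zpowers, Subgroup.zpowers_le]
      show g * w * g⁻¹ ∈ _
      have h1 := N.inv_mem (hw3 g)
      have h2 : g * w * g⁻¹ = (w * g * w⁻¹ * g⁻¹)⁻¹ * w := by group
      rw [h2]
      exact Subgroup.mul_mem _ (Subgroup.mem_sup_left h1)
        (Subgroup.mem_sup_right (Subgroup.mem_zpowers w))
  have := hmax _ hE₁n hE₁ le_sup_left
  exact hw2 (this ▸ Subgroup.mem_sup_right (Subgroup.mem_zpowers w))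

end basic

theorem alperin_aux {p : ℕ} [Fact p.Prime] (hp : p ≠ 2) (n : ℕ) :
    ∀ (G : Type u) [Group G] [Finite G], Nat.card G = n → IsPGroup p G →
    ∀ N : Subgroup G, N.Normal → IsElementaryAbelian p N →
      (∀ N' : Subgroup G, N'.Normal → IsElementaryAbelian p N' → N ≤ N' → N' = N) →
      ∀ x ∈ Subgroup.centralizer (N : Set G), x ^ p = 1 → x ∈ N := by
  induction n using Nat.strong_induction_on with
  | _ n ih =>
    intro G _ _ hcard hG N hNn hN hmax x hxc hxp
    classical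
    by_contra hxN
    have hX : IsElementaryAbelian p (N ⊔ Subgroup.zpowers x) := by
      apply elemAb_sup hN (elemAb_zpowers hxp)
      intro a ha b hb
      exact (Subgroup.zpowers_le.mpr hxc) hb a ha
    have hxX : x ∈ N ⊔ Subgroup.zpowers x := Subgroup.mem_sup_right (Subgroup.mem_zpowers x)
    by_cases htop : N ⊔ Subgroup.zpowers x = ⊤
    · have h1 := hmax ⊤ inferInstance (htop ▸ hX) le_top
      exact hxN (h1 ▸ Subgroup.mem_top x)
    · obtain ⟨M, hM, hXM⟩ := (eq_top_or_exists_le_coatom _).resolve_left htop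
      have : Group.IsNilpotent G := hG.isNilpotent
      have hMn : M.Normal :=
        Subgroup.NormalizerCondition.normal_of_coatom M Group.normalizerCondition_of_isNilpotent hM
      have hNM : N ≤ M := le_sup_left.trans hXM
      have hxM : x ∈ M := hXM hxX
      have hlt : Nat.card M < n := by
        rw [← hcard, ← Subgroup.card_top (G := G)]
        exact card_lt_card_of_lt (lt_top_iff_ne_top.mpr hM.1)
      have key := ih (Nat.card M) hlt ↥M rfl (hG.to_subgroup M) (N.subgroupOf M)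
        (hNn.subgroupOf M) ?_ ?_ ⟨x, hxM⟩ ?_ ?_
      · exact hxN (Subgroup.mem_subgroupOf.mp key)
      · refine ⟨isMulComm_iff.mpr ?_, ?_⟩
        · intro a ha b hb
          apply Subtype.ext
          exact isMulComm_iff.mp hN.1 a.1 (Subgroup.mem_subgroupOf.mp ha) b.1
            (Subgroup.mem_subgroupOf.mp hb)
        · intro a ha
          apply Subtype.ext
          simpa using hN.2 a.1 (Subgroup.mem_subgroupOf.mp ha)
      · intro N₁ hN₁n hN₁ hle
        apply le_antisymm _ hle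
        have hmapel : IsElementaryAbelian p (N₁.map M.subtype) := by
          refine ⟨isMulComm_iff.mpr ?_, ?_⟩
          · rintro _ ⟨a, ha, rfl⟩ _ ⟨b, hb, rfl⟩
            have := isMulComm_iff.mp hN₁.1 a ha b hb
            exact congrArg Subtype.val this
          · rintro _ ⟨a, ha, rfl⟩
            have := hN₁.2 a ha
            simpa using congrArg Subtype.val this
        have h1 : N₁.map M.subtype ≤ N :=
          max_in_normal hp hG hNn hN hmax hMn (N₁ := N₁.map M.subtype) ?_ ?_ hmapel ?_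
        · intro a ha
          rw [Subgroup.mem_subgroupOf]
          exact h1 ⟨a, ha, rfl⟩
        · rintro _ ⟨a, -, rfl⟩
          exact a.2
        · rintro m hm _ ⟨a, ha, rfl⟩
          exact ⟨⟨m, hm⟩ * a * ⟨m, hm⟩⁻¹, hN₁n.conj_mem a ha ⟨m, hm⟩, rfl⟩
        · intro k hk
          exact ⟨⟨k, hNM hk⟩, hle (Subgroup.mem_subgroupOf.mpr hk), rfl⟩
      · rw [Subgroup.mem_centralizer_iff]
        intro k hk
        apply Subtype.ext
        exact hxc k.1 (Subgroup.mem_subgroupOf.mp hk)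
      · apply Subtype.ext
        simpa using hxp

/-- **Alperin's lemma**: for `p` odd, a maximal normal elementary abelian subgroup `N` of a
`p`-group contains every element of order `p` of its centralizer. -/
theorem alperin {p : ℕ} [Fact p.Prime] (hp : p ≠ 2) {G : Type u} [Group G] [Finite G]
    (hG : IsPGroup p G) {N : Subgroup G} (hNn : N.Normal) (hN : IsElementaryAbelian p N)
    (hmax : ∀ N' : Subgroup G, N'.Normal → IsElementaryAbelian p N' → N ≤ N' → N' = N)
    {x : G} (hx : x ∈ Subgroup.centralizer (N : Set G)) (hxp : x ^ p = 1) : x ∈ N :=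
  alperin_aux hp (Nat.card G) G rfl hG N hNn hN hmax x hx hxp

section main

variable {G : Type u} [Group G]

/-- Transvection bound: a subgroup `K` centralising `U` acts on `N = U⟨n₀⟩` through a subgroup of
`U`, when `[n₀, G] ≤ U`. -/
theorem card_le_of_centralizes [Finite G] {U N : Subgroup G} {n₀ : G}
    (hgen : N ≤ U ⊔ Subgroup.zpowers n₀) (hn₀ : ∀ g : G, n₀ * g * n₀⁻¹ * g⁻¹ ∈ U)
    {K : Subgroup G} (hK : K ≤ Subgroup.centralizer (U : Set G)) :
    Nat.card K ≤ Nat.card U * Nat.card ↥(K ⊓ Subgroup.centralizer (N : Set G)) := by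
  classical
  let c : ↥K →* G :=
    { toFun := fun g => n₀ * (g : G) * n₀⁻¹ * (g : G)⁻¹
      map_one' := by
        show n₀ * (1 : G) * n₀⁻¹ * (1 : G)⁻¹ = 1
        group
      map_mul' := by
        intro g h
        have hz := hK g.2 _ (hn₀ h.1)
        show n₀ * (g.1 * h.1) * n₀⁻¹ * (g.1 * h.1)⁻¹ =
          n₀ * g.1 * n₀⁻¹ * g.1⁻¹ * (n₀ * h.1 * n₀⁻¹ * h.1⁻¹)
        calc n₀ * (g.1 * h.1) * n₀⁻¹ * (g.1 * h.1)⁻¹
            = n₀ * g.1 * n₀⁻¹ * g.1⁻¹ * (g.1 * (n₀ * h.1 * n₀⁻¹ * h.1⁻¹)) * g.1⁻¹ := by group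
          _ = n₀ * g.1 * n₀⁻¹ * g.1⁻¹ * ((n₀ * h.1 * n₀⁻¹ * h.1⁻¹) * g.1) * g.1⁻¹ := by rw [hz]
          _ = n₀ * g.1 * n₀⁻¹ * g.1⁻¹ * (n₀ * h.1 * n₀⁻¹ * h.1⁻¹) := by group }
  have h1 := card_eq_card_ker_mul_card_map c ⊤ le_top
  rw [Subgroup.card_top] at h1
  have h2 : Nat.card ↥((⊤ : Subgroup ↥K).map c) ≤ Nat.card U := by
    apply Subgroup.card_le_of_le
    rintro _ ⟨x, -, rfl⟩
    exact hn₀ x.1
  have h3 : Nat.card ↥c.ker ≤ Nat.card ↥(K ⊓ Subgroup.centralizer (N : Set G)) := by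
    rw [← Subgroup.card_map_of_injective (Subgroup.subtype_injective K)]
    apply Subgroup.card_le_of_le
    rintro _ ⟨x, hx, rfl⟩
    refine ⟨x.2, ?_⟩
    have h4 : n₀ * x.1 * n₀⁻¹ * x.1⁻¹ = 1 := hx
    have h5 : n₀ * x.1 = x.1 * n₀ := by
      have : n₀ * x.1 = (n₀ * x.1 * n₀⁻¹ * x.1⁻¹) * (x.1 * n₀) := by group
      rw [this, h4, one_mul]
    have h6 : U ⊔ Subgroup.zpowers n₀ ≤ Subgroup.centralizer ({x.1} : Set G) := by
      refine sup_le ?_ ?_
      · intro u hu z hz
        rw [Set.mem_singleton_iff] at hz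
        subst hz
        exact (hK x.2 u hu).symm
      · rw [Subgroup.zpowers_le]
        intro z hz
        rw [Set.mem_singleton_iff] at hz
        subst hz
        exact h5.symm
    show x.1 ∈ Subgroup.centralizer (N : Set G)
    rw [Subgroup.mem_centralizer_iff]
    intro k hk
    exact (h6 (hgen hk) x.1 rfl).symm
  rw [h1, mul_comm]
  exact Nat.mul_le_mul h2 h3

/-- Key step: in the critical configuration, an elementary abelian subgroup of order `p ^ 4`
containing `U` is normal. -/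
theorem normal_of_ge {p : ℕ} [Fact p.Prime] (hp : p ≠ 2) [Finite G] (hG : IsPGroup p G)
    {U N E : Subgroup G} (hUn : U.Normal) (hUc : Nat.card U = p ^ 2) (hNn : N.Normal)
    (hN : IsElementaryAbelian p N) (hNc : Nat.card N = p ^ 3) (hUN : U ≤ N)
    (hLA : ∀ x ∈ Subgroup.centralizer (N : Set G), x ^ p = 1 → x ∈ N)
    (hE : IsElementaryAbelian p E) (hE4 : Nat.card E = p ^ 4) (hUE : U ≤ E) : E.Normal := by
  classical
  have hpp := (Fact.out : p.Prime)
  have : Group.IsNilpotent G := hG.isNilpotent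
  have := hUn
  have := hNn
  have hEc := isMulComm_iff.mp hE.1
  have hNcm := isMulComm_iff.mp hN.1
  have hNE : ¬ N ≤ E := by
    intro h
    have h1 : E ≤ N := by
      intro x hx
      apply hLA x _ (hE.2 x hx)
      rw [Subgroup.mem_centralizer_iff]
      intro n hn
      exact hEc n (h hn) x hx
    have h2 := Subgroup.card_le_of_le h1
    rw [hE4, hNc] at h2
    have := (Nat.pow_le_pow_iff_right hpp.one_lt).mp h2
    omega
  have hmid : ∀ X : Subgroup G, U ≤ X → X ≤ N → X = U ∨ X = N := by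
    intro X h1 h2
    obtain ⟨j, hj⟩ := card_pow_of_isPGroup hG X
    have c1 := Subgroup.card_le_of_le h1
    have c2 := Subgroup.card_le_of_le h2
    rw [hUc, hj] at c1
    rw [hNc, hj] at c2
    have j1 := (Nat.pow_le_pow_iff_right hpp.one_lt).mp c1
    have j2 := (Nat.pow_le_pow_iff_right hpp.one_lt).mp c2
    rcases (show j = 2 ∨ j = 3 by omega) with h | h
    · left
      exact (Subgroup.eq_of_le_of_card_ge h1 (by rw [hj, h, hUc])).symm
    · right
      exact Subgroup.eq_of_le_of_card_ge h2 (by rw [hj, h, hNc])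
  have hEN : E ⊓ N = U := by
    rcases hmid (E ⊓ N) (le_inf hUE hUN) inf_le_right with h | h
    · exact h
    · exact absurd (h ▸ inf_le_left : N ≤ E) hNE
  have hECN : E ⊓ Subgroup.centralizer (N : Set G) = U := by
    apply le_antisymm
    · intro x hx
      rw [← hEN]
      exact ⟨hx.1, hLA x hx.2 (hE.2 x hx.1)⟩
    · intro u hu
      refine ⟨hUE hu, ?_⟩
      show u ∈ Subgroup.centralizer (N : Set G)
      rw [Subgroup.mem_centralizer_iff]
      intro n hn
      exact hNcm n hn u (hUN hu)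
  have hNU : ¬ N ≤ U := by
    intro h
    have h2 := Subgroup.card_le_of_le h
    rw [hUc, hNc] at h2
    have := (Nat.pow_le_pow_iff_right hpp.one_lt).mp h2
    omega
  obtain ⟨n₀, hn₀N, hn₀U, hn₀⟩ := exists_central_mod hNU
  have hgen : ∀ n ∈ N, n ∉ U → N ≤ U ⊔ Subgroup.zpowers n := by
    intro n hn hnU
    rcases hmid (U ⊔ Subgroup.zpowers n) le_sup_left
      (sup_le hUN (Subgroup.zpowers_le.mpr hn)) with h | h
    · exact absurd (h ▸ Subgroup.mem_sup_right (Subgroup.mem_zpowers n)) hnU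
    · exact h.ge
  have hbound : ∀ K : Subgroup G, K ≤ Subgroup.centralizer (U : Set G) →
      Nat.card K ≤ p ^ 2 * Nat.card ↥(K ⊓ Subgroup.centralizer (N : Set G)) := by
    intro K hK
    have := card_le_of_centralizes (hgen n₀ hn₀N hn₀U) hn₀ hK
    rwa [hUc] at this
  have hENc : Nat.card ↥(E ⊔ N) = p ^ 5 := by
    have h1 := card_sup_mul_card_inf E N
    rw [hEN, hUc, hE4, hNc] at h1
    have h2 : p ^ 4 * p ^ 3 = p ^ 5 * p ^ 2 := by ring
    rw [h2] at h1
    exact Nat.eq_of_mul_eq_mul_right (pow_pos hpp.pos 2) h1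
  -- uniqueness of `E` among the abelian subgroups of order `p ^ 4` of `E ⊔ N`
  have huniq : ∀ A : Subgroup G, A ≤ E ⊔ N → (∀ a ∈ A, ∀ b ∈ A, a * b = b * a) →
      Nat.card A = p ^ 4 → A = E := by
    intro A hA hAc hA4
    have hrel : E.relIndex (E ⊔ N) = p := by
      have h1 := Subgroup.relIndex_mul_relIndex ⊥ E (E ⊔ N) bot_le le_sup_left
      rw [Subgroup.relIndex_bot_left, Subgroup.relIndex_bot_left, hE4, hENc] at h1
      have h2 : p ^ 5 = p ^ 4 * p := by ring
      rw [h2] at h1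
      exact Nat.eq_of_mul_eq_mul_left (pow_pos hpp.pos 4) h1
    have hrelA : E.relIndex A ≤ p := by
      rw [← hrel]
      exact Subgroup.relIndex_le_of_le_right hA (by rw [hrel]; exact hpp.ne_zero)
    have hAE : Nat.card ↥(A ⊓ E) * E.relIndex A = p ^ 4 := by
      have h1 := Subgroup.relIndex_mul_relIndex ⊥ (A ⊓ E) A bot_le inf_le_left
      rw [Subgroup.relIndex_bot_left, Subgroup.relIndex_bot_left, hA4] at h1
      have h3 : (A ⊓ E).relIndex A = E.relIndex A := by
        rw [inf_comm, Subgroup.inf_relIndex_right]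
      rw [h3] at h1
      exact h1
    have hnotle : ¬ A ⊓ E ≤ U := by
      intro h
      have h1 := Subgroup.card_le_of_le h
      rw [hUc] at h1
      have h2 : p ^ 4 ≤ p ^ 2 * p := by
        rw [← hAE]
        exact Nat.mul_le_mul h1 hrelA
      have h3 : p ^ 2 * p = p ^ 3 := by ring
      rw [h3] at h2
      have := (Nat.pow_le_pow_iff_right hpp.one_lt).mp h2
      omega
    obtain ⟨a, ha, haU⟩ := SetLike.not_le_iff_exists.mp hnotle
    have hle : A ≤ E := by
      intro x hx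
      have hx' : x ∈ (↑(E ⊔ N) : Set G) := hA hx
      rw [Subgroup.mul_normal] at hx'
      obtain ⟨e, he, n, hn, rfl⟩ := Set.mem_mul.mp hx'
      have hae : a * e = e * a := hEc a ha.2 e he
      have hax : a * (e * n) = (e * n) * a := hAc a ha.1 _ hx
      have han : a * n = n * a := by
        have h1 : e * (a * n) = e * (n * a) := by
          calc e * (a * n) = (a * e) * n := by rw [hae, mul_assoc]
            _ = a * (e * n) := by rw [mul_assoc]
            _ = (e * n) * a := hax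
            _ = e * (n * a) := by rw [mul_assoc]
        exact mul_left_cancel h1
      have hnU : n ∈ U := by
        by_contra hnU
        have h1 := hgen n hn hnU
        apply haU
        rw [← hECN]
        refine ⟨ha.2, ?_⟩
        have h6 : U ⊔ Subgroup.zpowers n ≤ Subgroup.centralizer ({a} : Set G) := by
          refine sup_le ?_ ?_
          · intro u hu z hz
            rw [Set.mem_singleton_iff] at hz
            subst hz
            exact hEc z ha.2 u (hUE hu)
          · rw [Subgroup.zpowers_le]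
            intro z hz
            rw [Set.mem_singleton_iff] at hz
            subst hz
            exact han
        show a ∈ Subgroup.centralizer (N : Set G)
        rw [Subgroup.mem_centralizer_iff]
        intro k hk
        exact (h6 (h1 hk) a rfl).symm
      exact E.mul_mem he (hUE hnU)
    exact Subgroup.eq_of_le_of_card_ge hle (by rw [hA4, hE4])
  -- the final contradiction
  by_contra hEn
  have hnorm : Subgroup.normalizer (E : Set G) ≠ ⊤ := fun h =>
    hEn (Subgroup.normalizer_eq_top_iff.mp h)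
  have hlt := (Group.normalizerCondition_of_isNilpotent (G := G))
    (Subgroup.normalizer (E : Set G)) (lt_top_iff_ne_top.mpr hnorm)
  obtain ⟨g, hg1, hg2⟩ := SetLike.exists_of_lt hlt
  have hEH : E ≤ Subgroup.normalizer (E : Set G) := Subgroup.le_normalizer
  have hginv : g⁻¹ ∈ Subgroup.normalizer ((Subgroup.normalizer (E : Set G) : Subgroup G) : Set G) :=
    Subgroup.inv_mem _ hg1
  -- the conjugate `Eg`
  obtain ⟨Eg, hEgdef⟩ : ∃ Eg : Subgroup G, Eg = E.map (MulAut.conj g).toMonoidHom := ⟨_, rfl⟩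
  have hEgmem : ∀ x, x ∈ Eg ↔ ∃ e ∈ E, x = g * e * g⁻¹ := by
    intro x
    rw [hEgdef]
    constructor
    · rintro ⟨e, he, rfl⟩
      exact ⟨e, he, rfl⟩
    · rintro ⟨e, he, rfl⟩
      exact ⟨e, he, rfl⟩
  have hEgc : ∀ a ∈ Eg, ∀ b ∈ Eg, a * b = b * a := by
    intro a ha b hb
    obtain ⟨e, he, rfl⟩ := (hEgmem a).mp ha
    obtain ⟨f, hf, rfl⟩ := (hEgmem b).mp hb
    have := hEc e he f hf
    calc g * e * g⁻¹ * (g * f * g⁻¹) = g * (e * f) * g⁻¹ := by group
      _ = g * (f * e) * g⁻¹ := by rw [this]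
      _ = g * f * g⁻¹ * (g * e * g⁻¹) := by group
  have hEgp : ∀ a ∈ Eg, a ^ p = 1 := by
    intro a ha
    obtain ⟨e, he, rfl⟩ := (hEgmem a).mp ha
    rw [conj_pow, hE.2 e he]
    group
  have hEg4 : Nat.card Eg = p ^ 4 := by
    rw [hEgdef, Subgroup.card_map_of_injective (MulAut.conj g).injective, hE4]
  have hEgne : Eg ≠ E := by
    intro h
    apply hg2
    rw [Subgroup.mem_normalizer_iff]
    intro x
    constructor
    · intro hx
      rw [← h, hEgmem]
      exact ⟨x, hx, rfl⟩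
    · intro hx
      rw [← h, hEgmem] at hx
      obtain ⟨e, he, hxe⟩ := hx
      have : x = e := by
        have h1 : g⁻¹ * (g * x * g⁻¹) * g = g⁻¹ * (g * e * g⁻¹) * g := by rw [hxe]
        have h2 : g⁻¹ * (g * x * g⁻¹) * g = x := by group
        have h3 : g⁻¹ * (g * e * g⁻¹) * g = e := by group
        rw [h2, h3] at h1
        exact h1
      rw [this]
      exact he
  -- `Eg` normalises `E` and conversely
  have hn1 : ∀ a ∈ E, ∀ b ∈ Eg, b * a * b⁻¹ ∈ E := by
    intro a ha b hb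
    obtain ⟨e, he, rfl⟩ := (hEgmem b).mp hb
    have h1 : g * e * g⁻¹ ∈ Subgroup.normalizer (E : Set G) :=
      ((Subgroup.mem_normalizer_iff.mp hg1) e).mp (hEH he)
    exact ((Subgroup.mem_normalizer_iff.mp h1) a).mp ha
  have hn2 : ∀ a ∈ E, ∀ b ∈ Eg, a * b * a⁻¹ ∈ Eg := by
    intro a ha b hb
    obtain ⟨e, he, rfl⟩ := (hEgmem b).mp hb
    have h1 : g⁻¹ * a * g⁻¹⁻¹ ∈ Subgroup.normalizer (E : Set G) :=
      ((Subgroup.mem_normalizer_iff.mp hginv) a).mp (hEH ha)
    have h2 : (g⁻¹ * a * g⁻¹⁻¹) * e * (g⁻¹ * a * g⁻¹⁻¹)⁻¹ ∈ E :=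
      ((Subgroup.mem_normalizer_iff.mp h1) e).mp he
    rw [hEgmem]
    refine ⟨_, h2, ?_⟩
    group
  -- the product `K = E * Eg`
  let K : Subgroup G :=
    { carrier := {x | ∃ a ∈ E, ∃ b ∈ Eg, x = a * b}
      mul_mem' := by
        rintro _ _ ⟨a, ha, b, hb, rfl⟩ ⟨a', ha', b', hb', rfl⟩
        refine ⟨a * (b * a' * b⁻¹), E.mul_mem ha (hn1 a' ha' b hb), b * b', Eg.mul_mem hb hb', ?_⟩
        group
      one_mem' := ⟨1, E.one_mem, 1, Eg.one_mem, by group⟩
      inv_mem' := by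
        rintro _ ⟨a, ha, b, hb, rfl⟩
        refine ⟨b⁻¹ * a⁻¹ * b⁻¹⁻¹, hn1 a⁻¹ (E.inv_mem ha) b⁻¹ (Eg.inv_mem hb), b⁻¹, Eg.inv_mem hb,
          ?_⟩
        group }
  have hKmem : ∀ x, x ∈ K ↔ ∃ a ∈ E, ∃ b ∈ Eg, x = a * b := fun x => Iff.rfl
  have hEK : E ≤ K := fun a ha => (hKmem a).mpr ⟨a, ha, 1, Eg.one_mem, by group⟩
  have hEgK : Eg ≤ K := fun b hb => (hKmem b).mpr ⟨1, E.one_mem, b, hb, by group⟩
  have hKU : K ≤ Subgroup.centralizer (U : Set G) := by
    intro x hx
    obtain ⟨a, ha, b, hb, rfl⟩ := (hKmem x).mp hx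
    apply Subgroup.mul_mem
    · rw [Subgroup.mem_centralizer_iff]
      intro u hu
      exact hEc u (hUE hu) a ha
    · rw [Subgroup.mem_centralizer_iff]
      intro u hu
      have hu' : u ∈ Eg := by
        rw [hEgmem]
        refine ⟨g⁻¹ * u * g⁻¹⁻¹, hUE (hUn.conj_mem u hu g⁻¹), ?_⟩
        group
      exact hEgc u hu' b hb
  have hKp : ∀ x ∈ K, x ^ p = 1 := by
    intro x hx
    obtain ⟨a, ha, b, hb, rfl⟩ := (hKmem x).mp hx
    have hdE : b⁻¹ * a⁻¹ * b * a ∈ E := by
      have h1 := hn1 a⁻¹ (E.inv_mem ha) b⁻¹ (Eg.inv_mem hb)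
      have h2 : b⁻¹ * a⁻¹ * b * a = b⁻¹ * a⁻¹ * b⁻¹⁻¹ * a := by group
      rw [h2]
      exact E.mul_mem h1 ha
    have hdEg : b⁻¹ * a⁻¹ * b * a ∈ Eg := by
      have h1 := hn2 a⁻¹ (E.inv_mem ha) b hb
      have h2 : b⁻¹ * a⁻¹ * b * a = b⁻¹ * (a⁻¹ * b * a⁻¹⁻¹) := by group
      rw [h2]
      exact Eg.mul_mem (Eg.inv_mem hb) h1
    have hba : b * a = a * b * (b⁻¹ * a⁻¹ * b * a) := by group
    have hda : Commute (b⁻¹ * a⁻¹ * b * a) a := hEc _ hdE a ha
    have hdb : Commute (b⁻¹ * a⁻¹ * b * a) b := hEgc _ hdEg b hb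
    rw [mul_pow_prime_of_class_two hpp hp hba hda hdb (hE.2 _ hdE), hE.2 a ha, hEgp b hb, one_mul]
  have hKN : K ⊓ Subgroup.centralizer (N : Set G) ≤ K ⊓ N := fun x hx =>
    ⟨hx.1, hLA x hx.2 (hKp x hx.1)⟩
  have hKc : Nat.card K ≤ p ^ 2 * Nat.card ↥(K ⊓ N) :=
    (hbound K hKU).trans (Nat.mul_le_mul_left _ (Subgroup.card_le_of_le hKN))
  have hKNc : Nat.card ↥(K ⊔ N) ≤ p ^ 5 := by
    have h1 := card_sup_mul_card_inf K N
    have hpos : 0 < Nat.card ↥(K ⊓ N) := Nat.card_pos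
    have h2 : Nat.card ↥(K ⊔ N) * Nat.card ↥(K ⊓ N) ≤ p ^ 5 * Nat.card ↥(K ⊓ N) := by
      rw [h1, hNc]
      calc Nat.card K * p ^ 3 ≤ p ^ 2 * Nat.card ↥(K ⊓ N) * p ^ 3 := Nat.mul_le_mul_right _ hKc
        _ = p ^ 5 * Nat.card ↥(K ⊓ N) := by ring
    exact Nat.le_of_mul_le_mul_right h2 hpos
  have hsup : E ⊔ N = K ⊔ N :=
    Subgroup.eq_of_le_of_card_ge (sup_le_sup_right hEK N) (by rw [hENc]; exact hKNc)
  have hEgle : Eg ≤ E ⊔ N := by
    rw [hsup]
    exact hEgK.trans le_sup_left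
  exact hEgne (huniq Eg hEgle hEgc hEg4)

/-- For `p` odd, a `p`-group with an elementary abelian subgroup of order `p ^ 4` has a normal
elementary abelian subgroup of order `p ^ 4`. -/
theorem exists_normal_elemAb_four {p : ℕ} [Fact p.Prime] (hp : p ≠ 2) [Finite G]
    (hG : IsPGroup p G) (E : Subgroup G) (hE : IsElementaryAbelian p E)
    (hE4 : Nat.card E = p ^ 4) :
    ∃ A : Subgroup G, A.Normal ∧ IsElementaryAbelian p A ∧ Nat.card A = p ^ 4 := by
  classical
  have hpp := (Fact.out : p.Prime)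
  have : Group.IsNilpotent G := hG.isNilpotent
  by_contra hcon
  push Not at hcon
  obtain ⟨N₀, hN₀n, hN₀, hN₀c⟩ := exists_normal_elemAb_sq hG hE (by
    rw [hE4]
    exact Nat.pow_lt_pow_right hpp.one_lt (by norm_num))
  have := hN₀n
  obtain ⟨U, hUN₀, hUn, hUc⟩ := exists_normal_le_card_eq hG (N := N₀) (k := 2) hN₀c
  have hU : IsElementaryAbelian p U := elemAb_of_le hUN₀ hN₀
  obtain ⟨N, hNmax⟩ := exists_maximal_of_wellFoundedGT
    (fun N : Subgroup G => N.Normal ∧ IsElementaryAbelian p N ∧ U ≤ N) ⟨U, hUn, hU, le_rfl⟩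
  obtain ⟨⟨hNn, hN, hUN⟩, hNm⟩ := hNmax
  have hmax : ∀ N' : Subgroup G, N'.Normal → IsElementaryAbelian p N' → N ≤ N' → N' = N :=
    fun N' h1 h2 h3 => le_antisymm (hNm ⟨h1, h2, hUN.trans h3⟩ h3) h3
  have := hNn
  have hNlt : Nat.card N < p ^ 4 := by
    by_contra h
    push Not at h
    obtain ⟨A, hAN, hAn, hAc⟩ := exists_normal_le_card_eq hG (N := N) (k := 4) h
    exact hcon A hAn (elemAb_of_le hAN hN) hAc
  have hLA : ∀ x ∈ Subgroup.centralizer (N : Set G), x ^ p = 1 → x ∈ N :=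
    fun x hx hxp => alperin hp hG hNn hN hmax hx hxp
  obtain ⟨k, hk⟩ := card_pow_of_isPGroup hG N
  have hk3 : k ≤ 3 := by
    rw [hk] at hNlt
    have := (Nat.pow_lt_pow_iff_right hpp.one_lt).mp hNlt
    omega
  have hk2 : 2 ≤ k := by
    have h1 := Subgroup.card_le_of_le hUN
    rw [hUc, hk] at h1
    exact (Nat.pow_le_pow_iff_right hpp.one_lt).mp h1
  have hEC : ∀ E' : Subgroup G, IsElementaryAbelian p E' →
      E' ⊓ Subgroup.centralizer (N : Set G) ≤ N := fun E' hE' x hx => hLA x hx.2 (hE'.2 x hx.1)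
  have hNc : Nat.card N = p ^ 3 := by
    rcases Nat.lt_or_ge k 3 with h | h
    · exfalso
      have hk' : k = 2 := by omega
      subst hk'
      have h1 := card_le_mul_card_inf_centralizer hG (U := N) hk E
      have h2 := Subgroup.card_le_of_le (hEC E hE)
      rw [hE4] at h1
      rw [hk] at h2
      have h4 : p ^ 4 ≤ p * p ^ 2 := h1.trans (Nat.mul_le_mul_left p h2)
      have h3 : p * p ^ 2 = p ^ 3 := by ring
      rw [h3] at h4
      have := (Nat.pow_le_pow_iff_right hpp.one_lt).mp h4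
      omega
    · have : k = 3 := by omega
      rw [hk, this]
  obtain ⟨E', hE', hE'4, hUE'⟩ : ∃ E' : Subgroup G, IsElementaryAbelian p E' ∧
      Nat.card E' = p ^ 4 ∧ U ≤ E' := by
    by_cases hUE : U ≤ E
    · exact ⟨E, hE, hE4, hUE⟩
    · have hDel : IsElementaryAbelian p (E ⊓ Subgroup.centralizer (U : Set G)) :=
        elemAb_of_le inf_le_left hE
      have hX : IsElementaryAbelian p (E ⊓ Subgroup.centralizer (U : Set G) ⊔ U) := by
        apply elemAb_sup hDel hU
        intro a ha b hb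
        exact (ha.2 b hb).symm
      have h1 := card_le_mul_card_inf_centralizer hG hUc E
      have hlt : E ⊓ Subgroup.centralizer (U : Set G) <
          E ⊓ Subgroup.centralizer (U : Set G) ⊔ U :=
        lt_of_le_of_ne le_sup_left (fun h => hUE (by
          have h5 : U ≤ E ⊓ Subgroup.centralizer (U : Set G) := by
            rw [h]
            exact le_sup_right
          exact h5.trans inf_le_left))
      have h2 := card_lt_card_of_lt hlt
      obtain ⟨a, ha⟩ := card_pow_of_isPGroup hG (E ⊓ Subgroup.centralizer (U : Set G))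
      obtain ⟨b, hb⟩ := card_pow_of_isPGroup hG (E ⊓ Subgroup.centralizer (U : Set G) ⊔ U)
      have hab : a < b := by
        rw [ha, hb] at h2
        exact (Nat.pow_lt_pow_iff_right hpp.one_lt).mp h2
      have ha3 : 3 ≤ a := by
        rw [hE4, ha] at h1
        have h3 : p * p ^ a = p ^ (a + 1) := by ring
        rw [h3] at h1
        have := (Nat.pow_le_pow_iff_right hpp.one_lt).mp h1
        omega
      have hdvd : p ^ 4 ∣ Nat.card ↥(E ⊓ Subgroup.centralizer (U : Set G) ⊔ U) := by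
        rw [hb]
        exact pow_dvd_pow p (by omega)
      have hH : Nat.card ↥(U.subgroupOf (E ⊓ Subgroup.centralizer (U : Set G) ⊔ U)) = p ^ 2 := by
        rw [Nat.card_congr (Subgroup.subgroupOfEquivOfLe
          (le_sup_right : U ≤ E ⊓ Subgroup.centralizer (U : Set G) ⊔ U)).toEquiv, hUc]
      obtain ⟨K', hK'1, hK'2⟩ := Sylow.exists_subgroup_card_pow_prime_le p hdvd _ hH (by norm_num)
      refine ⟨K'.map (E ⊓ Subgroup.centralizer (U : Set G) ⊔ U).subtype, elemAb_of_le ?_ hX,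
        ?_, ?_⟩
      · rintro _ ⟨y, -, rfl⟩
        exact y.2
      · rw [Subgroup.card_map_of_injective (Subgroup.subtype_injective _), hK'1]
      · intro u hu
        exact ⟨⟨u, Subgroup.mem_sup_right hu⟩, hK'2 (Subgroup.mem_subgroupOf.mpr hu), rfl⟩
  exact hcon E' (normal_of_ge hp hG hUn hUc hNn hN hNc hUN hLA hE' hE'4 hUE') hE' hE'4

end main

end Cfsg.Agent.Lib.Helper31.NEA4
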