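import Mathlib
import Cfsg.Prelude.Def_GeometricClasses

/-!
# S5981 (helper96), piece TRANSV

The transvection `1 + E₀₁` of `SL_n` in odd characteristic `p` has order `p`, is not scalar and
no conjugate of it is a similarity of a non-degenerate quadratic form.
-/

set_option autoImplicit false

namespace Cfsg.Agent.Lib.Helper31.Oq

open Matrix

theorem transv_pow {n : ℕ} {F : Type*} [Field F] (i j : Fin n) (hij : i ≠ j) (c : F) (k : ℕ) :
    (Matrix.transvection i j c) ^ k = Matrix.transvection i j ((k : F) * c) := by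
  induction k with
  | zero => simp [Matrix.transvection_zero]
  | succ k ih =>
    rw [pow_succ, ih, Matrix.transvection_mul_transvection_same i j hij]
    congr 1
    push_cast; ring

theorem transv_not_conj {F : Type*} [Field F] {p : ℕ} [Fact p.Prime] [CharP F p]
    (h2 : (2 : F) ≠ 0) (n : ℕ) (hn : 2 ≤ n)
    (Q : (Fin n → F) → F) (hQ : Cfsg.Geo.IsNondegenerateQuadraticForm Q) :
    ∃ x : GL (Fin n) F, x ∈ Cfsg.Geo.specialLinear (Fin n) F ∧ x ^ p = 1 ∧
      (∀ z : F, (x : Matrix (Fin n) (Fin n) F) ≠ z • (1 : Matrix (Fin n) (Fin n) F)) ∧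
      ∀ g : GL (Fin n) F, g⁻¹ * x * g ∉ Cfsg.Geo.quadSimilarityGroup Q := by
  classical
  let i0 : Fin n := ⟨0, by omega⟩
  let i1 : Fin n := ⟨1, by omega⟩
  have h01 : i0 ≠ i1 := by
    intro h
    have h' := congrArg Fin.val h
    simp [i0, i1] at h'
  let T : Matrix (Fin n) (Fin n) F := Matrix.transvection i0 i1 1
  have hTp : T ^ p = 1 := by
    rw [transv_pow i0 i1 h01, CharP.cast_eq_zero, zero_mul, Matrix.transvection_zero]
  have hdet : T.det = 1 := Matrix.det_transvection_of_ne i0 i1 h01 1
  have hp0 : p ≠ 0 := (Fact.out : p.Prime).ne_zero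
  have hppos : 0 < p := (Fact.out : p.Prime).pos
  let x : GL (Fin n) F := ⟨T, T ^ (p - 1),
    by rw [← pow_succ', Nat.sub_add_cancel hppos, hTp],
    by rw [← pow_succ, Nat.sub_add_cancel hppos, hTp]⟩
  have hxT : (x : Matrix (Fin n) (Fin n) F) = T := rfl
  have hT : ∀ w : Fin n → F, T *ᵥ w = w + w i1 • Pi.single i0 1 := by
    intro w
    show (1 + Matrix.single i0 i1 (1:F)) *ᵥ w = _
    rw [Matrix.add_mulVec, Matrix.one_mulVec, Matrix.single_mulVec]
    congr 1
    ext i
    by_cases hi : i = i0
    · rw [hi]; simp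
    · simp [hi]
  refine ⟨x, ?_, ?_, ?_, ?_⟩
  · show x ∈ (Matrix.GeneralLinearGroup.det : GL (Fin n) F →* Fˣ).ker
    rw [MonoidHom.mem_ker]
    apply Units.ext
    rw [Matrix.GeneralLinearGroup.val_det_apply, hxT, hdet]; rfl
  · apply Units.ext
    rw [Units.val_pow_eq_pow_val, hxT, hTp]; rfl
  · intro z hz
    rw [hxT] at hz
    have h' := congrFun (congrFun hz i0) i1
    simp [T, Matrix.transvection, h01] at h'
  · intro g hmem
    obtain ⟨c, hc⟩ := hmem
    set G : Matrix (Fin n) (Fin n) F := (g : Matrix (Fin n) (Fin n) F) with hG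
    set Gi : Matrix (Fin n) (Fin n) F := ((g⁻¹ : GL (Fin n) F) : Matrix (Fin n) (Fin n) F) with hGi
    have hGiG : Gi * G = 1 := by
      rw [hGi, hG, ← Units.val_mul, inv_mul_cancel]; rfl
    have hGGi : G * Gi = 1 := by
      rw [hGi, hG, ← Units.val_mul, mul_inv_cancel]; rfl
    have hY : ((g⁻¹ * x * g : GL (Fin n) F) : Matrix (Fin n) (Fin n) F) = Gi * T * G := by
      rw [Units.val_mul, Units.val_mul]
    -- the multiplier is one
    have hpow : ∀ (k : ℕ) (v : Fin n → F), Q (((Gi * T * G) ^ k) *ᵥ v) = (c : F) ^ k * Q v := by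
      intro k
      induction k with
      | zero => intro v; simp
      | succ k ih =>
        intro v
        rw [pow_succ, ← Matrix.mulVec_mulVec, ih, pow_succ, ← hY, hc v]
        ring
    have hYk : ∀ k : ℕ, (Gi * T * G) ^ k = Gi * T ^ k * G := by
      intro k
      induction k with
      | zero => simp [hGiG]
      | succ k ih =>
        rw [pow_succ, ih, pow_succ]
        calc Gi * T ^ k * G * (Gi * T * G) = Gi * T ^ k * (G * Gi) * T * G := by
              simp only [Matrix.mul_assoc]
          _ = Gi * (T ^ k * T) * G := by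
              rw [hGGi]; simp only [Matrix.mul_assoc, Matrix.mul_one]
    have hYp : (Gi * T * G) ^ p = 1 := by
      rw [hYk, hTp, Matrix.mul_one, hGiG]
    obtain ⟨v0, hv0⟩ : ∃ v, Q v ≠ 0 := by
      by_contra hall
      push Not at hall
      have hne : (Pi.single i0 1 : Fin n → F) ≠ 0 := by
        intro h
        have h' := congrFun h i0
        simp at h'
      obtain ⟨⟨w, hw⟩, _⟩ := hQ.nondegenerate _ hne
      apply hw
      show Q (w + _) - Q w - Q _ = 0
      rw [hall, hall, hall]; ring
    have hcp : (c : F) ^ p = 1 := by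
      have h1 := hpow p v0
      rw [hYp, Matrix.one_mulVec] at h1
      have h3 : ((c : F) ^ p - 1) * Q v0 = 0 := by rw [sub_mul, one_mul, ← h1, sub_self]
      rcases mul_eq_zero.1 h3 with h | h
      · exact sub_eq_zero.1 h
      · exact absurd h hv0
    have hc1 : (c : F) = 1 := by
      have h3 : ((c : F) - 1) ^ p = 0 := by
        rw [sub_pow_char, hcp, one_pow, sub_self]
      exact sub_eq_zero.1 ((pow_eq_zero_iff hp0).1 h3)
    -- the vector `a` and the functional `φ`
    let a : Fin n → F := Gi *ᵥ Pi.single i0 1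
    let φ : (Fin n → F) → F := fun v => (G *ᵥ v) i1
    have hφadd : ∀ u w, φ (u + w) = φ u + φ w := by
      intro u w
      show (G *ᵥ (u + w)) i1 = _
      rw [Matrix.mulVec_add]; rfl
    have hφsmul : ∀ (t : F) (u : Fin n → F), φ (t • u) = t * φ u := by
      intro t u
      show (G *ᵥ (t • u)) i1 = _
      rw [Matrix.mulVec_smul]; rfl
    have hYv : ∀ v, (Gi * T * G) *ᵥ v = v + φ v • a := by
      intro v
      rw [← Matrix.mulVec_mulVec, ← Matrix.mulVec_mulVec, hT, Matrix.mulVec_add,
        Matrix.mulVec_mulVec, hGiG, Matrix.one_mulVec, Matrix.mulVec_smul]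
    have hinv : ∀ v, Q (v + φ v • a) = Q v := by
      intro v
      rw [← hYv, ← hY, hc v, hc1, one_mul]
    have hGa : G *ᵥ a = Pi.single i0 1 := by
      show G *ᵥ (Gi *ᵥ Pi.single i0 1) = _
      rw [Matrix.mulVec_mulVec, hGGi, Matrix.one_mulVec]
    have ha : a ≠ 0 := by
      intro h0
      rw [h0, Matrix.mulVec_zero] at hGa
      have h' := congrFun hGa i0
      simp at h'
    have hφa : φ a = 0 := by
      show (G *ᵥ a) i1 = 0
      rw [hGa]
      simp [h01.symm]
    let v1 : Fin n → F := Gi *ᵥ Pi.single i1 1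
    have hφv1 : φ v1 = 1 := by
      show (G *ᵥ (Gi *ᵥ Pi.single i1 1)) i1 = 1
      rw [Matrix.mulVec_mulVec, hGGi, Matrix.one_mulVec]
      simp
    have hB := hQ.polar_bilinear
    have hkey : ∀ v, φ v * (φ v * Q a + QuadraticMap.polar Q v a) = 0 := by
      intro v
      have h1 := hinv v
      have h3 : QuadraticMap.polar Q v (φ v • a) = Q (v + φ v • a) - Q v - Q (φ v • a) := rfl
      rw [hB.smul_right, hQ.smul, h1] at h3
      linear_combination h3
    have h1 : Q a + QuadraticMap.polar Q v1 a = 0 := by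
      have h3 := hkey v1
      rw [hφv1, one_mul, one_mul] at h3
      exact h3
    have hker : ∀ k, φ k = 0 → QuadraticMap.polar Q k a = 0 := by
      intro k hk
      have h3 := hkey (v1 + k)
      rw [hφadd, hφv1, hk, add_zero, one_mul, one_mul, hB.add_left] at h3
      linear_combination h3 - h1
    have hQa : Q a = 0 := by
      have h3 := hker a hφa
      have h4 : QuadraticMap.polar Q a a = Q (a + a) - Q a - Q a := rfl
      rw [← two_smul F a, hQ.smul] at h4
      have h5 : 2 * Q a = 0 := by linear_combination h3 - h4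
      rcases mul_eq_zero.1 h5 with h | h
      · exact absurd h h2
      · exact h
    have hv1a : QuadraticMap.polar Q v1 a = 0 := by
      rw [hQa, zero_add] at h1; exact h1
    obtain ⟨⟨w, hw⟩, _⟩ := hQ.nondegenerate a ha
    apply hw
    have hdec : w = (w - φ w • v1) + φ w • v1 := by rw [sub_add_cancel]
    have hφ0 : φ (w - φ w • v1) = 0 := by
      have h3 := hφadd (w - φ w • v1) (φ w • v1)
      rw [sub_add_cancel, hφsmul, hφv1, mul_one] at h3
      linear_combination -h3
    rw [hdec, hB.add_left, hB.smul_left, hker _ hφ0, hv1a, mul_zero, add_zero]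

end Cfsg.Agent.Lib.Helper31.Oq
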