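import Mathlib
import Cfsg.Agent.Lib.Helper53.MinusDefs
import Cfsg.Agent.Lib.Helper51.OAF
import Cfsg.Agent.Lib.Helper51.Gram
import Cfsg.Agent.Lib.Helper51.GammaOKer

/-!
# Project PF (helper52; S2715), piece ORD

The order of the field automorphism `σ` inducing a field automorphism `φ` of prime order `r` of
`PΩ⁺_{2m}(F)` is `r` (port of `Helper53.MinusMain.order_sigma` to the plus type).
-/

set_option autoImplicit false
set_option linter.unusedSectionVars false
set_option linter.unusedVariables false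

namespace Cfsg.Agent.Lib.Helper52.PF

open Module QuadraticMap Matrix
open Cfsg Cfsg.Agent.Lib.Helper51 Cfsg.Agent.Lib.Helper51.GammaO Cfsg.Agent.Lib.Helper52
  Cfsg.Agent.Lib.Helper52.OA Cfsg.Agent.Lib.Helper51.OutSpin Cfsg.Agent.Lib.Helper53.OddF
  Cfsg.Agent.Lib.Helper53.MinusF

universe u v

theorem pford_aux {F : Type u} [Field F] [Fintype F] {m : ℕ} (hm : 4 ≤ m)
    (Q' : (Fin m ⊕ Fin m → F) → F) (hQ' : ⇑(QPlus m F) = Q')
    (σ : F ≃+* F) (hσne : σ ≠ RingEquiv.refl F)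
    (φ : MulAut (POmega F Q')) (hφ : IsFieldAutPOmegaOf Q' σ φ) {r : ℕ} (hr : r.Prime)
    (hφr : orderOf φ = r) : orderOf (σ : RingAut F) = r := by
  subst hQ'
  have hQ : (polarBilin (QPlus m F)).Nondegenerate := by
    apply nondegenerate_of_det_gram_ne_zero
    rw [det_gram_QPlus]
    exact pow_ne_zero _ (neg_ne_zero.mpr one_ne_zero)
  have hn : 7 ≤ Fintype.card (Fin m ⊕ Fin m) := by
    simp
    omega
  have hσ : (SemidirectProduct.inr (σ : RingAut F) : SGL (Fin m ⊕ Fin m) F) ∈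
      GO ⇑(QPlus m F) := by
    refine ⟨1, fun v => ?_⟩
    rw [coe_QPlus]
    simp [quadFormPlus, map_sum, map_mul]
  have hφ' := (field_iffS (QPlus m F) σ hσ φ).mp hφ
  have : Fact r.Prime := ⟨hr⟩
  have hσr : (σ : RingAut F) ^ r = 1 := by
    have h1 : Theta ⇑(QPlus m F) (inrS (QPlus m F) ((σ : RingAut F) ^ r)
        (inr_pow_mem _ σ hσ r)) = 1 := by
      rw [inrS_pow (QPlus m F) σ hσ r, map_pow, ← hφ', ← hφr]
      exact pow_orderOf_eq_one φ
    exact ((ker_Theta (QPlus m F) hQ hn _).1 h1).1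
  have hσne' : (σ : RingAut F) ≠ 1 := hσne
  exact orderOf_eq_prime hσr hσne'

-- PIECE ORD (port of `Helper53.MinusMain.order_sigma`)
theorem order_sigma_plus {F : Type u} [Field F] [Fintype F] {m : ℕ} (hm : 4 ≤ m)
    (σ : F ≃+* F) (hσne : σ ≠ RingEquiv.refl F)
    (φ : MulAut (Cfsg.POmega F (Cfsg.quadFormPlus m F)))
    (hφ : Cfsg.IsFieldAutPOmegaOf (Cfsg.quadFormPlus m F) σ φ) {r : ℕ} (hr : r.Prime)
    (hφr : orderOf φ = r) : orderOf (σ : RingAut F) = r :=
  pford_aux hm _ (coe_QPlus m F) σ hσne φ hφ hr hφr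

end Cfsg.Agent.Lib.Helper52.PF
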