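import Cfsg.Agent.Lib.Helper22.PTDefs

/-! Project PT (helper22; S4705), piece PROD: a normal subgroup `L` meeting the centre trivially
with `G = L Z(G)` gives `G ≃* L × Z(G)`. -/

set_option autoImplicit false

namespace Cfsg.Agent.Lib.Helper31.PT

open Cfsg Cfsg.Agent.Lib.Helper22.BFD Cfsg.Agent.Lib.Helper22.PT
open scoped ComplexConjugate

universe u

variable {G : Type u} [Group G] [Fintype G]

/-- PIECE PROD -/
theorem prod {G : Type u} [Group G] (L : Subgroup G) [L.Normal]
    (hint : ∀ g ∈ L, g ∈ Subgroup.center G → g = 1)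
    (hsup : ∀ g : G, ∃ l ∈ L, ∃ c ∈ Subgroup.center G, g = l * c) :
    Nonempty (G ≃* L × Subgroup.center G) := by
  let f : ↥L × ↥(Subgroup.center G) →* G :=
    L.subtype.noncommCoprod (Subgroup.center G).subtype
      (fun l c => Subgroup.mem_center_iff.1 c.2 (l : G))
  have hf : ∀ p : ↥L × ↥(Subgroup.center G), f p = (p.1 : G) * (p.2 : G) := fun p => rfl
  have hinj : Function.Injective f := by
    rw [injective_iff_map_eq_one]
    intro p hp
    rw [hf] at hp
    have h1 : (p.1 : G) = (p.2 : G)⁻¹ := eq_inv_of_mul_eq_one_left hp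
    have h2 : (p.1 : G) = 1 :=
      hint _ p.1.2 (by rw [h1]; exact (Subgroup.center G).inv_mem p.2.2)
    have h3 : (p.2 : G) = 1 := by
      rw [h2, one_mul] at hp
      exact hp
    apply Prod.ext
    · exact Subtype.ext h2
    · exact Subtype.ext h3
  have hsurj : Function.Surjective f := by
    intro g
    obtain ⟨l, hl, c, hc, rfl⟩ := hsup g
    exact ⟨(⟨l, hl⟩, ⟨c, hc⟩), rfl⟩
  exact ⟨(MulEquiv.ofBijective f ⟨hinj, hsurj⟩).symm⟩

end Cfsg.Agent.Lib.Helper31.PT
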