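import Cfsg.Agent.Lib.Helper96.PiDefs
import Cfsg.Agent.Lib.Helper96.PiGlueB
import Cfsg.Agent.Lib.Helper96.PiOmega
import Cfsg.Agent.Lib.Helper9.HeUNIPPOW
import Cfsg.Agent.Lib.Helper40.HyFPF
import Cfsg.Agent.Lib.Helper80.HyEXT

/-!
Project PI (S5989, helper96), piece FULLELT (helper31): if the whole space has the right type
and `blk` divides its dimension, there is a fixed-point-free isometry of order `r`.
-/

set_option autoImplicit false
set_option linter.unusedSectionVars false
set_option linter.unusedVariables false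

namespace Cfsg.Agent.Lib.Helper31.Pi

open Module Cfsg.Agent.Lib.Helper96.Sp Cfsg.Agent.Lib.Helper96.BG Cfsg.Agent.Lib.Helper96.Hy
  Cfsg.Agent.Lib.Helper96.Pi Cfsg.Agent.Lib.Helper47

universe u

variable {F : Type u} [Field F] [Fintype F] {V : Type u} [AddCommGroup V] [Module F V]
  [FiniteDimensional F V] {B : LinearMap.BilinForm F V}

-- PIECE FULLELT
theorem exists_full_elt (p : ℕ) [Fact p.Prime] [CharP F p] (hS : B.IsSymm) (h2 : (2 : F) ≠ 0)
    (hN : ND B ⊤) (r : ℕ) [Fact r.Prime] (hr2 : r ≠ 2) (hrp : r ≠ p)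
    (hpos : 0 < finrank F V) (hk : finrank F V % blk (Fintype.card F) r = 0)
    (htyp : Typ B ⊤ (if Even (orderOf ((Fintype.card F : ℕ) : ZMod r))
      then (-1) ^ (finrank F V / blk (Fintype.card F) r) else 1)) :
    ∃ T : Module.End F V, Isom B T ∧ T ^ r = 1 ∧ T ≠ 1 ∧ LinearMap.ker (T - 1) = ⊥ := by
  have hdvd : blk (Fintype.card F) r ∣ finrank F V := Nat.dvd_of_mod_eq_zero hk
  have hfin : finrank F (⊤ : Submodule F V) =
      blk (Fintype.card F) r * (finrank F V / blk (Fintype.card F) r) := by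
    rw [finrank_top, Nat.mul_div_cancel' hdvd]
  have hb1 : 1 ≤ finrank F V / blk (Fintype.card F) r := by
    by_contra h
    have h0 : finrank F V / blk (Fintype.card F) r = 0 := Nat.lt_one_iff.1 (not_le.1 h)
    rw [h0, mul_zero, finrank_top] at hfin
    omega
  obtain ⟨g, hg, hgr, hfix⟩ := Cfsg.Agent.Lib.Helper40.Hy.exists_fpf p hS h2 r hr2 hrp ⊤ hN
    (finrank F V / blk (Fintype.card F) r) hb1 hfin htyp
  obtain ⟨T, hT, hTr, hTg, hfinK⟩ :=
    Cfsg.Agent.Lib.Helper80.Hy.exists_ext hS h2 ⊤ hN g hg r hgr hfix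
  have hker : LinearMap.ker (T - 1) = ⊥ := by
    rw [finrank_top] at hfinK
    apply Submodule.finrank_eq_zero.1
    omega
  refine ⟨T, hT, hTr, ?_, hker⟩
  intro h1
  rw [h1, sub_self, LinearMap.ker_zero] at hker
  have h3 := finrank_top F V
  rw [hker, finrank_bot] at h3
  omega

end Cfsg.Agent.Lib.Helper31.Pi
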