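import Mathlib
import Cfsg.Prelude.Def_Involutions
import Cfsg.Agent.Lib.Helper28.SE2
import Cfsg.Agent.S1324

/-!
Strongly embedded subgroups: a two-point stabilizer of maximal order fixes exactly two points
(when the strongly embedded subgroup contains a four-group).  Also the Frobenius-type count of
fixed-point-free elements used in the proof.
-/

set_option autoImplicit false

namespace Cfsg.Agent.Lib.Helper31

open Cfsg.Agent.Lib.Helper28

section FPF

open Classical in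
/-- Counting fixed-point-free elements: if elements outside `D` fix at most one point, then
`#fpf + #D ≤ #Φ * #D`. -/
theorem fpf_card_le {X : Type*} [Group X] [Finite X] {Φ : Type*} [MulAction X Φ] [Finite Φ]
    (D : Subgroup X) (h2 : ∀ g : X, ∀ w w' : Φ, w ≠ w' → g • w = w → g • w' = w' → g ∈ D)
    (a₀ : Φ) (hD : ∀ d ∈ D, d • a₀ = a₀) :
    Nat.card {g : X // ∀ w : Φ, g • w ≠ w} + Nat.card D ≤ Nat.card Φ * Nat.card D := by
  have : Fintype X := Fintype.ofFinite X
  have : Fintype Φ := Fintype.ofFinite Φ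
  have hB := MulAction.sum_card_fixedBy_eq_card_orbits_mul_card_group X Φ
  have horb : 1 ≤ Fintype.card (Quotient (MulAction.orbitRel X Φ)) :=
    Fintype.card_pos_iff.mpr ⟨Quotient.mk _ a₀⟩
  have hpt : ∀ g : X, Fintype.card (MulAction.fixedBy Φ g) +
      (if (∀ w : Φ, g • w ≠ w) then 1 else 0) + (if g ∈ D then 1 else 0) ≤
      1 + (if g ∈ D then 1 else 0) * Fintype.card Φ := by
    intro g
    by_cases hgD : g ∈ D
    · have h1 : ¬ (∀ w : Φ, g • w ≠ w) := fun h => h a₀ (hD g hgD)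
      have h3 : Fintype.card (MulAction.fixedBy Φ g) ≤ Fintype.card Φ := Fintype.card_subtype_le _
      rw [if_neg h1, if_pos hgD]
      omega
    · by_cases hf : ∀ w : Φ, g • w ≠ w
      · have h3 : Fintype.card (MulAction.fixedBy Φ g) = 0 := by
          rw [Fintype.card_eq_zero_iff]
          exact ⟨fun w => hf w.1 w.2⟩
        rw [if_pos hf, if_neg hgD, h3]
        omega
      · have h3 : Fintype.card (MulAction.fixedBy Φ g) ≤ 1 := by
          rw [Fintype.card_le_one_iff]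
          rintro ⟨w, hw⟩ ⟨w', hw'⟩
          by_contra hne
          exact hgD (h2 g w w' (fun h => hne (Subtype.ext h)) hw hw')
        rw [if_neg hf, if_neg hgD]
        omega
  have hsum := Finset.sum_le_sum (fun g (_ : g ∈ (Finset.univ : Finset X)) => hpt g)
  rw [Finset.sum_add_distrib, Finset.sum_add_distrib, Finset.sum_add_distrib, ← Finset.sum_mul,
    Finset.sum_boole, Finset.sum_boole, hB] at hsum
  simp only [Finset.sum_const, Finset.card_univ, smul_eq_mul, mul_one] at hsum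
  have hT : Nat.card {g : X // ∀ w : Φ, g • w ≠ w} =
      (Finset.univ.filter (fun g : X => ∀ w : Φ, g • w ≠ w)).card := by
    rw [Nat.card_eq_fintype_card, Fintype.card_subtype]
  have hDc : Nat.card D = (Finset.univ.filter (fun g : X => g ∈ D)).card := by
    rw [Nat.card_eq_fintype_card, Fintype.card_subtype]
  rw [hT, hDc, Nat.card_eq_fintype_card]
  have h5 : Fintype.card X ≤ Fintype.card (Quotient (MulAction.orbitRel X Φ)) * Fintype.card X :=
    Nat.le_mul_of_pos_left _ horb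
  have h6 : ((Finset.univ.filter (fun g : X => g ∈ D)).card : ℕ) * Fintype.card Φ =
      Fintype.card Φ * (Finset.univ.filter (fun g : X => g ∈ D)).card := mul_comm _ _
  push_cast at hsum
  omega

/-- The fixed-point-free elements are exactly the cosets `s b * D`. -/
theorem fpf_count {X : Type*} [Group X] [Finite X] {Φ : Type*} [MulAction X Φ] [Finite Φ]
    (D : Subgroup X) (hD : ∀ d ∈ D, ∀ w : Φ, d • w = w)
    (h2 : ∀ g : X, ∀ w w' : Φ, w ≠ w' → g • w = w → g • w' = w' → g ∈ D)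
    (a₀ : Φ) (s : Φ → X) (hs : ∀ b : Φ, b ≠ a₀ → s b • a₀ = b ∧ ∀ w : Φ, s b • w ≠ w)
    (g : X) (hg : ∀ w : Φ, g • w ≠ w) : ∃ d ∈ D, g = s (g • a₀) * d := by
  classical
  let ι : {b : Φ // b ≠ a₀} × D → {g : X // ∀ w : Φ, g • w ≠ w} := fun p =>
    ⟨s p.1.1 * p.2.1, fun w => by
      rw [mul_smul, hD _ p.2.2 w]; exact (hs _ p.1.2).2 w⟩
  have hinj : Function.Injective ι := by
    rintro ⟨⟨b, hb⟩, ⟨d, hd⟩⟩ ⟨⟨b', hb'⟩, ⟨d', hd'⟩⟩ h
    have h1 : s b * d = s b' * d' := congrArg Subtype.val h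
    have h2' : b = b' := by
      have h3 := congrArg (fun x => x • a₀) h1
      simp only [mul_smul, hD d hd, hD d' hd', (hs b hb).1, (hs b' hb').1] at h3
      exact h3
    subst h2'
    have h3 : d = d' := mul_left_cancel h1
    subst h3
    rfl
  have hcard : Nat.card {g : X // ∀ w : Φ, g • w ≠ w} ≤ Nat.card ({b : Φ // b ≠ a₀} × D) := by
    have h1 := fpf_card_le D h2 a₀ (fun d hd => hD d hd a₀)
    rw [Nat.card_prod]
    have : Fintype Φ := Fintype.ofFinite Φ
    have h3 : Nat.card {b : Φ // b ≠ a₀} + 1 = Nat.card Φ := by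
      rw [Nat.card_eq_fintype_card, Nat.card_eq_fintype_card]
      have h4 := Fintype.card_subtype_compl (fun b : Φ => b = a₀)
      rw [Fintype.card_subtype_eq] at h4
      have h5 : 0 < Fintype.card Φ := Fintype.card_pos_iff.mpr ⟨a₀⟩
      have h6 : Fintype.card {b : Φ // b ≠ a₀} = Fintype.card {b : Φ // ¬ b = a₀} := rfl
      omega
    rw [← h3, add_mul, one_mul] at h1
    omega
  have hbij := hinj.bijective_of_nat_card_le hcard
  obtain ⟨⟨⟨b, hb⟩, ⟨d, hd⟩⟩, h⟩ := hbij.2 ⟨g, hg⟩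
  have h1 : s b * d = g := congrArg Subtype.val h
  refine ⟨d, hd, ?_⟩
  have h4 : g • a₀ = b := by rw [← h1, mul_smul, hD d hd, (hs b hb).1]
  rw [h4, h1]

end FPF

section SE

variable {L : Type*} [Group L] [Finite L] {M : Subgroup L}

omit [Finite L] in
/-- The number of involutions fixing a coset equals the number of involutions of `M`. -/
theorem se_count_fixed (e : L ⧸ M) :
    Nat.card {i : L // orderOf i = 2 ∧ i • e = e} = Nat.card {t : L // orderOf t = 2 ∧ t ∈ M} := by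
  obtain ⟨a, rfl⟩ := QuotientGroup.mk_surjective e
  apply Nat.card_congr
  refine ⟨fun i => ⟨a⁻¹ * i.1 * a, ?_, ?_⟩, fun j => ⟨a * j.1 * a⁻¹, ?_, ?_⟩, ?_, ?_⟩
  · simpa using inv_conj i.2.1 a⁻¹
  · exact (smul_mk_eq_iff i.1 a a).1 i.2.2
  · exact inv_conj j.2.1 a
  · rw [smul_mk_eq_iff]
    have h : a⁻¹ * (a * j.1 * a⁻¹) * a = j.1 := by group
    rw [h]; exact j.2.2
  · intro i
    apply Subtype.ext
    show a * (a⁻¹ * i.1 * a) * a⁻¹ = i.1
    group
  · intro j
    apply Subtype.ext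
    show a⁻¹ * (a * j.1 * a⁻¹) * a = j.1
    group

/-- An element of a subgroup without involutions has odd order. -/
theorem odd_orderOf_of_no_invol {D : Subgroup L} (hD : ∀ x ∈ D, orderOf x ≠ 2) {x : L}
    (hx : x ∈ D) : Odd (orderOf x) := by
  by_contra hodd
  rw [Nat.not_odd_iff_even] at hodd
  obtain ⟨j, hj⟩ := hodd
  have hpos : 0 < orderOf x := orderOf_pos x
  have hj0 : j ≠ 0 := by rintro rfl; omega
  have h1 : orderOf (x ^ j) = orderOf x / j := orderOf_pow_of_dvd hj0 ⟨2, by omega⟩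
  have h2 : orderOf x / j = 2 := by
    rw [hj, ← two_mul]
    exact Nat.mul_div_left 2 (Nat.pos_of_ne_zero hj0)
  exact hD _ (D.pow_mem hx j) (h1.trans h2)

/-- **Two-point stabilizers of maximal order** in a group with a strongly embedded subgroup `M`
containing two distinct commuting involutions fix exactly two points of `L ⧸ M`. -/
theorem se_two_point (hM : Cfsg.IsStronglyEmbedded M)
    (hV : ∃ u v : L, u ∈ M ∧ v ∈ M ∧ orderOf u = 2 ∧ orderOf v = 2 ∧ u ≠ v ∧ u * v = v * u) :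
    ∃ x y : L ⧸ M, x ≠ y ∧ ∀ z : L ⧸ M,
      (∀ d : L, d • x = x → d • y = y → d • z = z) → z = x ∨ z = y := by
  classical
  have : Fact (Nat.Prime 2) := ⟨Nat.prime_two⟩
  have hne : Nonempty {p : (L ⧸ M) × (L ⧸ M) // p.1 ≠ p.2} := by
    obtain ⟨u, hu, huM⟩ := se_exists_inv_out hM
    refine ⟨⟨(((1 : L) : L ⧸ M), ((u : L) : L ⧸ M)), ?_⟩⟩
    intro h
    apply huM
    have h1 := QuotientGroup.eq.1 h
    simpa using h1
  obtain ⟨⟨⟨x₀, y₀⟩, hxy₀⟩, hmax⟩ := Finite.exists_max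
    (fun p : {p : (L ⧸ M) × (L ⧸ M) // p.1 ≠ p.2} =>
      Nat.card ↥(MulAction.stabilizer L p.1.1 ⊓ MulAction.stabilizer L p.1.2))
  replace hxy₀ : x₀ ≠ y₀ := hxy₀
  set D : Subgroup L := MulAction.stabilizer L x₀ ⊓ MulAction.stabilizer L y₀ with hDdef
  refine ⟨x₀, y₀, hxy₀, ?_⟩
  intro z hz
  by_contra hcon
  push Not at hcon
  obtain ⟨hzx, hzy⟩ := hcon
  have hDmem : ∀ d : L, d ∈ D ↔ d • x₀ = x₀ ∧ d • y₀ = y₀ := by
    intro d
    rw [hDdef, Subgroup.mem_inf, MulAction.mem_stabilizer_iff, MulAction.mem_stabilizer_iff]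
  let Φ : Set (L ⧸ M) := {w | ∀ d ∈ D, d • w = w}
  have hx₀Φ : x₀ ∈ Φ := fun d hd => ((hDmem d).1 hd).1
  have hy₀Φ : y₀ ∈ Φ := fun d hd => ((hDmem d).1 hd).2
  have hzΦ : z ∈ Φ := fun d hd => hz d ((hDmem d).1 hd).1 ((hDmem d).1 hd).2
  have hD2 : ∀ x y : L ⧸ M, x ∈ Φ → y ∈ Φ → x ≠ y → ∀ g : L, g • x = x → g • y = y → g ∈ D := by
    intro x y hx hy hxy g hgx hgy
    have hle : D ≤ MulAction.stabilizer L x ⊓ MulAction.stabilizer L y := by
      intro d hd
      exact Subgroup.mem_inf.2 ⟨MulAction.mem_stabilizer_iff.2 (hx d hd),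
        MulAction.mem_stabilizer_iff.2 (hy d hd)⟩
    have hcard := hmax ⟨(x, y), hxy⟩
    have heq : D = MulAction.stabilizer L x ⊓ MulAction.stabilizer L y :=
      Subgroup.eq_of_le_of_card_ge hle hcard
    rw [heq]
    exact Subgroup.mem_inf.2 ⟨MulAction.mem_stabilizer_iff.2 hgx,
      MulAction.mem_stabilizer_iff.2 hgy⟩
  have hsq : ∀ s : L, orderOf s = 2 → s * s = 1 := fun s hs => (inv_iff.1 hs).2
  have hsinv : ∀ s : L, orderOf s = 2 → s⁻¹ = s := fun s hs => inv_inv_eq (hsq s hs)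
  have hswap : ∀ s : L, orderOf s = 2 → ∀ x y : L ⧸ M, s • x = y → s • y = x := by
    intro s hs x y h
    rw [← h, smul_smul, hsq s hs, one_smul]
  have hD3 : ∀ x y : L ⧸ M, x ∈ Φ → y ∈ Φ → x ≠ y → ∀ s : L, orderOf s = 2 → s • x = y →
      ∀ d ∈ D, s * d * s⁻¹ ∈ D := by
    intro x y hx hy hxy s hs hsx d hd
    have hsy := hswap s hs x y hsx
    have hsi : s⁻¹ = s := hsinv s hs
    apply hD2 x y hx hy hxy
    · rw [hsi, mul_smul, mul_smul, hsx, hy d hd, hsy]
    · rw [hsi, mul_smul, mul_smul, hsy, hx d hd, hsx]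
  set X : Subgroup L := Subgroup.normalizer (D : Set L) with hXdef
  have hX2 : ∀ g ∈ X, ∀ w ∈ Φ, g • w ∈ Φ := by
    intro g hg w hw d hd
    have h1 : g⁻¹ * d * g ∈ D := (Subgroup.mem_normalizer_iff''.1 hg d).1 hd
    have h2 : d • g • w = g • (g⁻¹ * d * g) • w := by
      rw [smul_smul, smul_smul]; congr 1; group
    rw [h2, hw _ h1]
  have hXmem : ∀ x y : L ⧸ M, x ∈ Φ → y ∈ Φ → x ≠ y → ∀ s : L, orderOf s = 2 → s • x = y →
      s ∈ X := by
    intro x y hx hy hxy s hs hsx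
    rw [hXdef, Subgroup.mem_normalizer_iff]
    intro h
    refine ⟨fun hh => hD3 x y hx hy hxy s hs hsx h hh, fun hh => ?_⟩
    have h1 := hD3 x y hx hy hxy s hs hsx _ hh
    have hsi : s⁻¹ = s := hsinv s hs
    have h2 : s * (s * h * s⁻¹) * s⁻¹ = h := by
      rw [hsi]
      calc s * (s * h * s) * s = (s * s) * h * (s * s) := by simp only [mul_assoc]
        _ = h := by rw [hsq s hs, one_mul, mul_one]
    rwa [h2] at h1
  obtain ⟨t₀, ht₀, ht₀M⟩ := se_exists_inv hM
  have hXinv : ∀ a b : L ⧸ M, a ∈ Φ → b ∈ Φ → a ≠ b → ∃ s : L, orderOf s = 2 ∧ s • a = b ∧ s ∈ X := by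
    intro a b ha hb hab
    obtain ⟨a', rfl⟩ := QuotientGroup.mk_surjective a
    obtain ⟨b', rfl⟩ := QuotientGroup.mk_surjective b
    obtain ⟨i, hi2, hi, -⟩ := se_stepA' hM ht₀ ht₀M ht₀ ht₀M hab
    exact ⟨i, hi2, hi, hXmem _ _ ha hb hab i hi2 hi⟩
  have hDodd : ∀ x ∈ D, orderOf x ≠ 2 := by
    intro x hx h2
    exact hxy₀ (se_fixed_unique hM h2 ((hDmem x).1 hx).1 ((hDmem x).1 hx).2)
  by_cases hI : ∃ s : L, orderOf s = 2 ∧ s ∈ X ∧ ∃ e ∈ Φ, s • e = e
  · -- Case I
    obtain ⟨s, hs2, hsX, e, heΦ, hse⟩ := hI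
    have hexa : ∃ a ∈ Φ, s • a ≠ a := by
      by_cases h1 : s • x₀ = x₀
      · refine ⟨y₀, hy₀Φ, fun h2 => hxy₀ (se_fixed_unique hM hs2 h1 h2)⟩
      · exact ⟨x₀, hx₀Φ, h1⟩
    obtain ⟨a, haΦ, hsa⟩ := hexa
    have hbΦ : s • a ∈ Φ := hX2 s hsX a haΦ
    have hab : a ≠ s • a := fun h => hsa h.symm
    have hea : a ≠ e := by
      intro h
      rw [h] at hsa
      exact hsa hse
    have hsb : s • (s • a) = a := hswap s hs2 a _ rfl
    have hkey : ∀ s' : L, orderOf s' = 2 → s' • a = s • a → s' • e = e := by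
      intro s' hs'2 hs'a
      have hs'b : s' • (s • a) = a := hswap s' hs'2 a _ hs'a
      have h1 : s⁻¹ * s' ∈ D := by
        apply hD2 a (s • a) haΦ hbΦ hab
        · rw [mul_smul, hs'a, hsinv s hs2, hsb]
        · rw [mul_smul, hs'b, hsinv s hs2]
      have h2 : s' = s * (s⁻¹ * s') := by group
      rw [h2, mul_smul, heΦ _ h1, hse]
    let ι : {i : L // orderOf i = 2 ∧ i • a = s • a} → {i : L // orderOf i = 2 ∧ i • e = e} :=
      fun i => ⟨i.1, i.2.1, hkey i.1 i.2.1 i.2.2⟩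
    have hinj : Function.Injective ι := by
      intro i j h
      have h1 : (ι i).1 = (ι j).1 := congrArg Subtype.val h
      exact Subtype.ext h1
    have hbij := hinj.bijective_of_nat_card_le
      (by rw [se_count_fixed e, se_count hM a (s • a) hab])
    obtain ⟨u, v, huM, hvM, hu2, hv2, huv, hcomm⟩ := hV
    obtain ⟨g, rfl⟩ := QuotientGroup.mk_surjective e
    have hfix : ∀ w : L, w ∈ M → (g * w * g⁻¹) • ((g : L) : L ⧸ M) = ((g : L) : L ⧸ M) := by
      intro w hw
      rw [smul_mk_eq_iff]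
      have h : g⁻¹ * (g * w * g⁻¹) * g = w := by group
      rw [h]; exact hw
    obtain ⟨⟨u', hu'2, hu'a⟩, hu'⟩ := hbij.2 ⟨g * u * g⁻¹, inv_conj hu2 g, hfix u huM⟩
    obtain ⟨⟨v', hv'2, hv'a⟩, hv'⟩ := hbij.2 ⟨g * v * g⁻¹, inv_conj hv2 g, hfix v hvM⟩
    have hu'e : u' = g * u * g⁻¹ := congrArg Subtype.val hu'
    have hv'e : v' = g * v * g⁻¹ := congrArg Subtype.val hv'
    subst hu'e
    subst hv'e
    have hw2 : orderOf (g * (u * v) * g⁻¹) = 2 := by
      apply inv_conj
      rw [inv_iff]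
      refine ⟨fun h => huv ?_, ?_⟩
      · have h1 : u = v⁻¹ := eq_inv_of_mul_eq_one_left h
        rw [h1, hsinv v hv2]
      · calc u * v * (u * v) = u * (v * u) * v := by simp only [mul_assoc]
          _ = u * (u * v) * v := by rw [hcomm]
          _ = (u * u) * (v * v) := by simp only [mul_assoc]
          _ = 1 := by rw [hsq u hu2, hsq v hv2, one_mul]
    have hwe : (g * (u * v) * g⁻¹) • ((g : L) : L ⧸ M) = ((g : L) : L ⧸ M) :=
      hfix (u * v) (M.mul_mem huM hvM)
    have hwa : (g * (u * v) * g⁻¹) • a = a := by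
      have h1 : g * (u * v) * g⁻¹ = (g * u * g⁻¹) * (g * v * g⁻¹) := by group
      rw [h1, mul_smul, hv'a, ← hu'a]
      exact hswap _ hu'2 a _ rfl
    exact hea (se_fixed_unique hM hw2 hwa hwe)
  · -- Case II
    push Not at hI
    have hII : ∀ s : L, orderOf s = 2 → s ∈ X → ∀ e ∈ Φ, s • e ≠ e := hI
    let Φs : SubMulAction ↥X (L ⧸ M) :=
      { carrier := Φ
        smul_mem' := fun g w hw => hX2 g.1 g.2 w hw }
    have hΦmem : ∀ w : ↥Φs, (w : L ⧸ M) ∈ Φ := fun w => w.2
    have hsmul : ∀ (g : ↥X) (w : ↥Φs), ((g • w : ↥Φs) : L ⧸ M) = (g : L) • (w : L ⧸ M) :=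
      fun g w => rfl
    have hfD : ∀ d ∈ D.subgroupOf X, ∀ w : ↥Φs, d • w = w := by
      intro d hd w
      apply Subtype.ext
      rw [hsmul]
      exact hΦmem w d.1 (Subgroup.mem_subgroupOf.1 hd)
    have hf2 : ∀ g : ↥X, ∀ w w' : ↥Φs, w ≠ w' → g • w = w → g • w' = w' → g ∈ D.subgroupOf X := by
      intro g w w' hww hgw hgw'
      rw [Subgroup.mem_subgroupOf]
      refine hD2 w.1 w'.1 (hΦmem w) (hΦmem w') (fun h => hww (Subtype.ext h)) g.1 ?_ ?_
      · have := congrArg Subtype.val hgw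
        rwa [hsmul] at this
      · have := congrArg Subtype.val hgw'
        rwa [hsmul] at this
    let a₀ : ↥Φs := ⟨x₀, hx₀Φ⟩
    have hex : ∀ b : ↥Φs, ∃ g : ↥X, b ≠ a₀ → (orderOf (g : L) = 2 ∧ g • a₀ = b) := by
      intro b
      by_cases hb : b = a₀
      · exact ⟨1, fun h => absurd hb h⟩
      · have hb' : x₀ ≠ (b : L ⧸ M) := fun h => hb (Subtype.ext h.symm)
        obtain ⟨s, hs2, hsb, hsX⟩ := hXinv x₀ b.1 hx₀Φ (hΦmem b) hb'
        exact ⟨⟨s, hsX⟩, fun _ => ⟨hs2, Subtype.ext hsb⟩⟩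
    choose sf hsf using hex
    have hfpf : ∀ b : ↥Φs, b ≠ a₀ → ∀ w : ↥Φs, sf b • w ≠ w := by
      intro b hb w hw
      have := congrArg Subtype.val hw
      rw [hsmul] at this
      exact hII _ (hsf b hb).1 (sf b).2 w.1 (hΦmem w) this
    have hcount := fpf_count (D.subgroupOf X) hfD hf2 a₀ sf
      (fun b hb => ⟨(hsf b hb).2, hfpf b hb⟩)
    let b₁ : ↥Φs := ⟨y₀, hy₀Φ⟩
    let c₁ : ↥Φs := ⟨z, hzΦ⟩
    have hb₁ : b₁ ≠ a₀ := fun h => hxy₀ (congrArg Subtype.val h).symm
    have hc₁ : c₁ ≠ a₀ := fun h => hzx (congrArg Subtype.val h)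
    have hbc : c₁ ≠ b₁ := fun h => hzy (congrArg Subtype.val h)
    have hsb2 : orderOf (sf b₁ : L) = 2 := (hsf b₁ hb₁).1
    have hsc2 : orderOf (sf c₁ : L) = 2 := (hsf c₁ hc₁).1
    have hsbX : sf b₁ * sf b₁ = 1 := Subtype.ext (hsq _ hsb2)
    have hscX : sf c₁ * sf c₁ = 1 := Subtype.ext (hsq _ hsc2)
    have hsbi : (sf b₁)⁻¹ = sf b₁ := inv_inv_eq hsbX
    -- the product is fixed-point-free
    have hρ : ∀ w : ↥Φs, (sf b₁ * sf c₁) • w ≠ w := by
      intro w hw
      have h1 : sf c₁ • w = sf b₁ • w := by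
        have h2 : sf c₁ • w = (sf b₁)⁻¹ • ((sf b₁ * sf c₁) • w) := by
          rw [mul_smul, inv_smul_smul]
        rw [h2, hw, hsbi]
      have hne' : w ≠ sf c₁ • w := fun h => hfpf c₁ hc₁ w h.symm
      have h3 : (sf b₁)⁻¹ * sf c₁ ∈ D.subgroupOf X := by
        apply hf2 _ w (sf c₁ • w) hne'
        · rw [mul_smul, h1, inv_smul_smul]
        · rw [mul_smul, smul_smul (sf c₁) (sf c₁) w, hscX, one_smul, hsbi, h1]
      have h4 := hfD _ h3 a₀
      rw [mul_smul, (hsf c₁ hc₁).2, hsbi] at h4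
      have h5 : sf b₁ • (sf b₁ • c₁) = sf b₁ • a₀ := by rw [h4]
      rw [smul_smul, hsbX, one_smul, (hsf b₁ hb₁).2] at h5
      exact hbc h5
    obtain ⟨d, hd, hρd⟩ := hcount _ hρ
    set e₁ : ↥Φs := (sf b₁ * sf c₁) • a₀ with he₁
    have he₁ne : e₁ ≠ a₀ := hρ a₀
    have hse2 : orderOf (sf e₁ : L) = 2 := (hsf e₁ he₁ne).1
    -- pass to `L`
    set sb : L := (sf b₁ : L) with hsbdef
    set sc : L := (sf c₁ : L) with hscdef
    set se : L := (sf e₁ : L) with hsedef
    have hdD : (d : L) ∈ D := Subgroup.mem_subgroupOf.1 hd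
    have hr : sb * sc = se * (d : L) := congrArg Subtype.val hρd
    have hsbXm : sb ∈ X := (sf b₁).2
    have hscXm : sc ∈ X := (sf c₁).2
    have hseXm : se ∈ X := (sf e₁).2
    have hrr : (sb * sc) * (sb * sc) ∈ D := by
      rw [hr]
      have h1 : se * (d : L) * se⁻¹ ∈ D := (Subgroup.mem_normalizer_iff.1 hseXm _).1 hdD
      have h2 : se * (d : L) * (se * (d : L)) = (se * (d : L) * se⁻¹) * (d : L) := by
        rw [hsinv se hse2]; simp only [mul_assoc]
      rw [h2]
      exact D.mul_mem h1 hdD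
    set r : L := sb * sc with hrdef
    set k : ℕ := orderOf (r * r) with hkdef
    have hkodd : Odd k := odd_orderOf_of_no_invol hDodd hrr
    have hrk : r ^ (k + k) = 1 := by
      have h1 : r ^ (k + k) = (r * r) ^ k := by
        rw [← pow_two, ← pow_mul, two_mul]
      rw [h1, hkdef, pow_orderOf_eq_one]
    set zz : L := r ^ k with hzzdef
    have hzz2 : zz * zz = 1 := by rw [hzzdef, ← pow_add, hrk]
    have hzzX : zz ∈ X := X.pow_mem (X.mul_mem hsbXm hscXm) k
    have hsbr : sb * r * sb⁻¹ = r⁻¹ := by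
      rw [hrdef, mul_inv_rev, hsinv sb hsb2, hsinv sc hsc2]
      calc sb * (sb * sc) * sb = (sb * sb) * sc * sb := by simp only [mul_assoc]
        _ = sc * sb := by rw [hsq sb hsb2, one_mul]
    have hzzi : zz⁻¹ = zz := inv_inv_eq hzz2
    have hcomm : sb * zz = zz * sb := by
      have h1 : sb * zz * sb⁻¹ = zz := by
        rw [hzzdef, ← conj_pow, hsbr, inv_pow, ← hzzdef, hzzi]
      calc sb * zz = sb * zz * sb⁻¹ * sb := by group
        _ = zz * sb := by rw [h1]
    have hrD : r ∉ D := by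
      intro hrD
      have h1 := ((hDmem r).1 hrD).1
      rw [hrdef, mul_smul] at h1
      have h2 : sc • x₀ = sb • x₀ := by
        have h3 : sc • x₀ = sb⁻¹ • (sb • (sc • x₀)) := by rw [inv_smul_smul]
        rw [h3, h1, hsinv sb hsb2]
      have h4 : sc • x₀ = z := congrArg Subtype.val (hsf c₁ hc₁).2
      have h5 : sb • x₀ = y₀ := congrArg Subtype.val (hsf b₁ hb₁).2
      rw [h4, h5] at h2
      exact hzy h2
    have hzz1 : zz ≠ 1 := by
      intro h
      apply hrD
      obtain ⟨j, hj⟩ := hkodd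
      have h1 : r = (r * r) ^ (j + 1) := by
        have h2 : (r * r) ^ (j + 1) = r ^ k * r := by
          have h3 : 2 * (j + 1) = k + 1 := by omega
          rw [← pow_two, ← pow_mul, h3, pow_succ]
        rw [h2, ← hzzdef, h, one_mul]
      rw [h1]
      exact D.pow_mem hrr _
    have hzzo : orderOf zz = 2 := inv_iff.2 ⟨hzz1, hzz2⟩
    have hzzsb : zz ≠ sb := by
      intro h
      have h1 : sb * r = r * sb := by
        rw [← h, hzzdef, ← pow_succ, ← pow_succ']
      have h2 : r = r⁻¹ := by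
        rw [← hsbr, h1]; group
      have h3 : r * r = 1 := by
        nth_rewrite 2 [h2]
        exact mul_inv_cancel r
      have h4 : k = 1 := by rw [hkdef, h3, orderOf_one]
      have h5 : zz = r := by rw [hzzdef, h4, pow_one]
      have h6 : sc = 1 := by
        have h7 : sb * sc = sb := by rw [← hrdef, ← h5, h]
        exact mul_left_cancel (a := sb) (by rw [h7, mul_one])
      rw [h6, orderOf_one] at hsc2
      exact absurd hsc2 (by norm_num)
    -- the four-group
    set U : Subgroup L := Subgroup.closure {sb, zz} with hUdef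
    have hsbU : sb ∈ U := Subgroup.subset_closure (by simp)
    have hzzU : zz ∈ U := Subgroup.subset_closure (by simp)
    have hUX : U ≤ Subgroup.normalizer (D : Set L) := by
      rw [hUdef, Subgroup.closure_le]
      rintro x (rfl | rfl)
      · exact hsbXm
      · exact hzzX
    have hUcomm : IsMulCommutative ↥U := by
      rw [hUdef]
      apply Subgroup.isMulCommutative_closure
      rintro x (rfl | rfl) y (rfl | rfl)
      · rfl
      · exact hcomm
      · exact hcomm.symm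
      · rfl
    have hUc : ∀ a ∈ U, ∀ b ∈ U, a * b = b * a := by
      intro a ha b hb
      have := hUcomm.is_comm.comm (⟨a, ha⟩ : ↥U) ⟨b, hb⟩
      exact congrArg Subtype.val this
    have hUsq : ∀ a ∈ U, a ^ 2 = 1 := by
      intro a ha
      induction ha using Subgroup.closure_induction with
      | mem x hx =>
        rcases hx with rfl | rfl
        · rw [pow_two]; exact hsq _ hsb2
        · rw [pow_two]; exact hzz2
      | one => exact one_pow 2
      | mul x y hx hy ihx ihy =>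
        have hc : Commute x y := hUc x hx y hy
        rw [hc.mul_pow, ihx, ihy, one_mul]
      | inv x hx ihx => rw [inv_pow, ihx, inv_one]
    have hEA : Cfsg.IsElementaryAbelian 2 U := ⟨hUcomm, hUsq⟩
    have hUcard : 2 ^ 2 ≤ Nat.card ↥U := by
      have h1 : 2 ∣ Nat.card ↥U := by
        have := Subgroup.orderOf_dvd_natCard U hsbU
        rwa [hsb2] at this
      have : Fintype ↥U := Fintype.ofFinite _
      have h2 : 2 < Nat.card ↥U := by
        rw [Nat.card_eq_fintype_card, Fintype.two_lt_card_iff]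
        refine ⟨1, ⟨sb, hsbU⟩, ⟨zz, hzzU⟩, ?_, ?_, ?_⟩
        · intro h
          have h3 : sb = 1 := (congrArg Subtype.val h).symm
          rw [h3, orderOf_one] at hsb2
          exact absurd hsb2 (by norm_num)
        · intro h
          exact hzz1 (congrArg Subtype.val h).symm
        · intro h
          exact hzzsb (congrArg Subtype.val h).symm
      obtain ⟨c, hc⟩ := h1
      omega
    have hDndvd : ¬ 2 ∣ Nat.card ↥D := by
      intro h
      obtain ⟨x, hx⟩ := exists_prime_orderOf_dvd_card' (G := D) 2 h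
      exact hDodd x x.2 (by rw [← hx]; exact (Subgroup.orderOf_coe x))
    have hgen := Cfsg.Agent.S1324.result 2 U D hEA hUcard hDndvd hUX
    obtain ⟨ω₀, hω₀⟩ := se_exists_fixed hM hsb2
    have hzzω : zz • ω₀ = ω₀ := by
      apply se_fixed_unique hM hsb2 _ hω₀
      rw [smul_smul, hcomm, mul_smul, hω₀]
    have hUω : U ≤ MulAction.stabilizer L ω₀ := by
      rw [hUdef, Subgroup.closure_le]
      rintro x (rfl | rfl)
      · exact MulAction.mem_stabilizer_iff.2 hω₀
      · exact MulAction.mem_stabilizer_iff.2 hzzω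
    have hDω : D ≤ MulAction.stabilizer L ω₀ := by
      rw [hgen]
      apply iSup_le
      rintro ⟨B, hBU, hBi⟩
      intro d' hd'
      have hBne : B ≠ ⊥ := by
        rintro rfl
        have h1 := Subgroup.card_mul_index ((⊥ : Subgroup L).subgroupOf U)
        have h2 : Nat.card ↥((⊥ : Subgroup L).subgroupOf U) = 1 := by
          rw [Subgroup.bot_subgroupOf]
          exact Subgroup.card_bot
        rw [h2, one_mul] at h1
        have h3 : (⊥ : Subgroup L).relIndex U = ((⊥ : Subgroup L).subgroupOf U).index := rfl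
        rw [h3, h1] at hBi
        omega
      obtain ⟨⟨u, huB⟩, hu1⟩ := Subgroup.ne_bot_iff_exists_ne_one.1 hBne
      have hu1' : u ≠ 1 := fun h => hu1 (Subtype.ext h)
      have huU : u ∈ U := hBU huB
      have hu2 : orderOf u = 2 := inv_iff.2 ⟨hu1', by rw [← pow_two]; exact hUsq u huU⟩
      have huω : u • ω₀ = ω₀ := MulAction.mem_stabilizer_iff.1 (hUω huU)
      have hdc : u * d' = d' * u :=
        Subgroup.mem_centralizer_iff.1 (Subgroup.mem_inf.1 hd').2 u huB
      rw [MulAction.mem_stabilizer_iff]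
      apply se_fixed_unique hM hu2 _ huω
      rw [smul_smul, hdc, mul_smul, huω]
    have hω₀Φ : ω₀ ∈ Φ := fun d' hd' => MulAction.mem_stabilizer_iff.1 (hDω hd')
    exact hII sb hsb2 hsbXm ω₀ hω₀Φ hω₀

/-- Group-theoretic form of `se_two_point`. -/
theorem se_two_point' (hM : Cfsg.IsStronglyEmbedded M)
    (hV : ∃ u v : L, u ∈ M ∧ v ∈ M ∧ orderOf u = 2 ∧ orderOf v = 2 ∧ u ≠ v ∧ u * v = v * u) :
    ∃ g : L, g ∉ M ∧ ∀ h : L, (∀ d ∈ M, g⁻¹ * d * g ∈ M → h⁻¹ * d * h ∈ M) →
      h ∈ M ∨ g⁻¹ * h ∈ M := by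
  obtain ⟨x, y, hxy, hfix⟩ := se_two_point hM hV
  obtain ⟨a, rfl⟩ := QuotientGroup.mk_surjective x
  obtain ⟨b, rfl⟩ := QuotientGroup.mk_surjective y
  refine ⟨a⁻¹ * b, fun h => hxy (QuotientGroup.eq.2 h), ?_⟩
  intro h hh
  have key := hfix ((a * h : L) : L ⧸ M) (by
    intro d hdx hdy
    rw [smul_mk_eq_iff] at hdx hdy ⊢
    have h1 : (a⁻¹ * b)⁻¹ * (a⁻¹ * d * a) * (a⁻¹ * b) = b⁻¹ * d * b := by group
    have h2 := hh (a⁻¹ * d * a) hdx (by rw [h1]; exact hdy)
    have h3 : (a * h)⁻¹ * d * (a * h) = h⁻¹ * (a⁻¹ * d * a) * h := by group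
    rw [h3]; exact h2)
  rcases key with h1 | h1
  · left
    have h2 := QuotientGroup.eq.1 h1
    have h3 : (a * h)⁻¹ * a = h⁻¹ := by group
    rw [h3] at h2
    simpa using M.inv_mem h2
  · right
    have h2 := QuotientGroup.eq.1 h1
    have h4 : (a⁻¹ * b)⁻¹ * h = ((a * h)⁻¹ * b)⁻¹ := by group
    rw [h4]
    exact M.inv_mem h2

end SE

end Cfsg.Agent.Lib.Helper31
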