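import Mathlib
import Cfsg.Prelude.Def_GeometricClasses
import Cfsg.Agent.Lib.Helper71.SLP0

set_option autoImplicit false
set_option linter.unusedVariables false
set_option linter.unusedSectionVars false

/-! SLC project (helper65), piece N8s: `SL_n` is not contained in the similarity group of a
symplectic form (`n ≥ 3`). -/

namespace Cfsg.Agent.Lib.Helper31.SLCN8s

open Matrix Cfsg.Geo Cfsg.Agent.Lib.Helper71.SLP

variable {n : ℕ} {F : Type*} [Field F] [Fintype F]

/-- N8s -/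
theorem N8s (hn : 3 ≤ n) (f : (Fin n → F) → (Fin n → F) → F) (hf : IsSymplecticForm f) :
    ¬ specialLinear (Fin n) F ≤ similarityGroup f := by
  classical
  intro hle
  have hw0 : (Pi.single (⟨0, by omega⟩ : Fin n) (1 : F) : Fin n → F) ≠ 0 := by
    intro h
    have h1 := congrFun h (⟨0, by omega⟩ : Fin n)
    simp at h1
  obtain ⟨u₀, hu₀⟩ := (hf.nondegenerate _ hw0).1
  have hE : Submodule.span F ({u₀, Pi.single (⟨0, by omega⟩ : Fin n) (1 : F)} :
      Set (Fin n → F)) ≠ ⊤ := by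
    intro htop
    have h1 : Module.finrank F (Submodule.span F
        ((({u₀, Pi.single (⟨0, by omega⟩ : Fin n) (1 : F)} : Finset (Fin n → F)) :
          Set (Fin n → F)))) ≤ 2 :=
      (finrank_span_finset_le_card _).trans Finset.card_le_two
    rw [Finset.coe_pair, htop, finrank_top, Module.finrank_fin_fun] at h1
    omega
  obtain ⟨φ, hφ0, hφE⟩ := exists_dual_ne_zero _ hE
  have hφu : φ ⬝ᵥ u₀ = 0 := hφE u₀ (Submodule.subset_span (by simp))
  have hφw : φ ⬝ᵥ (Pi.single (⟨0, by omega⟩ : Fin n) (1 : F) : Fin n → F) = 0 :=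
    hφE _ (Submodule.subset_span (by simp))
  obtain ⟨i, hi⟩ := Function.ne_iff.mp hφ0
  have hi' : φ i ≠ 0 := by simpa using hi
  have hφv : φ ⬝ᵥ (Pi.single i (1 : F) : Fin n → F) = φ i := by simp
  obtain ⟨c, hc⟩ := hle (tv_mem_specialLinear _ φ hφw)
  have hgu : (tv (Pi.single (⟨0, by omega⟩ : Fin n) (1 : F)) φ hφw).1 *ᵥ u₀ = u₀ := by
    rw [tv_mulVec, hφu, zero_smul, add_zero]
  have hgw : (tv (Pi.single (⟨0, by omega⟩ : Fin n) (1 : F)) φ hφw).1 *ᵥ
      (Pi.single (⟨0, by omega⟩ : Fin n) (1 : F) : Fin n → F) =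
      Pi.single (⟨0, by omega⟩ : Fin n) (1 : F) := by
    rw [tv_mulVec, hφw, zero_smul, add_zero]
  have hgv : (tv (Pi.single (⟨0, by omega⟩ : Fin n) (1 : F)) φ hφw).1 *ᵥ
      (Pi.single i (1 : F) : Fin n → F) =
      Pi.single i (1 : F) + φ i • (Pi.single (⟨0, by omega⟩ : Fin n) (1 : F) : Fin n → F) := by
    rw [tv_mulVec, hφv]
  have h1 := hc u₀ (Pi.single (⟨0, by omega⟩ : Fin n) (1 : F))
  have hg1 : ((tv (Pi.single (⟨0, by omega⟩ : Fin n) (1 : F)) φ hφw : GL (Fin n) F) :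
      Matrix (Fin n) (Fin n) F) = (tv (Pi.single (⟨0, by omega⟩ : Fin n) (1 : F)) φ hφw).1 := rfl
  rw [hg1, hgu, hgw] at h1
  have hc1 : (c : F) = 1 := by
    have h2 : ((c : F) - 1) * f u₀ (Pi.single (⟨0, by omega⟩ : Fin n) (1 : F)) = 0 := by
      rw [sub_mul, one_mul, ← h1, sub_self]
    rcases mul_eq_zero.mp h2 with h3 | h3
    · exact sub_eq_zero.mp h3
    · exact absurd h3 hu₀
  have h4 := hc (Pi.single i (1 : F)) u₀
  rw [hg1, hgv, hgu, hc1, one_mul, hf.bilinear.add_left, hf.bilinear.smul_left] at h4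
  have h5 : φ i * f (Pi.single (⟨0, by omega⟩ : Fin n) (1 : F)) u₀ = 0 := by
    have := h4
    exact add_eq_left.mp this
  have h6 : f (Pi.single (⟨0, by omega⟩ : Fin n) (1 : F)) u₀ = 0 := by
    rcases mul_eq_zero.mp h5 with h7 | h7
    · exact absurd h7 hi'
    · exact h7
  apply hu₀
  rw [hf.skew, h6, neg_zero]

end Cfsg.Agent.Lib.Helper31.SLCN8s
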