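import Mathlib
import Cfsg.Prelude.Def_GeometricClasses
import Cfsg.Agent.Lib.Helper71.SLP0
import Cfsg.Agent.Lib.Helper66.PAct

set_option autoImplicit false
set_option linter.unusedVariables false
set_option linter.unusedSectionVars false

/-! SLP project (helper71, S5793/S5808/S5853), piece C6: an absolutely irreducible symplectic-type
`r`-group in `GL_n(F)` has `r ∣ n`. -/

namespace Cfsg.Agent.Lib.Helper31.SLPC6

open Matrix Cfsg.Geo Cfsg.Agent.Lib.Helper71.SLP
open scoped commutatorElement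

variable {n : ℕ} {F : Type*} [Field F] [Fintype F]

/-- an element commuting with all of `R` is a scalar matrix -/
theorem C6_aux_scalar (R : Subgroup (GL (Fin n) F))
    (hab : ActsAbsolutelyIrreducibly (matrixSet R))
    (z : GL (Fin n) F) (hz : ∀ g ∈ R, z * g = g * z) :
    ∃ c : F, z.1 = c • (1 : Matrix (Fin n) (Fin n) F) := by
  apply hab.2 z.1
  rintro s ⟨g, hg, rfl⟩
  have h1 := congrArg Units.val (hz g hg)
  simpa [Units.val_mul] using h1

/-- `R` is not abelian -/
theorem C6_aux_nonab (hn : 3 ≤ n) (R : Subgroup (GL (Fin n) F))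
    (hab : ActsAbsolutelyIrreducibly (matrixSet R)) :
    ¬ (∀ a ∈ R, ∀ b ∈ R, a * b = b * a) := by
  intro hcomm
  let i0 : Fin n := ⟨0, by omega⟩
  let i1 : Fin n := ⟨1, by omega⟩
  have hne : i1 ≠ i0 := by
    intro h
    have := congrArg Fin.val h
    simp [i0, i1] at this
  have hinv : ∀ s ∈ matrixSet R,
      (Submodule.span F {(Pi.single i0 (1 : F) : Fin n → F)}).map (Matrix.toLin' s) ≤
        Submodule.span F {(Pi.single i0 (1 : F) : Fin n → F)} := by
    rintro s ⟨g, hg, rfl⟩
    obtain ⟨c, hc⟩ := C6_aux_scalar R hab g (fun b hb => hcomm g hg b hb)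
    rintro _ ⟨v, hv, rfl⟩
    have h1 : Matrix.toLin' (g : Matrix (Fin n) (Fin n) F) v = c • v := by
      show Matrix.toLin' g.1 v = c • v
      rw [hc, Matrix.toLin'_apply, Matrix.smul_mulVec, Matrix.one_mulVec]
    rw [h1]
    exact Submodule.smul_mem _ c hv
  rcases hab.1 _ hinv with hbot | htop
  · have hmem : (Pi.single i0 (1 : F) : Fin n → F) ∈
        Submodule.span F {(Pi.single i0 (1 : F) : Fin n → F)} :=
      Submodule.subset_span rfl
    rw [hbot, Submodule.mem_bot] at hmem
    have := congrFun hmem i0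
    simp at this
  · have hmem : (Pi.single i1 (1 : F) : Fin n → F) ∈
        Submodule.span F {(Pi.single i0 (1 : F) : Fin n → F)} := by
      rw [htop]; trivial
    obtain ⟨a, ha⟩ := Submodule.mem_span_singleton.mp hmem
    have := congrFun ha i1
    simp [hne] at this

/-- C6 -/
theorem C6 (hn : 3 ≤ n) (r : ℕ) (R : Subgroup (GL (Fin n) F))
    (hR : IsLinearSymplecticTypeData r R) : r ∣ n := by
  classical
  have hr : r.Prime := hR.symplecticType.prime
  have hrf : Fact r.Prime := ⟨hr⟩
  have hp : IsPGroup r R := hR.symplecticType.pGroup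
  have hab := hR.absIrred
  have hfinGL : Finite (GL (Fin n) F) := inferInstance
  have hfinR : Finite R := inferInstance
  have hNne : commutator R ≠ ⊥ := by
    intro hbot
    apply C6_aux_nonab hn R hab
    intro a ha b hb
    have h1 : ⁅(⟨a, ha⟩ : R), (⟨b, hb⟩ : R)⁆ ∈ commutator R :=
      Subgroup.commutator_mem_commutator (Subgroup.mem_top _) (Subgroup.mem_top _)
    rw [hbot, Subgroup.mem_bot, commutatorElement_eq_one_iff_mul_comm] at h1
    exact congrArg Subtype.val h1
  have hmeet := Cfsg.Agent.Lib.Helper66.normal_inf_center_ne_bot hp hNne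
  obtain ⟨⟨z, hzN, hzC⟩, hz1⟩ := (Subgroup.ne_bot_iff_exists_ne_one).mp hmeet
  have hz1' : z ≠ 1 := fun h => hz1 (Subtype.ext h)
  -- determinant one
  have hdet : (z.1 : GL (Fin n) F).1.det = 1 := by
    have h1 := Abelianization.commutator_subset_ker
      ((Matrix.GeneralLinearGroup.det : GL (Fin n) F →* Fˣ).comp R.subtype) hzN
    rw [MonoidHom.mem_ker] at h1
    apply (mem_specialLinear_iff (z.1 : GL (Fin n) F)).1
    unfold specialLinear
    rw [MonoidHom.mem_ker]
    exact h1
  -- scalar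
  obtain ⟨c, hc⟩ := C6_aux_scalar R hab z.1 (fun g hg => by
    have h1 := (Subgroup.mem_center_iff.mp hzC) ⟨g, hg⟩
    exact (congrArg Subtype.val h1).symm)
  have hcn : c ^ n = 1 := by
    rw [hc, Matrix.det_smul, Matrix.det_one, mul_one, Fintype.card_fin] at hdet
    exact hdet
  have hc1 : c ≠ 1 := by
    intro h
    apply hz1'
    apply Subtype.ext
    apply Units.ext
    rw [hc, h, one_smul]
    rfl
  obtain ⟨k, hk⟩ := hp z
  have hck : c ^ r ^ k = 1 := by
    have h1 : ((z ^ r ^ k : R) : GL (Fin n) F).1 = 1 := by rw [hk]; rfl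
    have h2 : ((z ^ r ^ k : R) : GL (Fin n) F).1 = (z.1 : GL (Fin n) F).1 ^ r ^ k := by
      simp
    rw [h2, hc, smul_pow, one_pow] at h1
    have h3 := congrFun (congrFun h1 ⟨0, by omega⟩) ⟨0, by omega⟩
    simpa using h3
  have ho1 : orderOf c ∣ n := orderOf_dvd_of_pow_eq_one hcn
  have ho2 : orderOf c ∣ r ^ k := orderOf_dvd_of_pow_eq_one hck
  obtain ⟨j, hj, hoj⟩ := (Nat.dvd_prime_pow hr).1 ho2
  have hj0 : j ≠ 0 := by
    rintro rfl
    rw [pow_zero, orderOf_eq_one_iff] at hoj
    exact hc1 hoj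
  exact (dvd_pow_self r hj0).trans (hoj ▸ ho1)

end Cfsg.Agent.Lib.Helper31.SLPC6
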