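import Mathlib
import Cfsg.Prelude.Def_GeometricClasses
import Cfsg.Agent.Lib.Helper71.SLP0

set_option autoImplicit false
set_option linter.unusedVariables false
set_option linter.unusedSectionVars false

/-! SLP project (helper71, S5793/S5808/S5853), piece FR0: a frame stabiliser is monomial in a
suitable basis. -/

namespace Cfsg.Agent.Lib.Helper31.SLPFR0

open Matrix Cfsg.Geo Cfsg.Agent.Lib.Helper71.SLP

variable {n : ℕ} {F : Type*} [Field F] [Fintype F]

/-- FR0 -/
theorem FR0 (D : Fin n → Submodule F (Fin n → F)) (hD : IsMDecomposition 1 D) :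
    ∃ P : GL (Fin n) F, ∀ g ∈ decompositionStabilizer D,
      ∃ (σ : Equiv.Perm (Fin n)) (c : Fin n → F), (∀ j, c j ≠ 0) ∧
        (P⁻¹ : GL (Fin n) F).1 * g.1 * P.1 = Matrix.of fun i j => if i = σ j then c j else 0 := by
  classical
  have h1 : ∀ i, ∃ v : D i, v ≠ 0 ∧ ∀ w : D i, ∃ c : F, c • v = w := fun i =>
    finrank_eq_one_iff'.mp (hD.finrank_eq i)
  choose v hv0 hv using h1
  have hli : LinearIndependent F (fun i => (v i : Fin n → F)) :=
    iSupIndep.linearIndependent D hD.indep (fun i => (v i).2)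
      (fun i h => hv0 i (Subtype.ext h))
  let A : Matrix (Fin n) (Fin n) F := Matrix.of fun i j => (v j : Fin n → F) i
  have hAcol : A.col = fun j => (v j : Fin n → F) := by
    ext j i; rfl
  have hAu : IsUnit A := by
    rw [← Matrix.linearIndependent_cols_iff_isUnit, hAcol]; exact hli
  obtain ⟨P, hP⟩ := hAu
  refine ⟨P, ?_⟩
  rintro g ⟨σ, hσ⟩
  have h2 : ∀ j, ∃ c : F, c • (v (σ j) : Fin n → F) = g.1 *ᵥ (v j : Fin n → F) := by
    intro j
    have hmem : g.1 *ᵥ (v j : Fin n → F) ∈ D (σ j) := by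
      rw [← hσ j]
      exact ⟨(v j : Fin n → F), (v j).2, by rw [Matrix.toLin'_apply]⟩
    obtain ⟨c, hc⟩ := hv (σ j) ⟨_, hmem⟩
    exact ⟨c, congrArg Subtype.val hc⟩
  choose c hc using h2
  refine ⟨σ, c, ?_, ?_⟩
  · intro j hj
    have h3 := hc j
    rw [hj, zero_smul] at h3
    have h4 : (g⁻¹ : GL (Fin n) F).1 *ᵥ (g.1 *ᵥ (v j : Fin n → F)) = (v j : Fin n → F) := by
      rw [Matrix.mulVec_mulVec, ← Units.val_mul, inv_mul_cancel, Units.val_one,
        Matrix.one_mulVec]
    rw [← h3, Matrix.mulVec_zero] at h4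
    exact hv0 j (Subtype.ext h4.symm)
  · have h5 : g.1 * P.1 = P.1 * (Matrix.of fun i j => if i = σ j then c j else 0) := by
      rw [hP]
      ext i j
      rw [Matrix.mul_apply, Matrix.mul_apply]
      have h6 : ∑ k, g.1 i k * A k j = (g.1 *ᵥ (v j : Fin n → F)) i := by
        simp [Matrix.mulVec, dotProduct, A]
      rw [h6, ← hc j]
      simp [A, mul_comm]
    rw [mul_assoc, h5, ← mul_assoc, ← Units.val_mul, inv_mul_cancel, Units.val_one, one_mul]

end Cfsg.Agent.Lib.Helper31.SLPFR0
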