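import Mathlib
import Cfsg.Agent.Lib.Helper52.SP8EBDefs

/-!
# SP8-EB (S5823; architect helper52), piece QCOMM (helper31)

Over the field with three elements two elements of the quaternion set commute or anticommute.
The finite check is done over `ZMod 3` on the entries and transported along the ring
isomorphism `ZMod 3 ≃+* F`.
-/

set_option autoImplicit false

namespace Cfsg.Agent.Lib.Helper52.SP8EB

open Matrix Cfsg.Geo Cfsg.Agent.Lib.Helper71.Asch

variable {n : ℕ} {F : Type*} [Field F] [Fintype F]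

set_option synthInstance.maxHeartbeats 2000000 in
set_option synthInstance.maxSize 4096 in
set_option maxHeartbeats 2000000 in
theorem qcomm_zmod : ∀ a b c d a' b' c' d' : ZMod 3,
    (a * d - b * c = 1 ∧ ((a = 1 ∧ b = 0 ∧ c = 0 ∧ d = 1) ∨
      (a = -1 ∧ b = 0 ∧ c = 0 ∧ d = -1) ∨ a + d = 0)) →
    (a' * d' - b' * c' = 1 ∧ ((a' = 1 ∧ b' = 0 ∧ c' = 0 ∧ d' = 1) ∨
      (a' = -1 ∧ b' = 0 ∧ c' = 0 ∧ d' = -1) ∨ a' + d' = 0)) →
    ((a * a' + b * c' = a' * a + b' * c ∧ a * b' + b * d' = a' * b + b' * d ∧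
      c * a' + d * c' = c' * a + d' * c ∧ c * b' + d * d' = c' * b + d' * d) ∨
     (a * a' + b * c' = -(a' * a + b' * c) ∧ a * b' + b * d' = -(a' * b + b' * d) ∧
      c * a' + d * c' = -(c' * a + d' * c) ∧ c * b' + d * d' = -(c' * b + d' * d))) := by
  decide +kernel

omit [Fintype F] [Field F] in
theorem qcomm_ext (M N : Matrix (Fin 2) (Fin 2) F) (h00 : M 0 0 = N 0 0) (h01 : M 0 1 = N 0 1)
    (h10 : M 1 0 = N 1 0) (h11 : M 1 1 = N 1 1) : M = N := by
  ext i j
  fin_cases i <;> fin_cases j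
  · exact h00
  · exact h01
  · exact h10
  · exact h11

/-- QCOMM [finite check, card F = 3]: x y = ± y x for x, y ∈ Q. -/
theorem QCOMM (hq3 : Fintype.card F = 3) : HQcomm F := by
  intro x y hx hy
  let φ : ZMod 3 ≃+* F := ZMod.ringEquivOfPrime F Nat.prime_three hq3
  have hyp : ∀ z : Matrix (Fin 2) (Fin 2) F, IsQ z →
      (φ.symm (z 0 0) * φ.symm (z 1 1) - φ.symm (z 0 1) * φ.symm (z 1 0) = 1 ∧
        ((φ.symm (z 0 0) = 1 ∧ φ.symm (z 0 1) = 0 ∧ φ.symm (z 1 0) = 0 ∧ φ.symm (z 1 1) = 1) ∨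
         (φ.symm (z 0 0) = -1 ∧ φ.symm (z 0 1) = 0 ∧ φ.symm (z 1 0) = 0 ∧
           φ.symm (z 1 1) = -1) ∨
         φ.symm (z 0 0) + φ.symm (z 1 1) = 0)) := by
    rintro z ⟨hdet, hc⟩
    refine ⟨?_, ?_⟩
    · rw [Matrix.det_fin_two] at hdet
      have h := congrArg φ.symm hdet
      simp only [map_sub, map_mul, map_one] at h
      exact h
    · rcases hc with h | h | h
      · left
        subst h
        simp
      · right
        left
        subst h
        simp
      · right
        right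
        rw [Matrix.trace_fin_two] at h
        have h' := congrArg φ.symm h
        simp only [map_add, map_zero] at h'
        exact h'
  have hxy : ∀ (M N : Matrix (Fin 2) (Fin 2) F) (i j : Fin 2),
      (M * N) i j = M i 0 * N 0 j + M i 1 * N 1 j := fun M N i j => by
    rw [Matrix.mul_apply, Fin.sum_univ_two]
  rcases qcomm_zmod _ _ _ _ _ _ _ _ (hyp x hx) (hyp y hy) with ⟨h1, h2, h3, h4⟩ | ⟨h1, h2, h3, h4⟩
  · left
    have e1 := congrArg φ h1
    have e2 := congrArg φ h2
    have e3 := congrArg φ h3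
    have e4 := congrArg φ h4
    simp only [map_add, map_mul, RingEquiv.apply_symm_apply] at e1 e2 e3 e4
    refine qcomm_ext _ _ ?_ ?_ ?_ ?_
    · rw [hxy, hxy]; exact e1
    · rw [hxy, hxy]; exact e2
    · rw [hxy, hxy]; exact e3
    · rw [hxy, hxy]; exact e4
  · right
    have e1 := congrArg φ h1
    have e2 := congrArg φ h2
    have e3 := congrArg φ h3
    have e4 := congrArg φ h4
    simp only [map_add, map_mul, map_neg, RingEquiv.apply_symm_apply] at e1 e2 e3 e4
    refine qcomm_ext _ _ ?_ ?_ ?_ ?_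
    · rw [Matrix.neg_apply, hxy, hxy]; exact e1
    · rw [Matrix.neg_apply, hxy, hxy]; exact e2
    · rw [Matrix.neg_apply, hxy, hxy]; exact e3
    · rw [Matrix.neg_apply, hxy, hxy]; exact e4

end Cfsg.Agent.Lib.Helper52.SP8EB
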