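import Mathlib
import Cfsg.Prelude.Def_GeometricClasses
import Cfsg.Prelude.Def_LieClassical
import Cfsg.Agent.Lib.Helper73.SLPC2

/-!
# Project SPP (helper71), piece PLN

Lines paired by a fixed-point-free involution give a non-degenerate decomposition into planes
stabilised by `H`.
-/

set_option autoImplicit false

namespace Cfsg.Agent.Lib.Helper31.SPPPLN

open Matrix Cfsg.Geo

variable {n : ℕ} {F : Type*} [Field F] [Fintype F]

/-- PLN: lines paired by a fixed-point-free involution give a non-degenerate decomposition into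
planes. -/
theorem PLN (hn : 4 ≤ n) (f : (Fin n → F) → (Fin n → F) → F) (hf : IsSymplecticForm f)
    (H : Subgroup (GL (Fin n) F)) {t : ℕ} (D : Fin t → Submodule F (Fin n → F))
    (hD : IsMDecomposition 1 D) (hHD : H ≤ decompositionStabilizer D) (τ : Fin t → Fin t)
    (hτ1 : ∀ i, τ i ≠ i) (hτ2 : ∀ i, τ (τ i) = i)
    (horth : ∀ i j, j ≠ τ i → AreOrthogonalFor f (D i) (D j))
    (hcompat : ∀ h ∈ H, ∀ σ : Equiv.Perm (Fin t),
      (∀ i, (D i).map (Matrix.toLin' h.1) = D (σ i)) → ∀ i, σ (τ i) = τ (σ i)) :
    ∃ (s : ℕ) (E : Fin s → Submodule F (Fin n → F)), IsNondegenerateMDecomposition f 2 E ∧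
      H ≤ decompositionStabilizer E := by
  classical
  have htn : t = n := by
    have h := Cfsg.Agent.Lib.Helper73.SLPC2.C2 D hD
    rwa [mul_one] at h
  have hτinj : Function.Injective τ := fun a b hab => by
    have h := congrArg τ hab
    rwa [hτ2, hτ2] at h
  -- representatives of the orbits of `τ`
  let R : Finset (Fin t) := Finset.univ.filter (fun i => i < τ i)
  have hR : ∀ i, i ∈ R ↔ i < τ i := fun i => by simp [R]
  let rep : Fin t → Fin t := fun i => if i < τ i then i else τ i
  have hrep1 : ∀ i, rep i = i ∨ rep i = τ i := by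
    intro i
    by_cases h : i < τ i
    · left; simp [rep, h]
    · right; simp [rep, h]
  have hrepR : ∀ i, rep i ∈ R := by
    intro i
    rw [hR]
    by_cases h : i < τ i
    · have h1 : rep i = i := by simp [rep, h]
      rw [h1]; exact h
    · have h1 : rep i = τ i := by simp [rep, h]
      rw [h1, hτ2]
      exact lt_of_le_of_ne (not_lt.1 h) (hτ1 i)
  have hrepD : ∀ i, D i ⊔ D (τ i) = D (rep i) ⊔ D (τ (rep i)) := by
    intro i
    rcases hrep1 i with h | h
    · rw [h]
    · rw [h, hτ2, sup_comm]
  let g : Fin R.card → Fin t := fun j => R.orderEmbOfFin rfl j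
  have hgR : ∀ j, g j < τ (g j) := fun j => (hR _).1 (Finset.orderEmbOfFin_mem R rfl j)
  have hginj : Function.Injective g := (R.orderEmbOfFin rfl).injective
  have hgsurj : ∀ r ∈ R, ∃ j, g j = r := by
    intro r hr
    have h1 : r ∈ Set.range (R.orderEmbOfFin rfl) := by
      rw [Finset.range_orderEmbOfFin]; exact hr
    exact h1
  have hnp : ∀ j j', g j' ≠ τ (g j) := by
    intro j j' h
    have h1 := hgR j
    have h2 := hgR j'
    rw [h, hτ2] at h2
    exact lt_asymm h1 h2
  let E : Fin R.card → Submodule F (Fin n → F) := fun j => D (g j) ⊔ D (τ (g j))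
  -- at least two planes
  have h2s : 2 ≤ R.card := by
    have ht4 : 4 ≤ t := by omega
    let i0 : Fin t := ⟨0, by omega⟩
    have hr0 := hrepR i0
    have hex : ∃ i1 : Fin t, i1 ≠ rep i0 ∧ i1 ≠ τ (rep i0) := by
      by_contra hcon
      push Not at hcon
      have hsub : (Finset.univ : Finset (Fin t)) ⊆ {rep i0, τ (rep i0)} := by
        intro i _
        rw [Finset.mem_insert, Finset.mem_singleton]
        by_cases h : i = rep i0
        · exact Or.inl h
        · exact Or.inr (hcon i h)
      have hc := Finset.card_le_card hsub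
      rw [Finset.card_univ, Fintype.card_fin] at hc
      have hc2 := Finset.card_le_two (a := rep i0) (b := τ (rep i0))
      omega
    obtain ⟨i1, h1, h2⟩ := hex
    have hne : rep i1 ≠ rep i0 := by
      intro h
      rcases hrep1 i1 with h3 | h3
      · apply h1
        rw [← h, h3]
      · apply h2
        rw [← h, h3, hτ2]
    exact Finset.one_lt_card.2 ⟨rep i1, hrepR i1, rep i0, hr0, hne⟩
  -- dimension two
  have hfr : ∀ j, Module.finrank F (E j) = 2 := by
    intro j
    have hdis : Disjoint (D (g j)) (D (τ (g j))) :=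
      hD.indep.pairwiseDisjoint (hτ1 (g j)).symm
    have h1 := Submodule.finrank_sup_add_finrank_inf_eq (D (g j)) (D (τ (g j)))
    rw [disjoint_iff.1 hdis, finrank_bot, hD.finrank_eq, hD.finrank_eq, add_zero] at h1
    exact h1
  -- independence
  have hindep : iSupIndep E := by
    rw [iSupIndep_def]
    intro j
    let S : Set (Fin t) := {g j, τ (g j)}
    have h1 : E j ≤ ⨆ i ∈ S, D i :=
      sup_le (le_biSup D (Or.inl rfl)) (le_biSup D (Or.inr rfl))
    have h2 : (⨆ (j') (_ : j' ≠ j), E j') ≤ ⨆ i ∈ Sᶜ, D i := by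
      apply iSup₂_le
      intro j' hj'
      have hne1 : g j' ≠ g j := fun h => hj' (hginj h)
      have hne2 : g j' ≠ τ (g j) := hnp j j'
      have hne3 : τ (g j') ≠ g j := fun h => hnp j' j h.symm
      have hne4 : τ (g j') ≠ τ (g j) := fun h => hne1 (hτinj h)
      apply sup_le
      · apply le_biSup D
        rintro (h | h)
        · exact hne1 h
        · exact hne2 h
      · apply le_biSup D
        rintro (h | h)
        · exact hne3 h
        · exact hne4 h
    exact (hD.indep.disjoint_biSup_biSup' disjoint_compl_right (Set.toFinite S)).mono h1 h2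
  -- spanning
  have htop : iSup E = ⊤ := by
    rw [eq_top_iff, ← hD.iSup_eq_top]
    apply iSup_le
    intro i
    obtain ⟨j, hj⟩ := hgsurj (rep i) (hrepR i)
    have h1 : D i ≤ D (rep i) ⊔ D (τ (rep i)) := by
      rw [← hrepD]; exact le_sup_left
    rw [← hj] at h1
    exact h1.trans (le_iSup E j)
  -- non-degenerate
  have hnd : ∀ j, IsNondegenerateOn f (E j) := by
    intro j w hw hw0
    obtain ⟨x, hx⟩ := (hf.nondegenerate w hw0).1
    let S : Set (Fin t) := {g j, τ (g j)}
    let U : Submodule F (Fin n → F) := ⨆ i ∈ Sᶜ, D i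
    have hsup : E j ⊔ U = ⊤ := by
      rw [eq_top_iff, ← hD.iSup_eq_top]
      apply iSup_le
      intro i
      by_cases hi : i ∈ S
      · rcases hi with hi | hi
        · rw [hi]; exact le_sup_of_le_left le_sup_left
        · have hi' : i = τ (g j) := hi
          rw [hi']; exact le_sup_of_le_left le_sup_right
      · exact le_sup_of_le_right (le_biSup D hi)
    let Kw : Submodule F (Fin n → F) :=
      { carrier := {u | f u w = 0}
        add_mem' := by
          intro a b ha hb
          show f (a + b) w = 0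
          rw [hf.bilinear.add_left, ha, hb, add_zero]
        zero_mem' := by
          show f 0 w = 0
          have h := hf.bilinear.smul_left 0 0 w
          rwa [zero_smul, zero_mul] at h
        smul_mem' := by
          intro c a ha
          show f (c • a) w = 0
          rw [hf.bilinear.smul_left, ha, mul_zero] }
    have hUK : U ≤ Kw := by
      apply iSup₂_le
      intro i hi u hu
      show f u w = 0
      obtain ⟨w1, hw1, w2, hw2, hw12⟩ := Submodule.mem_sup.1 hw
      have hi1 : i ≠ g j := fun h => hi (Or.inl h)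
      have hi2 : i ≠ τ (g j) := fun h => hi (Or.inr h)
      have o1 := horth i (g j) (by intro h; apply hi2; rw [h, hτ2]) u hu w1 hw1
      have o2 := horth i (τ (g j)) (by intro h; exact hi1 (hτinj h).symm) u hu w2 hw2
      rw [← hw12, hf.bilinear.add_right, o1, o2, add_zero]
    have hxtop : x ∈ E j ⊔ U := by rw [hsup]; exact Submodule.mem_top
    obtain ⟨e, he, u, hu, hxeu⟩ := Submodule.mem_sup.1 hxtop
    have hu0 : f u w = 0 := hUK hu
    have hew : f e w ≠ 0 := by
      intro h0
      apply hx
      rw [← hxeu, hf.bilinear.add_left, h0, hu0, add_zero]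
    refine ⟨⟨e, he, hew⟩, ⟨e, he, ?_⟩⟩
    rw [hf.skew]
    exact neg_ne_zero.2 hew
  -- pairwise orthogonal
  have horthE : ∀ j j', j ≠ j' → AreOrthogonalFor f (E j) (E j') := by
    intro j j' hjj' u hu v hv
    obtain ⟨u1, hu1, u2, hu2, hu12⟩ := Submodule.mem_sup.1 hu
    obtain ⟨v1, hv1, v2, hv2, hv12⟩ := Submodule.mem_sup.1 hv
    have hne1 : g j' ≠ g j := fun h => hjj' (hginj h).symm
    have hne2 : g j' ≠ τ (g j) := hnp j j'
    have hne3 : τ (g j') ≠ g j := fun h => hnp j' j h.symm
    have hne4 : τ (g j') ≠ τ (g j) := fun h => hne1 (hτinj h)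
    have o11 := horth (g j) (g j') hne2 u1 hu1 v1 hv1
    have o12 := horth (g j) (τ (g j')) hne4 u1 hu1 v2 hv2
    have o21 := horth (τ (g j)) (g j') (by rw [hτ2]; exact hne1) u2 hu2 v1 hv1
    have o22 := horth (τ (g j)) (τ (g j')) (by rw [hτ2]; exact hne3) u2 hu2 v2 hv2
    rw [← hu12, ← hv12, hf.bilinear.add_left, hf.bilinear.add_right, hf.bilinear.add_right,
      o11, o12, o21, o22]
    simp
  -- the stabiliser
  have hstab : H ≤ decompositionStabilizer E := by
    intro h hh
    obtain ⟨σ, hσ⟩ := hHD hh
    have hc := hcompat h hh σ hσ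
    choose ρf hρf using (fun j => hgsurj (rep (σ (g j))) (hrepR _))
    have hρinj : Function.Injective ρf := by
      intro j j' hjj'
      have h1 : rep (σ (g j)) = rep (σ (g j')) := by rw [← hρf j, ← hρf j', hjj']
      apply hginj
      rcases hrep1 (σ (g j)) with ha | ha <;> rcases hrep1 (σ (g j')) with hb | hb
      · rw [ha, hb] at h1
        exact σ.injective h1
      · exfalso
        rw [ha, hb, ← hc] at h1
        exact hnp j' j (σ.injective h1)
      · exfalso
        rw [ha, hb, ← hc] at h1
        exact hnp j j' (σ.injective h1).symm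
      · rw [ha, hb] at h1
        exact σ.injective (hτinj h1)
    refine ⟨Equiv.ofBijective ρf ⟨hρinj, Finite.surjective_of_injective hρinj⟩, fun j => ?_⟩
    show (D (g j) ⊔ D (τ (g j))).map (Matrix.toLin' (h : Matrix (Fin n) (Fin n) F)) =
      D (g (ρf j)) ⊔ D (τ (g (ρf j)))
    rw [Submodule.map_sup, hσ, hσ, hc, hrepD, ← hρf j]
  exact ⟨R.card, E, ⟨⟨h2s, by norm_num, hfr, hindep, htop⟩, hnd, horthE⟩, hstab⟩

end Cfsg.Agent.Lib.Helper31.SPPPLN
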