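import Mathlib
import Cfsg.Prelude.Def_GeometricClasses
import Cfsg.Prelude.Def_LieClassical
import Cfsg.Agent.Lib.Helper71.SUP0
import Cfsg.Agent.Lib.Helper10.SPPUNIQ

/-! Project SUQ (helper50; S5841), piece FLD2: no field subalgebra of degree 2 is closed under
adjoints for the hermitian form.

The adjoint `α` is an involutive ring automorphism of `K` acting as `c ↦ c ^ q` on the scalars.
An `α`-fixed element is a root of a quadratic with coefficients fixed by `c ↦ c ^ q`, so it is
fixed by `x ↦ x ^ (q ^ 2)`, hence a scalar; every `x ∈ K` is a root of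
`X ^ 2 - (x + α x) X + x α x`, so every element of `K` is a scalar. -/

set_option autoImplicit false

namespace Cfsg.Agent.Lib.Helper31.SUQFLD2

open Matrix Cfsg.Geo Cfsg.Agent.Lib.Helper71.SUP

variable {n : ℕ} {F : Type*} [Field F] [Fintype F] {q : ℕ}

/-- an element of a commutative division subalgebra fixed by `x ↦ x ^ |F|` is a scalar -/
theorem FLD2_root (hn : 1 ≤ n) (K : Subalgebra F (Matrix (Fin n) (Fin n) F))
    (hcomm : ∀ x ∈ K, ∀ y ∈ K, x * y = y * x) (hinv : ∀ x ∈ K, x ≠ 0 → ∃ y ∈ K, x * y = 1)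
    (x : Matrix (Fin n) (Fin n) F) (hx : x ∈ K) (hpow : x ^ Fintype.card F = x) :
    ∃ c : F, x = c • (1 : Matrix (Fin n) (Fin n) F) := by
  classical
  have h01 : (0 : ↥K) ≠ 1 := Cfsg.Agent.Lib.Helper10.SPPUNIQ.zero_ne_one_sub hn K
  let iK : Field ↥K := Cfsg.Agent.Lib.Helper87.ASPSF.fieldK K hcomm hinv h01
  have hQ : 1 < Fintype.card F := Fintype.one_lt_card
  set Q : ℕ := Fintype.card F with hQdef
  let p : Polynomial ↥K := Polynomial.X ^ Q - Polynomial.X
  have hp0 : p ≠ 0 := FiniteField.X_pow_card_sub_X_ne_zero ↥K hQ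
  have hpdeg : p.natDegree = Q := FiniteField.X_pow_card_sub_X_natDegree_eq ↥K hQ
  let R : Finset ↥K := p.roots.toFinset
  have hRcard : R.card ≤ Q := by
    calc R.card ≤ Multiset.card p.roots := Multiset.toFinset_card_le _
      _ ≤ p.natDegree := Polynomial.card_roots' p
      _ = Q := hpdeg
  have hroot : ∀ (y : Matrix (Fin n) (Fin n) F) (hy : y ∈ K), y ^ Q = y →
      (⟨y, hy⟩ : ↥K) ∈ R := by
    intro y hy hpow
    rw [Multiset.mem_toFinset, Polynomial.mem_roots hp0]
    show Polynomial.IsRoot (Polynomial.X ^ Q - Polynomial.X) _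
    rw [Polynomial.IsRoot.def, Polynomial.eval_sub, Polynomial.eval_pow, Polynomial.eval_X]
    rw [sub_eq_zero]
    exact Subtype.ext hpow
  have hsm : ∀ c : F, c • (1 : Matrix (Fin n) (Fin n) F) ∈ K := fun c =>
    K.smul_mem K.one_mem c
  have hinj : Function.Injective
      (fun c : F => (⟨c • (1 : Matrix (Fin n) (Fin n) F), hsm c⟩ : ↥K)) := by
    intro c c' h
    have h1 : c • (1 : Matrix (Fin n) (Fin n) F) = c' • (1 : Matrix (Fin n) (Fin n) F) :=
      congrArg Subtype.val h
    have h2 := congrFun (congrFun h1 ⟨0, by omega⟩) ⟨0, by omega⟩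
    simpa using h2
  let T : Finset ↥K := Finset.univ.map ⟨_, hinj⟩
  have hTR : T ⊆ R := by
    intro z hz
    obtain ⟨c, -, rfl⟩ := Finset.mem_map.mp hz
    apply hroot
    rw [smul_pow, one_pow, hQdef, FiniteField.pow_card]
  have hTc : T.card = Q := by rw [Finset.card_map, Finset.card_univ]
  have hTeq : T = R := Finset.eq_of_subset_of_card_le hTR (by rw [hTc]; exact hRcard)
  have hm : (⟨x, hx⟩ : ↥K) ∈ T := by rw [hTeq]; exact hroot x hx hpow
  obtain ⟨c, -, hc⟩ := Finset.mem_map.mp hm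
  exact ⟨c, (congrArg Subtype.val hc).symm⟩

/-- a root in `K` of a quadratic with coefficients fixed by `c ↦ c ^ q` is fixed by
`x ↦ x ^ (q ^ 2)` -/
theorem FLD2_quad (hF : Fintype.card F = q ^ 2) (hn : 1 ≤ n)
    (K : Subalgebra F (Matrix (Fin n) (Fin n) F))
    (hcomm : ∀ x ∈ K, ∀ y ∈ K, x * y = y * x) (hinv : ∀ x ∈ K, x ≠ 0 → ∃ y ∈ K, x * y = 1)
    (x : Matrix (Fin n) (Fin n) F) (hx : x ∈ K) (c d : F) (hc : c ^ q = c) (hd : d ^ q = d)
    (hrel : x * x = c • x - d • (1 : Matrix (Fin n) (Fin n) F)) : x ^ (q ^ 2) = x := by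
  have : Nonempty (Fin n) := ⟨⟨0, by omega⟩⟩
  have hpr : Fact (ringChar F).Prime := ⟨CharP.char_is_prime F (ringChar F)⟩
  obtain ⟨j, hj⟩ := Cfsg.Agent.Lib.Helper7.herm_exists_pow hF
  have hsub : ∀ A B : Matrix (Fin n) (Fin n) F, Commute A B →
      (A - B) ^ q = A ^ q - B ^ q := by
    intro A B h
    rw [hj]
    exact sub_pow_char_pow_of_commute (ringChar F) j h
  have hy : x ^ q ∈ K := K.pow_mem hx q
  have hyy : x ^ q * x ^ q = c • x ^ q - d • (1 : Matrix (Fin n) (Fin n) F) := by
    have h1 : x ^ q * x ^ q = (x * x) ^ q := by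
      rw [← pow_two, ← pow_two, ← pow_mul, ← pow_mul, mul_comm]
    rw [h1, hrel, hsub _ _ (Commute.smul_right (Commute.one_right _) d), smul_pow, smul_pow,
      one_pow, hc, hd]
  have hxy : x * x ^ q = x ^ q * x := by rw [← pow_succ', ← pow_succ]
  have hprod : (x ^ q - x) * (x ^ q - (c • (1 : Matrix (Fin n) (Fin n) F) - x)) = 0 := by
    have e : (x ^ q - x) * (x ^ q - (c • (1 : Matrix (Fin n) (Fin n) F) - x)) =
        x ^ q * x ^ q - c • x ^ q + (c • x - x * x) + (x ^ q * x - x * x ^ q) := by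
      simp only [sub_mul, mul_sub, mul_smul_comm, mul_one, smul_sub]
      abel
    rw [e, hyy, hrel, hxy]
    abel
  have hnzd : x ^ q - x = 0 ∨ x ^ q - (c • (1 : Matrix (Fin n) (Fin n) F) - x) = 0 := by
    by_cases h0 : x ^ q - x = 0
    · exact Or.inl h0
    · right
      have hm1 : x ^ q - x ∈ K := K.sub_mem hy hx
      have hm2 : x ^ q - (c • (1 : Matrix (Fin n) (Fin n) F) - x) ∈ K :=
        K.sub_mem hy (K.sub_mem (K.smul_mem K.one_mem c) hx)
      obtain ⟨u, hu, hu1⟩ := hinv _ hm1 h0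
      have hu2 : u * (x ^ q - x) = 1 := by rw [hcomm u hu _ hm1]; exact hu1
      calc x ^ q - (c • (1 : Matrix (Fin n) (Fin n) F) - x)
          = (u * (x ^ q - x)) * (x ^ q - (c • (1 : Matrix (Fin n) (Fin n) F) - x)) := by
            rw [hu2, one_mul]
        _ = u * ((x ^ q - x) * (x ^ q - (c • (1 : Matrix (Fin n) (Fin n) F) - x))) := by
            rw [mul_assoc]
        _ = 0 := by rw [hprod, mul_zero]
  rcases hnzd with h | h
  · have h1 : x ^ q = x := sub_eq_zero.1 h
    rw [pow_two, pow_mul, h1, h1]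
  · have h1 : x ^ q = c • (1 : Matrix (Fin n) (Fin n) F) - x := sub_eq_zero.1 h
    rw [pow_two, pow_mul, h1, hsub _ _ (Commute.smul_left (Commute.one_left _) c), smul_pow,
      one_pow, hc, h1]
    abel

/-- FLD2: no field subalgebra of degree 2 is closed under adjoints for the hermitian form. -/
theorem FLD2 (hF : Fintype.card F = q ^ 2) (hn : 1 ≤ n)
    (K : Subalgebra F (Matrix (Fin n) (Fin n) F)) (hK : IsFieldSubalgebra 2 K)
    (hadj : IsAdjointClosedFor (Cfsg.hermForm n F q) K) : False := by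
  classical
  have hadjK : ∀ k ∈ K, adj q k ∈ K := by
    intro k hk
    obtain ⟨k', hk', h⟩ := hadj k hk
    have h1 := adj_unique hF k k' h
    rw [← h1]
    exact hk'
  have hsinj : ∀ c c' : F, c • (1 : Matrix (Fin n) (Fin n) F) = c' • (1 : Matrix (Fin n) (Fin n) F) →
      c = c' := by
    intro c c' h
    have h2 := congrFun (congrFun h ⟨0, by omega⟩) ⟨0, by omega⟩
    simpa using h2
  have hadjs : ∀ c : F, adj q (c • (1 : Matrix (Fin n) (Fin n) F)) =
      c ^ q • (1 : Matrix (Fin n) (Fin n) F) := by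
    intro c
    rw [adj_smul, adj_one hF]
  -- fixed elements of the adjoint are scalars
  have hfix : ∀ z ∈ K, adj q z = z → ∃ c : F, z = c • (1 : Matrix (Fin n) (Fin n) F) := by
    intro z hz hαz
    by_contra hs
    push Not at hs
    -- a quadratic relation
    have hrel : ∃ b a : F, z * z = b • z - a • (1 : Matrix (Fin n) (Fin n) F) := by
      let v : Fin 3 → ↥K := ![1, ⟨z, hz⟩, ⟨z * z, K.mul_mem hz hz⟩]
      have hnl : ¬ LinearIndependent F v := by
        intro hli
        have h1 := hli.fintype_card_le_finrank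
        rw [Fintype.card_fin, hK.finrank_eq] at h1
        omega
      obtain ⟨g, hg, i, hi⟩ := Fintype.not_linearIndependent_iff.1 hnl
      rw [Fin.sum_univ_three] at hg
      have hg' : g 0 • (1 : Matrix (Fin n) (Fin n) F) + g 1 • z + g 2 • (z * z) = 0 :=
        congrArg Subtype.val hg
      by_cases h2 : g 2 = 0
      · exfalso
        rw [h2, zero_smul, add_zero] at hg'
        by_cases h1 : g 1 = 0
        · rw [h1, zero_smul, add_zero] at hg'
          have h0 : g 0 = 0 := by
            apply hsinj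
            rw [hg', zero_smul]
          fin_cases i
          · exact hi h0
          · exact hi h1
          · exact hi h2
        · apply hs (-((g 1)⁻¹ * g 0))
          have e1 : g 1 • z = -(g 0 • (1 : Matrix (Fin n) (Fin n) F)) :=
            eq_neg_of_add_eq_zero_right hg'
          calc z = (g 1)⁻¹ • (g 1 • z) := by rw [inv_smul_smul₀ h1]
            _ = (-((g 1)⁻¹ * g 0)) • (1 : Matrix (Fin n) (Fin n) F) := by
                rw [e1]; module
      · refine ⟨-((g 2)⁻¹ * g 1), (g 2)⁻¹ * g 0, ?_⟩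
        have e1 : g 2 • (z * z) = -(g 0 • (1 : Matrix (Fin n) (Fin n) F) + g 1 • z) :=
          eq_neg_of_add_eq_zero_right hg'
        calc z * z = (g 2)⁻¹ • (g 2 • (z * z)) := by rw [inv_smul_smul₀ h2]
          _ = (-((g 2)⁻¹ * g 1)) • z - ((g 2)⁻¹ * g 0) • (1 : Matrix (Fin n) (Fin n) F) := by
              rw [e1]; module
    obtain ⟨b, a, hba⟩ := hrel
    have h1 : adj q (z * z) = z * z := by rw [adj_mul hF, hαz]
    have h2 : adj q (b • z - a • (1 : Matrix (Fin n) (Fin n) F)) =
        b ^ q • z - a ^ q • (1 : Matrix (Fin n) (Fin n) F) := by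
      rw [adj_sub hF, adj_smul, hadjs, hαz]
    have h3 : b • z - a • (1 : Matrix (Fin n) (Fin n) F) =
        b ^ q • z - a ^ q • (1 : Matrix (Fin n) (Fin n) F) := by
      rw [← h2, ← hba, h1]
    have h4 : (b - b ^ q) • z = (a - a ^ q) • (1 : Matrix (Fin n) (Fin n) F) := by
      rw [sub_smul, sub_smul]
      exact sub_eq_sub_iff_sub_eq_sub.1 h3
    have hb : b ^ q = b := by
      by_contra hbq
      have hne : b - b ^ q ≠ 0 := fun h => hbq (sub_eq_zero.1 h).symm
      apply hs ((b - b ^ q)⁻¹ * (a - a ^ q))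
      calc z = (b - b ^ q)⁻¹ • ((b - b ^ q) • z) := by rw [inv_smul_smul₀ hne]
        _ = ((b - b ^ q)⁻¹ * (a - a ^ q)) • (1 : Matrix (Fin n) (Fin n) F) := by
            rw [h4, smul_smul]
    have ha : a ^ q = a := by
      rw [hb, sub_self, zero_smul] at h4
      have h5 : a - a ^ q = 0 := by
        apply hsinj
        rw [← h4, zero_smul]
      exact (sub_eq_zero.1 h5).symm
    have h6 := FLD2_quad hF hn K hK.comm hK.inv z hz b a hb ha hba
    rw [← hF] at h6
    obtain ⟨c, hc⟩ := FLD2_root hn K hK.comm hK.inv z hz h6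
    exact hs c hc
  -- every element of `K` is a scalar
  have hall : ∀ x ∈ K, ∃ c : F, x = c • (1 : Matrix (Fin n) (Fin n) F) := by
    intro x hx
    have hαx : adj q x ∈ K := hadjK x hx
    have ht : adj q (x + adj q x) = x + adj q x := by
      rw [adj_add hF, adj_adj hF, add_comm]
    have hm : adj q (x * adj q x) = x * adj q x := by
      rw [adj_mul hF, adj_adj hF]
    obtain ⟨c, hc⟩ := hfix _ (K.add_mem hx hαx) ht
    obtain ⟨d, hd⟩ := hfix _ (K.mul_mem hx hαx) hm
    have hcq : c ^ q = c := by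
      apply hsinj
      rw [← hadjs, ← hc, ht]
    have hdq : d ^ q = d := by
      apply hsinj
      rw [← hadjs, ← hd, hm]
    have hrel : x * x = c • x - d • (1 : Matrix (Fin n) (Fin n) F) := by
      have e1 : adj q x = c • (1 : Matrix (Fin n) (Fin n) F) - x := by
        rw [← hc]; abel
      calc x * x = x * (c • (1 : Matrix (Fin n) (Fin n) F)) - x * adj q x := by
            rw [e1, mul_sub, sub_sub_cancel]
        _ = c • x - d • (1 : Matrix (Fin n) (Fin n) F) := by
            rw [hd, mul_smul_comm, mul_one]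
    have h6 := FLD2_quad hF hn K hK.comm hK.inv x hx c d hcq hdq hrel
    rw [← hF] at h6
    exact FLD2_root hn K hK.comm hK.inv x hx h6
  -- counting
  have hcard : Nat.card ↥K = Fintype.card F ^ 2 :=
    Cfsg.Agent.Lib.Helper10.SPPUNIQ.card_sub 2 K hK
  have hsurj : Function.Surjective
      (fun c : F => (⟨c • (1 : Matrix (Fin n) (Fin n) F), K.smul_mem K.one_mem c⟩ : ↥K)) := by
    intro y
    obtain ⟨c, hc⟩ := hall y.1 y.2
    exact ⟨c, Subtype.ext hc.symm⟩
  have hle := Nat.card_le_card_of_surjective _ hsurj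
  rw [hcard, Nat.card_eq_fintype_card] at hle
  have h1 : 1 < Fintype.card F := Fintype.one_lt_card
  nlinarith

end Cfsg.Agent.Lib.Helper31.SUQFLD2
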