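import Cfsg.Agent.Lib.Helper96.SpTI

/-!
# Piece TI-CNT-A of S5955 (poster helper96): the number of totally isotropic `(j+1)`-spaces
above a totally isotropic `j`-space is `1` modulo the characteristic
-/

set_option autoImplicit false

namespace Cfsg.Agent.Lib.Helper31.SpTICntA

open Module Cfsg.Agent.Lib.Helper96.Sp

section aux

variable {F : Type*} [Field F] [Fintype F] {V : Type*} [AddCommGroup V] [Module F V]
  [FiniteDimensional F V]

theorem card_sub (A : Submodule F V) : Nat.card A = Fintype.card F ^ finrank F A := by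
  rw [Module.natCard_eq_pow_finrank (K := F) (V := A), Nat.card_eq_fintype_card]

theorem card_diff {A C : Submodule F V} (h : A ≤ C) :
    Nat.card {v : V // v ∈ C ∧ v ∉ A} =
      Fintype.card F ^ finrank F C - Fintype.card F ^ finrank F A := by
  have : Finite V := Module.finite_of_finite F
  have h1 : Nat.card {v : V // v ∈ C ∧ v ∉ A} = ((C : Set V) \ (A : Set V)).ncard :=
    Nat.card_coe_set_eq ((C : Set V) \ (A : Set V))
  have h2 := Set.ncard_sdiff_add_ncard_of_subset (s := (A : Set V)) (t := (C : Set V))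
    (fun x hx => h hx) (Set.toFinite _)
  have h3 : (C : Set V).ncard = Fintype.card F ^ finrank F C := by
    rw [← Nat.card_coe_set_eq]
    exact card_sub C
  have h4 : (A : Set V).ncard = Fintype.card F ^ finrank F A := by
    rw [← Nat.card_coe_set_eq]
    exact card_sub A
  rw [h1, ← h3, ← h4]
  omega

end aux

/-- TI-CNT-A. -/
theorem card_ti_ext_modEq {F : Type*} [Field F] [Fintype F] {p : ℕ} [Fact p.Prime] [CharP F p]
    {V : Type*} [AddCommGroup V] [Module F V] [FiniteDimensional F V]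
    {B : LinearMap.BilinForm F V} (hA : B.IsAlt) (hN : ND B ⊤)
    (W₀ : Submodule F V) (hW₀ : Orth B W₀ W₀) (j : ℕ) (hj : finrank F W₀ = j)
    (hjd : 2 * (j + 1) ≤ finrank F V) :
    Nat.card {W₁ : Submodule F V // W₀ ≤ W₁ ∧ finrank F W₁ = j + 1 ∧ Orth B W₁ W₁} ≡ 1 [MOD p] := by
  classical
  have : Finite V := Module.finite_of_finite F
  have hW₀P : W₀ ≤ B.orthogonal W₀ := orth_iff_le_perp.mp hW₀
  have hPfin : finrank F ↥(B.orthogonal W₀) + j = finrank F V := by
    have h := finrank_inf_perp hA hN (le_top : W₀ ≤ ⊤) hN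
    rw [top_inf_eq, finrank_top, hj] at h
    exact h
  have hφ : ∀ v : V, v ∈ B.orthogonal W₀ → v ∉ W₀ →
      W₀ ≤ W₀ ⊔ Submodule.span F {v} ∧ finrank F ↥(W₀ ⊔ Submodule.span F {v}) = j + 1 ∧
        Orth B (W₀ ⊔ Submodule.span F {v}) (W₀ ⊔ Submodule.span F {v}) := by
    intro v hvP hvW
    have hv0 : v ≠ 0 := fun h => hvW (h ▸ W₀.zero_mem)
    refine ⟨le_sup_left, ?_, ?_⟩
    · have hdis : Disjoint W₀ (Submodule.span F {v}) :=
        (Submodule.disjoint_span_singleton' hv0).2 hvW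
      have h := Submodule.finrank_sup_add_finrank_inf_eq W₀ (Submodule.span F {v})
      rw [disjoint_iff.1 hdis, finrank_bot, add_zero, hj, finrank_span_singleton hv0] at h
      exact h
    · apply ti_sup hA hW₀
      · intro u hu u' hu'
        obtain ⟨a, rfl⟩ := Submodule.mem_span_singleton.1 hu
        obtain ⟨a', rfl⟩ := Submodule.mem_span_singleton.1 hu'
        simp [hA v]
      · intro w hw u' hu'
        obtain ⟨a', rfl⟩ := Submodule.mem_span_singleton.1 hu'
        have h2 : B w v = 0 := (mem_perp_iff.mp hvP) w hw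
        simp [h2]
  have hmemP : ∀ (W₁ : Submodule F V), W₀ ≤ W₁ → Orth B W₁ W₁ → ∀ v ∈ W₁, v ∈ B.orthogonal W₀ :=
    fun W₁ h1 h2 v hv => mem_perp_iff.mpr (fun w hw => h2 w (h1 hw) v hv)
  let e : {v : V // v ∈ B.orthogonal W₀ ∧ v ∉ W₀} ≃
      Σ W₁ : {W₁ : Submodule F V // W₀ ≤ W₁ ∧ finrank F W₁ = j + 1 ∧ Orth B W₁ W₁},
        {v : V // v ∈ W₁.1 ∧ v ∉ W₀} :=
    { toFun := fun v => ⟨⟨W₀ ⊔ Submodule.span F {v.1}, hφ v.1 v.2.1 v.2.2⟩,
        ⟨v.1, Submodule.mem_sup_right (Submodule.mem_span_singleton_self v.1), v.2.2⟩⟩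
      invFun := fun s => ⟨s.2.1, hmemP s.1.1 s.1.2.1 s.1.2.2.2 s.2.1 s.2.2.1, s.2.2.2⟩
      left_inv := fun v => rfl
      right_inv := fun s => by
        apply Sigma.subtype_ext
        · apply Subtype.ext
          show W₀ ⊔ Submodule.span F {s.2.1} = s.1.1
          apply Submodule.eq_of_le_of_finrank_eq
          · exact sup_le s.1.2.1 ((Submodule.span_singleton_le_iff_mem _ _).2 s.2.2.1)
          · rw [(hφ s.2.1 (hmemP s.1.1 s.1.2.1 s.1.2.2.2 s.2.1 s.2.2.1) s.2.2.2).2.1, s.1.2.2.1]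
        · rfl }
  haveI : Fintype {W₁ : Submodule F V // W₀ ≤ W₁ ∧ finrank F W₁ = j + 1 ∧ Orth B W₁ W₁} :=
    Fintype.ofFinite _
  have hcard1 := Nat.card_congr e
  rw [Nat.card_sigma] at hcard1
  have hfib : ∀ W₁ : {W₁ : Submodule F V // W₀ ≤ W₁ ∧ finrank F W₁ = j + 1 ∧ Orth B W₁ W₁},
      Nat.card {v : V // v ∈ W₁.1 ∧ v ∉ W₀} = Fintype.card F ^ (j + 1) - Fintype.card F ^ j := by
    intro W₁
    rw [card_diff W₁.2.1, W₁.2.2.1, hj]
  simp only [hfib] at hcard1
  rw [Finset.sum_const, Finset.card_univ, smul_eq_mul, card_diff hW₀P, hj] at hcard1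
  obtain ⟨e', he, he1⟩ : ∃ e', finrank F ↥(B.orthogonal W₀) = j + e' ∧ 1 ≤ e' :=
    ⟨finrank F ↥(B.orthogonal W₀) - j, by omega, by omega⟩
  rw [he, pow_add, pow_succ] at hcard1
  rw [Nat.card_eq_fintype_card]
  have hq1 : 1 ≤ Fintype.card F := Fintype.card_pos
  have hpq0 : p ∣ Fintype.card F :=
    (CharP.cast_eq_zero_iff F p (Fintype.card F)).1 (Nat.cast_card_eq_zero F)
  generalize Fintype.card {W₁ : Submodule F V // W₀ ≤ W₁ ∧ finrank F W₁ = j + 1 ∧ Orth B W₁ W₁}
    = c at hcard1 ⊢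
  generalize Fintype.card F = q at hcard1 hq1 hpq0
  have hqj : 0 < q ^ j := pow_pos hq1 j
  have key : q ^ e' + c = c * q + 1 := by
    have h1 : q ^ j ≤ q ^ j * q ^ e' := Nat.le_mul_of_pos_right _ (pow_pos hq1 e')
    have h2 : q ^ j ≤ q ^ j * q := Nat.le_mul_of_pos_right _ hq1
    have h3 : ((q : ℤ) ^ j) * ((q : ℤ) ^ e' + c - c * q - 1) = 0 := by
      have := congrArg (Nat.cast : ℕ → ℤ) hcard1
      push_cast [Nat.cast_sub h1, Nat.cast_sub h2] at this
      linear_combination this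
    have h4 : ((q : ℤ) ^ e' + c - c * q - 1) = 0 := by
      rcases mul_eq_zero.1 h3 with h | h
      · have : (0 : ℤ) < (q : ℤ) ^ j := by exact_mod_cast hqj
        omega
      · exact h
    have h5 : ((q ^ e' + c : ℕ) : ℤ) = ((c * q + 1 : ℕ) : ℤ) := by push_cast; linarith
    exact_mod_cast h5
  have hpq : (q : ZMod p) = 0 := (ZMod.natCast_eq_zero_iff q p).2 hpq0
  have hc1 : ((c : ℕ) : ZMod p) = ((1 : ℕ) : ZMod p) := by
    have := congrArg (Nat.cast : ℕ → ZMod p) key
    push_cast at this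
    rw [hpq, zero_pow (by omega), zero_add, mul_zero, zero_add] at this
    simpa using this
  exact (ZMod.natCast_eq_natCast_iff c 1 p).1 hc1

end Cfsg.Agent.Lib.Helper31.SpTICntA
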