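import Mathlib
import Cfsg.Agent.Lib.Helper96.SpTI
import Cfsg.Agent.Lib.Helper94.SpWitt

set_option autoImplicit false

/-! Piece WITT-TI of S5955 (for helper96): Witt's theorem for totally isotropic subspaces of a
nondegenerate alternating space. -/

namespace Cfsg.Agent.Lib.Helper31.SpWittTI

open Module Cfsg.Agent.Lib.Helper96.Sp Cfsg.Agent.Lib.Helper94.SpWitt

variable {F : Type*} [Field F] {V : Type*} [AddCommGroup V] [Module F V]

/-- An isometry from two bases with the same Gram matrix. -/
theorem iso_of_gram [FiniteDimensional F V] {B : LinearMap.BilinForm F V} {κ : Type*} [Fintype κ]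
    (e e' : κ → V) (hli : LinearIndependent F e) (hli' : LinearIndependent F e')
    (hcard : Fintype.card κ = finrank F V)
    (hG : ∀ p q, B (e p) (e q) = B (e' p) (e' q)) :
    ∃ g : V ≃ₗ[F] V, Isom B (g : V →ₗ[F] V) ∧ ∀ p, g (e p) = e' p := by
  classical
  obtain ⟨b, hb⟩ : ∃ b : Basis κ F V, ∀ p, b p = e p :=
    ⟨Basis.mk hli (hli.span_eq_top_of_card_eq_finrank' hcard).ge, fun p => Basis.mk_apply _ _ p⟩
  obtain ⟨b', hb'⟩ : ∃ b' : Basis κ F V, ∀ p, b' p = e' p :=
    ⟨Basis.mk hli' (hli'.span_eq_top_of_card_eq_finrank' hcard).ge,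
      fun p => Basis.mk_apply _ _ p⟩
  have hg : ∀ p, (b.equiv b' (Equiv.refl _)) (e p) = e' p := by
    intro p
    rw [← hb, ← hb', Basis.equiv_apply]
    rfl
  refine ⟨b.equiv b' (Equiv.refl _), ?_, hg⟩
  have hcomp : B.comp ((b.equiv b' (Equiv.refl _) : V ≃ₗ[F] V) : V →ₗ[F] V)
      ((b.equiv b' (Equiv.refl _) : V ≃ₗ[F] V) : V →ₗ[F] V) = B := by
    apply LinearMap.BilinForm.ext_basis b
    intro p q
    rw [LinearMap.BilinForm.comp_apply, hb, hb]
    show B ((b.equiv b' (Equiv.refl _)) (e p)) ((b.equiv b' (Equiv.refl _)) (e q)) = _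
    rw [hg, hg, hG]
  intro x y
  have h1 := congrArg (fun B' : LinearMap.BilinForm F V => B' x y) hcomp
  exact h1

/-- A family dual to a linearly independent family. -/
theorem exists_dual_family [FiniteDimensional F V] {B : LinearMap.BilinForm F V} (hA : B.IsAlt)
    (hN : ND B ⊤) {m : ℕ} (e : Fin m → V) (hli : LinearIndependent F e) :
    ∃ c : Fin m → V, ∀ a b, B (e a) (c b) = if a = b then 1 else 0 := by
  classical
  let φ : V →ₗ[F] (Fin m → F) := LinearMap.pi (fun a => B (e a))
  have hφ : ∀ v a, φ v a = B (e a) v := fun v a => rfl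
  have hker : LinearMap.ker φ = B.orthogonal (Submodule.span F (Set.range e)) := by
    ext v
    rw [LinearMap.mem_ker, mem_perp_iff]
    constructor
    · intro h w hw
      induction hw using Submodule.span_induction with
      | mem x hx =>
        obtain ⟨a, rfl⟩ := hx
        have := congrFun h a
        exact this
      | zero => simp
      | add x y _ _ hx hy => rw [map_add, LinearMap.add_apply, hx, hy, add_zero]
      | smul t x _ hx => rw [map_smul, LinearMap.smul_apply, hx, smul_zero]
    · intro h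
      funext a
      exact h (e a) (Submodule.subset_span ⟨a, rfl⟩)
  have hfW : finrank F (Submodule.span F (Set.range e)) = m := by
    rw [finrank_span_eq_card hli, Fintype.card_fin]
  have h1 := finrank_inf_perp hA hN (le_top : Submodule.span F (Set.range e) ≤ ⊤) hN
  rw [top_inf_eq, finrank_top, hfW, ← hker] at h1
  have h2 := LinearMap.finrank_range_add_finrank_ker φ
  have hrange : LinearMap.range φ = ⊤ := by
    apply Submodule.eq_top_of_finrank_eq
    rw [Module.finrank_fin_fun]
    omega
  have hsurj : Function.Surjective φ := LinearMap.range_eq_top.1 hrange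
  choose c hc using fun b : Fin m => hsurj (Pi.single b 1)
  refine ⟨c, fun a b => ?_⟩
  rw [← hφ, hc b, Pi.single_apply]

/-- Hyperbolic partners for a basis of a totally isotropic subspace. -/
theorem exists_partners [FiniteDimensional F V] {B : LinearMap.BilinForm F V} (hA : B.IsAlt)
    (hN : ND B ⊤) {m : ℕ} (e : Fin m → V) (hli : LinearIndependent F e)
    (hee : ∀ a b, B (e a) (e b) = 0) :
    ∃ f : Fin m → V, (∀ a b, B (e a) (f b) = if a = b then 1 else 0) ∧
      ∀ a b, B (f a) (f b) = 0 := by
  classical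
  obtain ⟨c, hc⟩ := exists_dual_family hA hN e hli
  let f : Fin m → V := fun b => c b + ∑ x : Fin m, (if x < b then B (c x) (c b) else 0) • e x
  have hBef : ∀ a b, B (e a) (f b) = if a = b then 1 else 0 := by
    intro a b
    simp only [f, map_add, map_sum, map_smul, smul_eq_mul, hee, mul_zero, Finset.sum_const_zero,
      add_zero]
    exact hc a b
  have hce : ∀ a x, B (c a) (e x) = -(if x = a then 1 else 0) := fun a x => by
    rw [alt_swap hA, hc]
  have hBcf : ∀ a b, B (c a) (f b) = B (c a) (c b) - (if a < b then B (c a) (c b) else 0) := by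
    intro a b
    simp only [f, map_add, map_sum, map_smul, smul_eq_mul, hce]
    rw [Finset.sum_eq_single a]
    · by_cases h : a < b <;> simp [h]
    · intro x _ hx
      simp [hx]
    · intro h
      exact absurd (Finset.mem_univ a) h
  refine ⟨f, hBef, ?_⟩
  intro a b
  have h1 : B (f a) (f b) = B (c a) (f b) +
      ∑ x : Fin m, (if x < a then B (c x) (c a) else 0) * B (e x) (f b) := by
    conv_lhs =>
      rw [show f a = c a + ∑ x : Fin m, (if x < a then B (c x) (c a) else 0) • e x from rfl]
    simp only [map_add, LinearMap.add_apply, map_sum, LinearMap.sum_apply, map_smul,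
      LinearMap.smul_apply, smul_eq_mul]
  rw [h1, hBcf]
  simp only [hBef]
  rw [Finset.sum_eq_single b]
  · rcases lt_trichotomy a b with h | h | h
    · simp [h, not_lt_of_gt h]
    · subst h
      simp [hA.self_eq_zero]
    · have hn : ¬ a < b := not_lt_of_gt h
      simp only [h, hn, if_true, if_false, sub_zero, mul_one]
      rw [alt_swap hA (c b) (c a)]
      ring
  · intro x _ hx
    simp [hx]
  · intro h
    exact absurd (Finset.mem_univ b) h

/-- The hyperbolic family built from an isotropic family and its partners. -/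
theorem gram_of_partners {B : LinearMap.BilinForm F V} (hA : B.IsAlt) {m : ℕ} (e f : Fin m → V)
    (hee : ∀ a b, B (e a) (e b) = 0) (hef : ∀ a b, B (e a) (f b) = if a = b then 1 else 0)
    (hff : ∀ a b, B (f a) (f b) = 0) (x y : Fin m × Bool) :
    B (if x.2 then f x.1 else e x.1) (if y.2 then f y.1 else e y.1) = gram F x y := by
  obtain ⟨a, s⟩ := x
  obtain ⟨b, t⟩ := y
  cases s <;> cases t
  · simp [gram, hee]
  · simp [gram, hef]
  · simp only [gram]
    rw [alt_swap hA]
    simp only [Bool.false_eq_true, if_false, if_true, hef]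
    by_cases h : a = b
    · subst h
      simp
    · have h' : ¬ b = a := fun hh => h hh.symm
      simp [h, h']
  · simp [gram, hff]

/-- the partner index -/
def bflip {m : ℕ} (x : Fin m × Bool) : Fin m × Bool := (x.1, !x.2)

theorem gram_bflip_ne {m : ℕ} (x : Fin m × Bool) : gram F x (bflip x) ≠ 0 := by
  obtain ⟨a, s⟩ := x
  cases s <;> simp [gram, bflip]

theorem gram_bflip_eq_zero {m : ℕ} (x y : Fin m × Bool) (h : y ≠ x) :
    gram F y (bflip x) = 0 := by
  obtain ⟨a, s⟩ := x
  obtain ⟨b, t⟩ := y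
  unfold gram bflip
  rw [if_neg]
  rintro ⟨h1, h2⟩
  apply h
  simp only at h1 h2
  subst h1
  have hst : t = s := by
    revert h2
    cases s <;> cases t <;> decide
  rw [hst]

/-- A family with a dual family spans a nondegenerate subspace. -/
theorem nd_span_of_dual {κ : Type*} [Fintype κ] {B : LinearMap.BilinForm F V} (v : κ → V)
    (σ : κ → κ) (h1 : ∀ x y, y ≠ x → B (v y) (v (σ x)) = 0) (h2 : ∀ x, B (v x) (v (σ x)) ≠ 0) :
    ND B (Submodule.span F (Set.range v)) := by
  classical
  intro u hu h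
  obtain ⟨c, rfl⟩ := (Submodule.mem_span_range_iff_exists_fun F).1 hu
  have hc : ∀ x, c x = 0 := by
    intro x
    have h3 : B (∑ y, c y • v y) (v (σ x)) = c x * B (v x) (v (σ x)) := by
      rw [map_sum, LinearMap.sum_apply, Finset.sum_eq_single x]
      · rw [map_smul, LinearMap.smul_apply, smul_eq_mul]
      · intro y _ hy
        rw [map_smul, LinearMap.smul_apply, h1 x y hy, smul_zero]
      · intro h
        exact absurd (Finset.mem_univ x) h
    rw [h _ (Submodule.subset_span ⟨σ x, rfl⟩)] at h3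
    exact (mul_eq_zero.1 h3.symm).resolve_right (h2 x)
  simp [hc]

/-- A hyperbolic family together with an orthogonal hyperbolic family is independent. -/
theorem li_sum_of_gram {B : LinearMap.BilinForm F V} (hA : B.IsAlt) {m k : ℕ}
    (E₁ : Fin m × Bool → V) (E₂ : Fin k × Bool → V)
    (h11 : ∀ x y, B (E₁ x) (E₁ y) = gram F x y) (h22 : ∀ x y, B (E₂ x) (E₂ y) = gram F x y)
    (h12 : ∀ x y, B (E₁ x) (E₂ y) = 0) : LinearIndependent F (Sum.elim E₁ E₂) := by
  apply li_of_dual (B := B) _ (Sum.map bflip bflip)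
  · rintro (x | x) (y | y) hne
    · show B (E₁ y) (E₁ (bflip x)) = 0
      rw [h11]
      exact gram_bflip_eq_zero x y (fun h => hne (by rw [h]))
    · show B (E₂ y) (E₁ (bflip x)) = 0
      rw [alt_swap hA, h12, neg_zero]
    · show B (E₁ y) (E₂ (bflip x)) = 0
      exact h12 _ _
    · show B (E₂ y) (E₂ (bflip x)) = 0
      rw [h22]
      exact gram_bflip_eq_zero x y (fun h => hne (by rw [h]))
  · rintro (x | x)
    · show B (E₁ x) (E₁ (bflip x)) ≠ 0
      rw [h11]
      exact gram_bflip_ne x
    · show B (E₂ x) (E₂ (bflip x)) ≠ 0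
      rw [h22]
      exact gram_bflip_ne x

/-- A totally isotropic subspace sits in a full hyperbolic basis in a standard way. -/
theorem exists_full_family [FiniteDimensional F V] {B : LinearMap.BilinForm F V} (hA : B.IsAlt)
    (hN : ND B ⊤) {W : Submodule F V} (hW : Orth B W W) (m : ℕ) (hm : finrank F W = m) :
    ∃ (k : ℕ) (E₁ : Fin m × Bool → V) (E₂ : Fin k × Bool → V),
      2 * m + 2 * k = finrank F V ∧ LinearIndependent F (Sum.elim E₁ E₂) ∧
      (∀ x y, B (E₁ x) (E₁ y) = gram F x y) ∧ (∀ x y, B (E₂ x) (E₂ y) = gram F x y) ∧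
      (∀ x y, B (E₁ x) (E₂ y) = 0) ∧
      Submodule.span F (Set.range (fun a : Fin m => E₁ (a, false))) = W := by
  classical
  obtain ⟨bW⟩ : Nonempty (Basis (Fin m) F W) := ⟨Module.finBasisOfFinrankEq F W hm⟩
  obtain ⟨e, he⟩ : ∃ e : Fin m → V, ∀ a, e a = (bW a : V) := ⟨fun a => (bW a : V), fun a => rfl⟩
  have hli : LinearIndependent F e := by
    have h1 := bW.linearIndependent.map' W.subtype (Submodule.ker_subtype W)
    have h2 : (W.subtype ∘ bW) = e := by
      funext a
      rw [he]
      rfl
    rw [h2] at h1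
    exact h1
  have hspan : Submodule.span F (Set.range e) = W := by
    have h1 : Set.range e = W.subtype '' Set.range bW := by
      rw [← Set.range_comp]
      congr 1
      funext a
      rw [he]
      rfl
    rw [h1, ← Submodule.map_span, bW.span_eq, Submodule.map_top, Submodule.range_subtype]
  have hee : ∀ a b, B (e a) (e b) = 0 := fun a b => by
    rw [he, he]
    exact hW _ (bW a).2 _ (bW b).2
  obtain ⟨f, hef, hff⟩ := exists_partners hA hN e hli hee
  obtain ⟨E₁, hE₁def⟩ : ∃ E₁ : Fin m × Bool → V, ∀ x, E₁ x = if x.2 then f x.1 else e x.1 :=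
    ⟨fun x => if x.2 then f x.1 else e x.1, fun x => rfl⟩
  have hE₁ : ∀ x y, B (E₁ x) (E₁ y) = gram F x y := by
    intro x y
    rw [hE₁def, hE₁def]
    exact gram_of_partners hA e f hee hef hff x y
  have hd1 : ∀ x y, y ≠ x → B (E₁ y) (E₁ (bflip x)) = 0 := fun x y h => by
    rw [hE₁]
    exact gram_bflip_eq_zero x y h
  have hd2 : ∀ x, B (E₁ x) (E₁ (bflip x)) ≠ 0 := fun x => by
    rw [hE₁]
    exact gram_bflip_ne x
  have hli₁ : LinearIndependent F E₁ := li_of_dual (B := B) E₁ bflip hd1 hd2
  have hH : ND B (Submodule.span F (Set.range E₁)) := nd_span_of_dual E₁ bflip hd1 hd2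
  have hfH : finrank F (Submodule.span F (Set.range E₁)) = 2 * m := by
    rw [finrank_span_eq_card hli₁, Fintype.card_prod, Fintype.card_fin, Fintype.card_bool,
      mul_comm]
  have hP : ND B (B.orthogonal (Submodule.span F (Set.range E₁))) := nd_perp hA hN hH
  have h1 := finrank_inf_perp hA hN (le_top : Submodule.span F (Set.range E₁) ≤ ⊤) hN
  rw [top_inf_eq, finrank_top, hfH] at h1
  obtain ⟨k, hk⟩ := even_finrank_of_nd hA _ hP
  obtain ⟨E₂, hE₂mem, hE₂⟩ := exists_hyp hA (B.orthogonal (Submodule.span F (Set.range E₁))) hP k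
    (by omega)
  have h12 : ∀ x y, B (E₁ x) (E₂ y) = 0 := fun x y =>
    mem_perp_iff.1 (hE₂mem y) _ (Submodule.subset_span ⟨x, rfl⟩)
  refine ⟨k, E₁, E₂, by omega, li_sum_of_gram hA E₁ E₂ hE₁ hE₂ h12, hE₁, hE₂, h12, ?_⟩
  have h2 : (fun a : Fin m => E₁ (a, false)) = e := by
    funext a
    rw [hE₁def]
    simp
  rw [h2, hspan]

/-- **Witt's theorem for totally isotropic subspaces** of a nondegenerate alternating space:
two totally isotropic subspaces of the same dimension are conjugate under an isometry. -/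
theorem witt_ti [FiniteDimensional F V] {B : LinearMap.BilinForm F V} (hA : B.IsAlt)
    (hN : ND B ⊤) {W W' : Submodule F V} (hW : Orth B W W) (hW' : Orth B W' W')
    (hfin : finrank F W = finrank F W') :
    ∃ h : V ≃ₗ[F] V, Isom B (h : V →ₗ[F] V) ∧ W.map (h : V →ₗ[F] V) = W' := by
  obtain ⟨k, E₁, E₂, hk, hli, h11, h22, h12, hsp⟩ :=
    exists_full_family hA hN hW (finrank F W) rfl
  obtain ⟨k', E₁', E₂', hk', hli', h11', h22', h12', hsp'⟩ :=
    exists_full_family hA hN hW' (finrank F W) hfin.symm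
  have hkk : k' = k := by omega
  subst hkk
  have hcard : Fintype.card ((Fin (finrank F W) × Bool) ⊕ (Fin k' × Bool)) = finrank F V := by
    rw [Fintype.card_sum, Fintype.card_prod, Fintype.card_prod, Fintype.card_fin,
      Fintype.card_fin, Fintype.card_bool]
    omega
  have hG : ∀ p q, B (Sum.elim E₁ E₂ p) (Sum.elim E₁ E₂ q) =
      B (Sum.elim E₁' E₂' p) (Sum.elim E₁' E₂' q) := by
    rintro (x | x) (y | y)
    · show B (E₁ x) (E₁ y) = B (E₁' x) (E₁' y)
      rw [h11, h11']
    · show B (E₁ x) (E₂ y) = B (E₁' x) (E₂' y)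
      rw [h12, h12']
    · show B (E₂ x) (E₁ y) = B (E₂' x) (E₁' y)
      rw [alt_swap hA, h12, alt_swap hA (E₂' x), h12']
    · show B (E₂ x) (E₂ y) = B (E₂' x) (E₂' y)
      rw [h22, h22']
  obtain ⟨g, hg, hgE⟩ := iso_of_gram (Sum.elim E₁ E₂) (Sum.elim E₁' E₂') hli hli' hcard hG
  refine ⟨g, hg, ?_⟩
  rw [← hsp, ← hsp', Submodule.map_span, ← Set.range_comp]
  congr 2
  funext a
  exact hgE (Sum.inl (a, false))

end Cfsg.Agent.Lib.Helper31.SpWittTI
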