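import Mathlib
import Cfsg.Prelude.Def_Local
import Cfsg.Agent.Lib.Helper28.SE
import Cfsg.Agent.Lib.Helper31.Comp

/-!
General lemmas used for standard subgroups: conjugate subgroups, products of commuting subgroups,
involutions normalizing a subgroup, perfect subgroups centralizing.
-/

set_option autoImplicit false
open scoped commutatorElement

namespace Cfsg.Agent.Lib.Helper31

open Cfsg.Agent.Lib.Helper28

section Std

variable {G : Type*} [Group G]

/-- The conjugate `g H g⁻¹`. -/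
abbrev cjg (g : G) (H : Subgroup G) : Subgroup G := H.map (MulAut.conj g).toMonoidHom

theorem mem_cjg {g : G} {H : Subgroup G} {x : G} : x ∈ cjg g H ↔ g⁻¹ * x * g ∈ H :=
  mem_conj_iff H g x

theorem conj_mem_cjg {g : G} {H : Subgroup G} {x : G} (hx : x ∈ H) : g * x * g⁻¹ ∈ cjg g H := by
  rw [mem_cjg]
  have h : g⁻¹ * (g * x * g⁻¹) * g = x := by group
  rw [h]; exact hx

theorem cjg_cjg (g h : G) (H : Subgroup G) : cjg g (cjg h H) = cjg (g * h) H := by
  ext x
  rw [mem_cjg, mem_cjg, mem_cjg]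
  have h1 : h⁻¹ * (g⁻¹ * x * g) * h = (g * h)⁻¹ * x * (g * h) := by group
  rw [h1]

theorem cjg_eq_self_iff {g : G} {H : Subgroup G} :
    cjg g H = H ↔ g ∈ Subgroup.normalizer (H : Set G) := by
  rw [Subgroup.mem_normalizer_iff'']
  constructor
  · intro h x
    rw [← mem_cjg, h]
  · intro h
    ext x
    rw [mem_cjg]
    exact (h x).symm

theorem cjg_eq_of_commute {g : G} {H : Subgroup G} (h : ∀ x ∈ H, g * x = x * g) : cjg g H = H := by
  ext x
  rw [mem_cjg]
  constructor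
  · intro hx
    have h1 := h _ hx
    have h2 : x = g⁻¹ * x * g := by
      calc x = g * (g⁻¹ * x * g) * g⁻¹ := by group
        _ = (g⁻¹ * x * g) * g * g⁻¹ := by rw [h1]
        _ = g⁻¹ * x * g := by group
    rw [h2]; exact hx
  · intro hx
    have h1 := h x hx
    have h2 : g⁻¹ * x * g = x := by
      calc g⁻¹ * x * g = g⁻¹ * (x * g) := by group
        _ = g⁻¹ * (g * x) := by rw [h1]
        _ = x := by group
    rw [h2]; exact hx

theorem card_cjg (g : G) (H : Subgroup G) : Nat.card ↥(cjg g H) = Nat.card ↥H :=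
  Subgroup.card_map_of_injective (MulAut.conj g).injective

theorem isComponent_cjg (g : G) {K : Subgroup G} (hK : IsComponent K) : IsComponent (cjg g K) :=
  isComponent_map (MulAut.conj g) hK

theorem cjg_mono {g : G} {H K : Subgroup G} (h : H ≤ K) : cjg g H ≤ cjg g K :=
  Subgroup.map_mono h

/-- If an involution `t` normalizes a subgroup `L` containing an involution, then `L` contains an
involution commuting with `t`. -/
theorem exists_invol_comm [Finite G] {L : Subgroup G} {t x : G} (ht : orderOf t = 2)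
    (hL : ∀ y ∈ L, t * y * t⁻¹ ∈ L) (hx : x ∈ L) (hx2 : orderOf x = 2) :
    ∃ u ∈ L, orderOf u = 2 ∧ u * t = t * u := by
  have htt : t * t = 1 := (inv_iff.1 ht).2
  have hti : t⁻¹ = t := inv_inv_eq htt
  have hxx : x * x = 1 := (inv_iff.1 hx2).2
  have hxi : x⁻¹ = x := inv_inv_eq hxx
  obtain ⟨y, hy⟩ : ∃ y, y = t * x * t⁻¹ := ⟨_, rfl⟩
  have hyL : y ∈ L := by rw [hy]; exact hL x hx
  have hty : t * y * t⁻¹ = x := by
    rw [hy, hti]
    calc t * (t * x * t) * t = (t * t) * x * (t * t) := by simp only [mul_assoc]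
      _ = x := by rw [htt, one_mul, mul_one]
  have hyi : y⁻¹ = y := by
    rw [hy, mul_inv_rev, mul_inv_rev, inv_inv, hxi, mul_assoc]
  obtain ⟨ρ, hρ⟩ : ∃ ρ, ρ = x * y := ⟨_, rfl⟩
  have hρL : ρ ∈ L := by rw [hρ]; exact L.mul_mem hx hyL
  have hρi : ρ⁻¹ = y * x := by rw [hρ, mul_inv_rev, hyi, hxi]
  have htρ : t * ρ * t⁻¹ = ρ⁻¹ := by
    have h1 : t * ρ * t⁻¹ = (t * x * t⁻¹) * (t * y * t⁻¹) := by rw [hρ]; group
    rw [h1, hty, ← hy, hρi]
  have hxρ : x * ρ * x⁻¹ = ρ⁻¹ := by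
    rw [hρi, hρ, hxi]
    calc x * (x * y) * x = (x * x) * y * x := by simp only [mul_assoc]
      _ = y * x := by rw [hxx, one_mul]
  have hpos : 0 < orderOf ρ := orderOf_pos ρ
  rcases Nat.even_or_odd' (orderOf ρ) with ⟨k, hk | hk⟩
  · have hk0 : k ≠ 0 := by rintro rfl; omega
    have hz : ρ ^ k * ρ ^ k = 1 := by
      rw [← pow_add, ← two_mul, ← hk, pow_orderOf_eq_one]
    refine ⟨ρ ^ k, L.pow_mem hρL k, ?_, ?_⟩
    · rw [orderOf_pow_of_dvd hk0 ⟨2, by omega⟩, hk]
      exact Nat.mul_div_left 2 (Nat.pos_of_ne_zero hk0)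
    · have h1 : t * ρ ^ k * t⁻¹ = ρ ^ k := by
        rw [← conj_pow, htρ, inv_pow, inv_inv_eq hz]
      calc ρ ^ k * t = t * ρ ^ k * t⁻¹ * t := by rw [h1]
        _ = t * ρ ^ k := by group
  · have hρn : ρ ^ (2 * k + 1) = 1 := by rw [← hk, pow_orderOf_eq_one]
    refine ⟨x * ρ ^ (k + 1), L.mul_mem hx (L.pow_mem hρL _), ?_, ?_⟩
    · rw [inv_iff]
      refine ⟨?_, ?_⟩
      · intro h
        have h1 : x = (ρ ^ (k + 1))⁻¹ := eq_inv_of_mul_eq_one_left h
        have h2 : x ^ (2 * k + 1) = 1 := by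
          rw [h1, inv_pow, ← pow_mul, mul_comm, pow_mul, hρn, one_pow, inv_one]
        have h3 : x ^ (2 * k + 1) = x := by
          rw [pow_succ, pow_mul, pow_two, hxx, one_pow, one_mul]
        rw [h3] at h2
        rw [h2, orderOf_one] at hx2
        exact absurd hx2 (by norm_num)
      · have h1 : x * ρ ^ (k + 1) * x⁻¹ = (ρ ^ (k + 1))⁻¹ := by
          rw [← conj_pow, hxρ, inv_pow]
        calc x * ρ ^ (k + 1) * (x * ρ ^ (k + 1))
            = (x * ρ ^ (k + 1) * x⁻¹) * ρ ^ (k + 1) := by rw [hxi]; simp only [mul_assoc]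
          _ = 1 := by rw [h1, inv_mul_cancel]
    · have h1 : t * (x * ρ ^ (k + 1)) * t⁻¹ = y * (ρ ^ (k + 1))⁻¹ := by
        have h0 : t * (x * ρ ^ (k + 1)) * t⁻¹ = (t * x * t⁻¹) * (t * ρ ^ (k + 1) * t⁻¹) := by
          group
        rw [h0, ← conj_pow, htρ, inv_pow, ← hy]
      have h2 : y = x * ρ := by rw [hρ, ← mul_assoc, hxx, one_mul]
      have h3 : ρ * (ρ ^ (k + 1))⁻¹ = ρ ^ (k + 1) := by
        rw [mul_inv_eq_iff_eq_mul, ← pow_add]
        have h5 : k + 1 + (k + 1) = (2 * k + 1) + 1 := by ring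
        rw [h5, pow_succ, hρn, one_mul]
      have h4 : t * (x * ρ ^ (k + 1)) * t⁻¹ = x * ρ ^ (k + 1) := by
        rw [h1, h2, mul_assoc, h3]
      calc x * ρ ^ (k + 1) * t = t * (x * ρ ^ (k + 1)) * t⁻¹ * t := by rw [h4]
        _ = t * (x * ρ ^ (k + 1)) := by group

/-- Three subgroups lemma for a perfect subgroup. -/
theorem perfect_comm_eq_bot {A M : Subgroup G} (hperf : ⁅A, A⁆ = A) (h : ⁅⁅M, A⁆, A⁆ = ⊥) :
    ⁅M, A⁆ = ⊥ := by
  have h1 : ⁅⁅A, M⁆, A⁆ = ⊥ := by rw [Subgroup.commutator_comm A M]; exact h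
  have h2 := Subgroup.commutator_commutator_eq_bot_of_rotate (H₁ := A) (H₂ := A) (H₃ := M) h1 h
  rw [hperf] at h2
  rw [Subgroup.commutator_comm]; exact h2

theorem perfect_centralizes {A : Subgroup G} (hperf : ⁅A, A⁆ = A) {M Z : Subgroup G}
    (hMZ : ∀ m ∈ M, ∀ a ∈ A, ⁅m, a⁆ ∈ Z) (hZ : ∀ z ∈ Z, ∀ a ∈ A, z * a = a * z) :
    ∀ m ∈ M, ∀ a ∈ A, m * a = a * m := by
  have h1 : ⁅M, A⁆ ≤ Z := Subgroup.commutator_le.2 hMZ
  have h2 : ⁅⁅M, A⁆, A⁆ = ⊥ := by
    rw [Subgroup.commutator_eq_bot_iff_le_centralizer]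
    intro z hz
    rw [Subgroup.mem_centralizer_iff]
    intro a ha
    exact (hZ z (h1 hz) a ha).symm
  have h3 := perfect_comm_eq_bot hperf h2
  rw [Subgroup.commutator_eq_bot_iff_le_centralizer] at h3
  intro m hm a ha
  exact (Subgroup.mem_centralizer_iff.1 (h3 hm) a ha).symm

/-- In a quasisimple subgroup `A`, the intersection with a subgroup `B` normalized by `A` and not
containing `A` is central in `A`. -/
theorem qs_inf_central {A B : Subgroup G} (hqs : IsQuasisimple ↥A)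
    (hnorm : ∀ a ∈ A, ∀ b ∈ B, a * b * a⁻¹ ∈ B) (hne : ¬ A ≤ B) :
    ∀ z ∈ A ⊓ B, ∀ a ∈ A, z * a = a * z := by
  have hN : (B.subgroupOf A).Normal := by
    refine ⟨fun n hn g => ?_⟩
    rw [Subgroup.mem_subgroupOf] at hn ⊢
    exact hnorm g.1 g.2 n.1 hn
  have hne' : B.subgroupOf A ≠ ⊤ := fun h => hne (Subgroup.subgroupOf_eq_top.1 h)
  have hc := quasisimple_le_center hqs hN hne'
  intro z hz a ha
  have h1 : (⟨z, hz.1⟩ : ↥A) ∈ B.subgroupOf A := Subgroup.mem_subgroupOf.2 hz.2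
  have h2 := Subgroup.mem_center_iff.1 (hc h1) ⟨a, ha⟩
  exact (congrArg Subtype.val h2).symm

/-- Elements of the join of two elementwise commuting subgroups are products. -/
theorem mem_sup_of_commute {L L' : Subgroup G} (hc : ∀ x ∈ L, ∀ y ∈ L', x * y = y * x) {g : G}
    (hg : g ∈ L ⊔ L') : ∃ x ∈ L, ∃ y ∈ L', g = x * y := by
  let P : Subgroup G :=
    { carrier := {g | ∃ x ∈ L, ∃ y ∈ L', g = x * y}
      mul_mem' := by
        rintro _ _ ⟨x, hx, y, hy, rfl⟩ ⟨x', hx', y', hy', rfl⟩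
        refine ⟨x * x', L.mul_mem hx hx', y * y', L'.mul_mem hy hy', ?_⟩
        calc x * y * (x' * y') = x * (y * x') * y' := by simp only [mul_assoc]
          _ = x * (x' * y) * y' := by rw [hc x' hx' y hy]
          _ = x * x' * (y * y') := by simp only [mul_assoc]
      one_mem' := ⟨1, L.one_mem, 1, L'.one_mem, by simp⟩
      inv_mem' := by
        rintro _ ⟨x, hx, y, hy, rfl⟩
        refine ⟨x⁻¹, L.inv_mem hx, y⁻¹, L'.inv_mem hy, ?_⟩
        rw [mul_inv_rev, hc x⁻¹ (L.inv_mem hx) y⁻¹ (L'.inv_mem hy)] }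
  have h1 : L ⊔ L' ≤ P :=
    sup_le (fun x hx => ⟨x, hx, 1, L'.one_mem, by simp⟩)
      (fun y hy => ⟨1, L.one_mem, y, hy, by simp⟩)
  exact h1 hg

/-- Uniqueness of the decomposition in a product of two subgroups with trivial intersection. -/
theorem prod_unique {L L' : Subgroup G} (hinf : L ⊓ L' = ⊥) {x x' y y' : G} (hx : x ∈ L)
    (hx' : x' ∈ L) (hy : y ∈ L') (hy' : y' ∈ L') (h : x * y = x' * y') : x = x' ∧ y = y' := by
  have h1 : x'⁻¹ * x = y' * y⁻¹ := by
    have h0 : x'⁻¹ * (x * y) * y⁻¹ = x'⁻¹ * (x' * y') * y⁻¹ := by rw [h]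
    have h2 : x'⁻¹ * (x * y) * y⁻¹ = x'⁻¹ * x := by group
    have h3 : x'⁻¹ * (x' * y') * y⁻¹ = y' * y⁻¹ := by group
    rw [← h2, h0, h3]
  have h2 : x'⁻¹ * x ∈ L ⊓ L' :=
    ⟨L.mul_mem (L.inv_mem hx') hx, by rw [h1]; exact L'.mul_mem hy' (L'.inv_mem hy)⟩
  rw [hinf, Subgroup.mem_bot] at h2
  have h3 : x = x' := by
    calc x = x' * (x'⁻¹ * x) := by group
      _ = x' := by rw [h2, mul_one]
  subst h3
  exact ⟨rfl, mul_left_cancel h⟩

/-- A nontrivial nilpotent group has a nontrivial centre. -/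
theorem center_ne_bot_of_nilpotent {H : Type*} [Group H] [Group.IsNilpotent H] [Nontrivial H] :
    Subgroup.center H ≠ ⊥ := by
  intro hc
  obtain ⟨n, hn⟩ := Group.IsNilpotent.nilpotent H
  have h : ∀ k, Subgroup.upperCentralSeries H k = ⊥ := by
    intro k
    induction k with
    | zero => exact Subgroup.upperCentralSeries_zero H
    | succ k ih =>
      rw [eq_bot_iff]
      intro x hx
      rw [Subgroup.mem_upperCentralSeries_succ_iff] at hx
      have h1 : x ∈ Subgroup.center H := by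
        rw [Subgroup.mem_center_iff]
        intro y
        have h2 := hx y
        rw [ih, Subgroup.mem_bot] at h2
        exact (commutatorElement_eq_one_iff_mul_comm.1 h2).symm
      rw [hc] at h1
      exact h1
  rw [h n] at hn
  exact bot_ne_top hn

end Std

end Cfsg.Agent.Lib.Helper31
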