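import Cfsg.Agent.Lib.Helper98.T73Defs

/-!
# Project T73 (S5973; helper98), piece WIBD

Totally singular subspaces of a nondegenerate quadratic space of dimension `2k+2` have dimension
at most `k+1`, and at most `k` if the type is not `1` (coset count).
-/

set_option autoImplicit false

namespace Cfsg.Agent.Lib.Helper98.T73

open Cfsg.Agent.Lib.Helper47 Module Polynomial

universe u

variable {F : Type u} [Field F] [Fintype F] {V : Type u} [AddCommGroup V] [Module F V]
  [FiniteDimensional F V] {Q : V → F} {B : V → V → F}

/-- the fibres of a nonzero linear functional on a space of dimension `k + 1` have `q ^ k`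
elements -/
theorem wibd_fiber {W : Type*} [AddCommGroup W] [Module F W] [FiniteDimensional F W]
    (φ : W →ₗ[F] F) (w₁ : W) (h1 : φ w₁ ≠ 0) (k : ℕ) (hk : finrank F W = k + 1) (c : F) :
    Nat.card {w : W // φ w = c} = Fintype.card F ^ k := by
  have hsurj : Function.Surjective φ := fun c' =>
    ⟨(c' / φ w₁) • w₁, by rw [map_smul, smul_eq_mul, div_mul_cancel₀ _ h1]⟩
  obtain ⟨w₀, hw₀⟩ := hsurj c
  have hker : finrank F (LinearMap.ker φ) = k := by
    have h := LinearMap.finrank_range_add_finrank_ker φ
    rw [LinearMap.range_eq_top.2 hsurj, finrank_top, Module.finrank_self, hk] at h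
    omega
  have hcard : Nat.card (LinearMap.ker φ) = Fintype.card F ^ k := by
    rw [Module.natCard_eq_pow_finrank (K := F), hker, Nat.card_eq_fintype_card]
  rw [← hcard]
  apply Nat.card_congr
  exact
    { toFun := fun w => ⟨(w : W) - w₀, by rw [LinearMap.mem_ker, map_sub, w.2, hw₀, sub_self]⟩
      invFun := fun z => ⟨(z : W) + w₀, by rw [map_add, LinearMap.mem_ker.1 z.2, hw₀, zero_add]⟩
      left_inv := fun w => Subtype.ext (by simp)
      right_inv := fun z => Subtype.ext (by simp) }

theorem wibd_core (hQ : IsQuad Q B) (hnd : Nondeg B) (k : ℕ)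
    (hdim : finrank F V = 2 * k + 2) (ε : ℤ) (htyp : IsTyp Q k ε)
    (U : Submodule F V) (hU : TS Q U) : finrank F U ≤ wi k ε := by
  classical
  have hB := hQ.form
  let Bf : LinearMap.BilinForm F V := LinearMap.mk₂ F B hB.add_left
    (fun c x y => by rw [hB.smul_left, smul_eq_mul])
    hB.add_right
    (fun c x y => by rw [hB.smul_right, smul_eq_mul]; rfl)
  have hBf : ∀ x y, Bf x y = B x y := fun x y => rfl
  have hrefl : Bf.IsRefl := fun x y h => hB.refl h
  have hsymm : ∀ x y, B y x = B x y := by
    intro x y
    have h := hB.symm x y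
    simpa using h
  have hortop : Bf.orthogonal ⊤ = ⊥ := by
    rw [eq_bot_iff]
    intro x hx
    rw [Submodule.mem_bot]
    apply hnd x
    intro y
    have h1 : Bf y x = 0 := hx y Submodule.mem_top
    rw [hBf] at h1
    exact (hsymm y x).trans h1
  have hUorth : U ≤ Bf.orthogonal U := by
    intro u hu
    rw [LinearMap.BilinForm.mem_orthogonal_iff]
    intro n hn
    show Bf n u = 0
    rw [hBf]
    have h1 := hQ.polar n u
    rw [hU _ (U.add_mem hn hu), hU n hn, hU u hu] at h1
    simpa using h1.symm
  have hsum : finrank F U + finrank F (Bf.orthogonal U) = finrank F V := by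
    have h := LinearMap.BilinForm.finrank_add_finrank_orthogonal hrefl U
    rw [hortop, inf_bot_eq, finrank_bot, add_zero] at h
    exact h
  have hle : finrank F U ≤ finrank F (Bf.orthogonal U) := Submodule.finrank_mono hUorth
  have hk1 : finrank F U ≤ k + 1 := by omega
  unfold wi
  split_ifs with hε
  · exact hk1
  · by_contra hcon
    have hUk : finrank F U = k + 1 := by omega
    have horth : finrank F (Bf.orthogonal U) = k + 1 := by omega
    have hUeq : U = Bf.orthogonal U :=
      Submodule.eq_of_le_of_finrank_eq hUorth (by rw [hUk, horth])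
    apply hε
    have hfinV : Finite V := Module.finite_of_finite F
    obtain ⟨U', hc⟩ := Submodule.exists_isCompl U
    have hU'k : finrank F U' = k + 1 := by
      have h := Submodule.finrank_add_eq_of_isCompl hc
      omega
    have hcount : Nat.card {v : V // Q v = 1} =
        (Fintype.card F ^ (k + 1) - 1) * Fintype.card F ^ k := by
      have e1 : {v : V // Q v = 1} ≃ {p : ↥U' × ↥U // Q ((p.1 : V) + (p.2 : V)) = 1} :=
        (Equiv.subtypeEquiv (Submodule.prodEquivOfIsCompl U' U hc.symm).toEquiv (fun p => by
          rw [LinearEquiv.coe_toEquiv, Submodule.coe_prodEquivOfIsCompl'])).symm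
      have e2 := Equiv.subtypeProdEquivSigmaSubtype
        (fun (x : ↥U') (u : ↥U) => Q ((x : V) + (u : V)) = 1)
      rw [Nat.card_congr (e1.trans e2)]
      have hfU' : Fintype ↥U' := Fintype.ofFinite _
      rw [Nat.card_sigma]
      have hterm : ∀ x : ↥U', Nat.card {u : ↥U // Q ((x : V) + (u : V)) = 1} =
          if x = 0 then 0 else Fintype.card F ^ k := by
        intro x
        split_ifs with hx
        · subst hx
          have hemp : IsEmpty {u : ↥U // Q (((0 : ↥U') : V) + (u : V)) = 1} := by
            refine ⟨fun ⟨u, hu⟩ => ?_⟩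
            rw [Submodule.coe_zero, zero_add, hU _ u.2] at hu
            exact zero_ne_one hu
          exact Nat.card_of_isEmpty
        · have hxU : (x : V) ∉ U := by
            intro h
            have h0 : (x : V) ∈ U ⊓ U' := ⟨h, x.2⟩
            rw [hc.inf_eq_bot, Submodule.mem_bot] at h0
            exact hx (Subtype.ext h0)
          have hxo : (x : V) ∉ Bf.orthogonal U := by rw [← hUeq]; exact hxU
          rw [LinearMap.BilinForm.mem_orthogonal_iff] at hxo
          push Not at hxo
          obtain ⟨u₁, hu₁, hne⟩ := hxo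
          have hne' : B (x : V) u₁ ≠ 0 := by
            intro h
            apply hne
            show Bf u₁ x = 0
            rw [hBf, hsymm (x : V) u₁]
            exact h
          let φ : ↥U →ₗ[F] F := (Bf (x : V)).comp U.subtype
          have hφ : ∀ u : ↥U, φ u = B (x : V) (u : V) := fun u => rfl
          have hfib := wibd_fiber φ ⟨u₁, hu₁⟩ (by rw [hφ]; exact hne') k hUk (1 - Q (x : V))
          rw [← hfib]
          apply Nat.card_congr
          apply Equiv.subtypeEquivRight
          intro u
          rw [hφ, hQ.polar, hU _ u.2, add_zero]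
          constructor
          · intro h; rw [← h]; ring
          · intro h; rw [h]; ring
      rw [Finset.sum_congr rfl (fun x _ => hterm x)]
      rw [Finset.sum_ite, Finset.sum_const_zero, zero_add, Finset.sum_const, smul_eq_mul]
      congr 1
      have hcardU' : Fintype.card ↥U' = Fintype.card F ^ (k + 1) := by
        rw [← Nat.card_eq_fintype_card, Module.natCard_eq_pow_finrank (K := F), hU'k,
          Nat.card_eq_fintype_card]
      have h1 : Finset.univ.filter (fun x : ↥U' => ¬ x = 0) = Finset.univ.erase 0 := by
        ext x; simp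
      rw [h1, Finset.card_erase_of_mem (Finset.mem_univ _), Finset.card_univ, hcardU']
    have h2 := htyp.2 1 one_ne_zero
    rw [hcount] at h2
    have hq : 1 ≤ Fintype.card F ^ (k + 1) := Nat.one_le_pow _ _ Fintype.card_pos
    push_cast [Nat.cast_sub hq] at h2
    have hq0 : (Fintype.card F : ℤ) ^ k ≠ 0 :=
      pow_ne_zero _ (by exact_mod_cast (Fintype.card_ne_zero : Fintype.card F ≠ 0))
    have h3 : (Fintype.card F : ℤ) ^ k * (ε - 1) = 0 := by
      have e : (Fintype.card F : ℤ) ^ (2 * k + 1) =
          (Fintype.card F : ℤ) ^ (k + 1) * (Fintype.card F : ℤ) ^ k := by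
        rw [← pow_add]; congr 1; omega
      rw [e] at h2
      linear_combination h2
    rcases mul_eq_zero.1 h3 with h | h
    · exact absurd h hq0
    · omega

set_option linter.unusedVariables false in
/-- WIBD -/
theorem wi_bound (hf : QFacts F) (hQ : IsQuad Q B) (hnd : Nondeg B) (k : ℕ)
    (hdim : finrank F V = 2 * k + 2) (ε : ℤ) (htyp : IsTyp Q k ε)
    (U : Submodule F V) (hU : TS Q U) : finrank F U ≤ wi k ε :=
  wibd_core hQ hnd k hdim ε htyp U hU

set_option linter.unusedVariables false in
/-- WIBD -/
theorem sub_wi_bound (hf : QFacts F) (hQ : IsQuad Q B)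
    (K : Submodule F V) (e : ℕ) (η : ℤ) (hK : SubTyp Q B K e η) (U : Submodule F V)
    (hUK : U ≤ K) (hU : TS Q U) : finrank F U ≤ wi e η := by
  obtain ⟨hnd, hdim, htyp⟩ := hK
  have h := wibd_core (hQ.res K) hnd e hdim η htyp (U.comap K.subtype) (by
    intro w hw
    exact hU _ hw)
  have hfin : finrank F (U.comap K.subtype) = finrank F U :=
    (Submodule.comapSubtypeEquivOfLe hUK).finrank_eq
  rw [← hfin]
  exact h

end Cfsg.Agent.Lib.Helper98.T73
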