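import Mathlib
import Cfsg.Prelude.Def_Solvable
import Cfsg.Agent.Lib.Helper61.TT5Defs
import Cfsg.Agent.Lib.Helper61.TT5Basic

set_option autoImplicit false

namespace Cfsg.Agent.Lib.Helper31.TT5

open Cfsg.Agent.Lib.Helper61.TT5

variable {G : Type*} [Group G] {D : Set G}

theorem h2_of_hyp [Finite G] (hT : TS D)
    (hloc : ∀ d ∈ D, Nat.card (Cfsg.pCore 3 ↥(Subgroup.centralizer ({d} : Set G))) = 3) :
    H2 D := by
  intro d hd a b ha hb hab M hMn hM3 x hxM hxd
  have h3 : Fact (Nat.Prime 3) := ⟨Nat.prime_three⟩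
  have haa := hT.sq a ha.1
  have hbb := hT.sq b hb.1
  have hbr : a * b * a = b * a * b := hT.braid_of_not_commute ha.1 hb.1 hab
  have ht3 : (a * b) ^ 3 = 1 := by
    calc (a * b) ^ 3 = a * (b * a * b) * (a * b) := by rw [pow_succ, pow_two]; group
      _ = a * (a * b * a) * (a * b) := by rw [hbr]
      _ = (a * a) * b * (a * a) * b := by group
      _ = 1 := by rw [haa, one_mul, mul_one, hbb]
  have htinv : (a * b)⁻¹ = b * a := by
    rw [mul_inv_rev, hT.inv_eq ha.1, hT.inv_eq hb.1]
  have ht1 : a * b ≠ 1 := by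
    intro h
    apply hab
    have h1 : b * a = 1 := by rw [← htinv, h, inv_one]
    rw [h, h1]
  have hmemC : ∀ y, Nb D d y → y ∈ Subgroup.centralizer ({d} : Set G) := by
    intro y hy
    rw [Subgroup.mem_centralizer_iff]
    intro h hh
    rw [Set.mem_singleton_iff] at hh
    rw [hh]
    exact hy.2.2.eq
  have htC : a * b ∈ Subgroup.centralizer ({d} : Set G) :=
    Subgroup.mul_mem _ (hmemC a ha) (hmemC b hb)
  have hconj : ∀ c ∈ Subgroup.centralizer ({d} : Set G),
      c * (a * b) * c⁻¹ = a * b ∨ c * (a * b) * c⁻¹ = b * a := by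
    intro c hc
    have hcd : c * d * c⁻¹ = d := by
      have h1 := Subgroup.mem_centralizer_iff.mp hc d (Set.mem_singleton d)
      rw [← h1, mul_inv_cancel_right]
    have ha' : Nb D d (c * a * c⁻¹) := by
      have h1 := nb_conj hT c ha
      rwa [hcd] at h1
    have hb' : Nb D d (c * b * c⁻¹) := by
      have h1 := nb_conj hT c hb
      rwa [hcd] at h1
    have hprod : c * (a * b) * c⁻¹ = (c * a * c⁻¹) * (c * b * c⁻¹) := by group
    have hne : c * a * c⁻¹ ≠ c * b * c⁻¹ := by
      intro h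
      apply hab
      have h1 : a = b := by
        have h2 := congrArg (fun z => c⁻¹ * z * c) h
        simpa [mul_assoc] using h2
      rw [h1]
    rw [hprod]
    have hl := line3 hT hd ha hb hab
    rcases hl _ ha' with h1 | h1 | h1 <;> rcases hl _ hb' with h2 | h2 | h2
    all_goals (rw [h1, h2] at hne ⊢)
    · exact absurd rfl hne
    · left; rfl
    · right
      rw [← mul_assoc, ← mul_assoc, haa, one_mul]
    · right; rfl
    · exact absurd rfl hne
    · left
      calc b * (a * b * a) = (b * a * b) * a := by group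
        _ = (a * b * a) * a := by rw [hbr]
        _ = a * b := by rw [mul_assoc, haa, mul_one]
    · left
      rw [mul_assoc, haa, mul_one]
    · right
      calc (a * b * a) * b = a * (b * a * b) := by group
        _ = a * (a * b * a) := by rw [hbr]
        _ = b * a := by rw [← mul_assoc, ← mul_assoc, haa, one_mul]
    · exact absurd rfl hne
  have hTn : (Subgroup.zpowers
      (⟨a * b, htC⟩ : ↥(Subgroup.centralizer ({d} : Set G)))).Normal := by
    constructor
    intro z hz c
    obtain ⟨k, rfl⟩ := Subgroup.mem_zpowers_iff.mp hz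
    have h1 : c * (⟨a * b, htC⟩ : ↥(Subgroup.centralizer ({d} : Set G))) ^ k * c⁻¹ =
        (c * ⟨a * b, htC⟩ * c⁻¹) ^ k := by
      rw [conj_zpow]
    rw [h1]
    apply Subgroup.zpow_mem
    rcases hconj (c : G) c.2 with h | h
    · have h2 : c * ⟨a * b, htC⟩ * c⁻¹ =
          (⟨a * b, htC⟩ : ↥(Subgroup.centralizer ({d} : Set G))) := Subtype.ext h
      rw [h2]
      exact Subgroup.mem_zpowers _
    · have h2 : c * ⟨a * b, htC⟩ * c⁻¹ =
          (⟨a * b, htC⟩ : ↥(Subgroup.centralizer ({d} : Set G)))⁻¹ := by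
        apply Subtype.ext
        rw [Subgroup.coe_inv]
        show (c : G) * (a * b) * (c : G)⁻¹ = (a * b)⁻¹
        rw [htinv]
        exact h
      rw [h2]
      exact Subgroup.inv_mem _ (Subgroup.mem_zpowers _)
  have hord : orderOf (⟨a * b, htC⟩ : ↥(Subgroup.centralizer ({d} : Set G))) = 3 := by
    rw [← Subgroup.orderOf_coe]
    exact orderOf_eq_prime ht3 ht1
  have hT3 : IsPGroup 3 ↥(Subgroup.zpowers
      (⟨a * b, htC⟩ : ↥(Subgroup.centralizer ({d} : Set G)))) := by
    apply IsPGroup.of_card (n := 1)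
    rw [Nat.card_zpowers, pow_one, hord]
  have hTle : Subgroup.zpowers (⟨a * b, htC⟩ : ↥(Subgroup.centralizer ({d} : Set G))) ≤
      Cfsg.pCore 3 ↥(Subgroup.centralizer ({d} : Set G)) := le_sSup ⟨hTn, hT3⟩
  have hTeq : Subgroup.zpowers (⟨a * b, htC⟩ : ↥(Subgroup.centralizer ({d} : Set G))) =
      Cfsg.pCore 3 ↥(Subgroup.centralizer ({d} : Set G)) := by
    apply Subgroup.eq_of_le_of_card_ge hTle
    rw [hloc d hd, Nat.card_zpowers, hord]
  have hxC : x ∈ Subgroup.centralizer ({d} : Set G) := by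
    rw [Subgroup.mem_centralizer_iff]
    intro h hh
    rw [Set.mem_singleton_iff] at hh
    rw [hh]
    exact hxd.symm
  have hMC : M.subgroupOf (Subgroup.centralizer ({d} : Set G)) ≤
      Cfsg.pCore 3 ↥(Subgroup.centralizer ({d} : Set G)) := by
    apply le_sSup
    have hn : (M.subgroupOf (Subgroup.centralizer ({d} : Set G))).Normal := inferInstance
    refine ⟨hn, ?_⟩
    rw [← Subgroup.comap_subtype]
    exact hM3.comap_subtype
  have hx : (⟨x, hxC⟩ : ↥(Subgroup.centralizer ({d} : Set G))) ∈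
      Subgroup.zpowers (⟨a * b, htC⟩ : ↥(Subgroup.centralizer ({d} : Set G))) := by
    rw [hTeq]
    exact hMC hxM
  obtain ⟨n, hn⟩ := mem_powers_iff_mem_zpowers.mpr hx
  have hn' : (a * b) ^ n = x := by
    have h1 := congrArg (Subtype.val : ↥(Subgroup.centralizer ({d} : Set G)) → G) hn
    exact h1
  rw [pow_eq_pow_mod n ht3] at hn'
  have hcases : n % 3 = 0 ∨ n % 3 = 1 ∨ n % 3 = 2 := by omega
  rcases hcases with h | h | h <;> rw [h] at hn'
  · left
    rw [← hn', pow_zero]
  · right; left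
    rw [← hn', pow_one]
  · right; right
    rw [← hn', ← htinv]
    exact eq_inv_of_mul_eq_one_left (by rw [← pow_succ]; exact ht3)

end Cfsg.Agent.Lib.Helper31.TT5
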