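import Mathlib
import Cfsg.Prelude.Def_Balance
import Cfsg.Agent.Lib.Helper31.NEA4

/-!
# 2-connectedness of 3-groups of rank at least 4 (S1338)

* `card_le_cube` : an element `e` with `e ^ 3 = 1` acting on a normal elementary abelian 3-subgroup
  `A` satisfies `|A| ≤ |C_A(e)| ^ 3` (Jordan blocks have size at most 3).
* `exists_commuting` : if a 3-group has a normal elementary abelian subgroup of order 81, no
  elementary abelian subgroup of order 9 is maximal.
* `isKConnected_three`.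
-/

set_option autoImplicit false

namespace Cfsg.Agent.Lib.Helper31.TwoConn3

open Cfsg Cfsg.Agent.Lib.Helper31

universe u

theorem comm_identity {M : Type*} [CommGroup M] (a b c : M) :
    a / c / (c / b) / (c / b / (b / a)) = b ^ 3 / c ^ 3 := by
  have h : ∀ (x y z : Additive M), x - z - (z - y) - (z - y - (y - x)) = 3 • y - 3 • z := by
    intro x y z
    abel
  exact h (Additive.ofMul a) (Additive.ofMul b) (Additive.ofMul c)

theorem jordan3 {M : Type*} [CommGroup M] (ψ : M →* M) (hψ : ∀ v, ψ (ψ (ψ v)) = v)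
    (h3 : ∀ v : M, v ^ 3 = 1) (v : M) :
    (ψ / MonoidHom.id M) ((ψ / MonoidHom.id M) ((ψ / MonoidHom.id M) v)) = 1 := by
  have hφ : ∀ w, (ψ / MonoidHom.id M) w = ψ w / w := fun w => rfl
  simp only [hφ, map_div, hψ]
  rw [comm_identity, h3, h3, div_one]

theorem card_le_ker_mul_map {X Y : Type*} [Group X] [Group Y] [Finite X] (f : X →* Y)
    (K : Subgroup X) : Nat.card K ≤ Nat.card ↥f.ker * Nat.card ↥(K.map f) := by
  have h1 := card_eq_card_ker_mul_card_map f (K ⊔ f.ker) le_sup_right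
  have h2 : (K ⊔ f.ker).map f = K.map f := by
    rw [Subgroup.map_eq_map_iff, sup_assoc, sup_idem]
  rw [h2] at h1
  rw [← h1]
  exact Subgroup.card_le_of_le le_sup_left

section

open scoped IsMulCommutative

variable {P : Type u} [Group P]

/-- Jordan blocks of an element of order 3 on an elementary abelian 3-group have size `≤ 3`. -/
theorem card_le_cube [Finite P] {A : Subgroup P} (hAn : A.Normal) (hA : IsElementaryAbelian 3 A)
    {e : P} (he : e ^ 3 = 1) :
    Nat.card A ≤ (Nat.card ↥(A ⊓ Subgroup.centralizer ({e} : Set P))) ^ 3 := by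
  classical
  have : IsMulCommutative ↥A := hA.1
  let ψ : ↥A →* ↥A :=
    { toFun := fun a => ⟨e * a.1 * e⁻¹, hAn.conj_mem a.1 a.2 e⟩
      map_one' := by
        apply Subtype.ext
        show e * (1 : P) * e⁻¹ = 1
        group
      map_mul' := by
        intro a b
        apply Subtype.ext
        show e * (a.1 * b.1) * e⁻¹ = e * a.1 * e⁻¹ * (e * b.1 * e⁻¹)
        group }
  have hψ : ∀ v, ψ (ψ (ψ v)) = v := by
    intro v
    apply Subtype.ext
    show e * (e * (e * v.1 * e⁻¹) * e⁻¹) * e⁻¹ = v.1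
    have he' : e * e * e = 1 := by
      rw [← he]
      simp [pow_succ]
    have h1 : e * (e * (e * v.1 * e⁻¹) * e⁻¹) * e⁻¹ = (e * e * e) * v.1 * (e * e * e)⁻¹ := by
      group
    rw [h1, he']
    group
  have h3 : ∀ v : ↥A, v ^ 3 = 1 := by
    intro v
    apply Subtype.ext
    simpa using hA.2 v.1 v.2
  have hJ := jordan3 ψ hψ h3
  obtain ⟨φ, hφdef⟩ : ∃ φ : ↥A →* ↥A, φ = ψ / MonoidHom.id ↥A := ⟨_, rfl⟩
  rw [← hφdef] at hJ
  have hker : Nat.card ↥φ.ker ≤ Nat.card ↥(A ⊓ Subgroup.centralizer ({e} : Set P)) := by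
    rw [← Subgroup.card_map_of_injective (Subgroup.subtype_injective A)]
    apply Subgroup.card_le_of_le
    rintro _ ⟨x, hx, rfl⟩
    refine ⟨x.2, ?_⟩
    have h4 : φ x = 1 := hx
    rw [hφdef] at h4
    have h5 : ψ x / x = 1 := h4
    rw [div_eq_one] at h5
    have h6 : e * x.1 * e⁻¹ = x.1 := congrArg Subtype.val h5
    show x.1 ∈ Subgroup.centralizer ({e} : Set P)
    rw [Subgroup.mem_centralizer_iff]
    intro z hz
    rw [Set.mem_singleton_iff] at hz
    subst hz
    calc z * x.1 = (z * x.1 * z⁻¹) * z := by group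
      _ = x.1 * z := by rw [h6]
  have s1 := card_le_ker_mul_map φ ⊤
  have s2 := card_le_ker_mul_map φ ((⊤ : Subgroup ↥A).map φ)
  have s3 : Nat.card ↥(((⊤ : Subgroup ↥A).map φ).map φ) ≤ Nat.card ↥φ.ker := by
    apply Subgroup.card_le_of_le
    rintro _ ⟨_, ⟨x, -, rfl⟩, rfl⟩
    exact hJ x
  rw [Subgroup.card_top] at s1
  calc Nat.card A ≤ Nat.card ↥φ.ker * Nat.card ↥((⊤ : Subgroup ↥A).map φ) := s1
    _ ≤ Nat.card ↥φ.ker * (Nat.card ↥φ.ker * Nat.card ↥φ.ker) :=
      Nat.mul_le_mul_left _ (s2.trans (Nat.mul_le_mul_left _ s3))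
    _ = (Nat.card ↥φ.ker) ^ 3 := by ring
    _ ≤ _ := Nat.pow_le_pow_left hker 3

end

variable {P : Type u} [Group P]

/-- If a 3-group has a normal elementary abelian subgroup of order 81, then no elementary abelian
subgroup of order 9 is a maximal elementary abelian subgroup. -/
theorem exists_commuting [Finite P] (hP : IsPGroup 3 P) {A : Subgroup P} (hAn : A.Normal)
    (hA : IsElementaryAbelian 3 A) (hAc : Nat.card A = 3 ^ 4) {E : Subgroup P}
    (hE : IsElementaryAbelian 3 E) (hEc : Nat.card E = 3 ^ 2) :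
    ∃ x, x ∈ Subgroup.centralizer (E : Set P) ∧ x ∉ E ∧ x ^ 3 = 1 := by
  classical
  by_contra h
  push Not at h
  have hh : ∀ x ∈ Subgroup.centralizer (E : Set P), x ^ 3 = 1 → x ∈ E := by
    intro x hx h3
    by_contra hxE
    exact h x hx hxE h3
  have : Fact (Nat.Prime 3) := ⟨Nat.prime_three⟩
  have hnil : Group.IsNilpotent P := hP.isNilpotent
  have hAcomm := isMulComm_iff.mp hA.1
  have hEcomm := isMulComm_iff.mp hE.1
  have := hAn
  have hAbot : ¬ A ≤ ⊥ := by
    intro hle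
    have h1 := Subgroup.card_le_of_le hle
    rw [hAc, Subgroup.card_bot] at h1
    norm_num at h1
  obtain ⟨x₀, hx₀A, hx₀ne, hx₀c⟩ := exists_central_mod hAbot
  have hx₀comm : ∀ g, x₀ * g = g * x₀ := by
    intro g
    have h1 := hx₀c g
    rw [Subgroup.mem_bot] at h1
    have h2 : x₀ * g = (x₀ * g * x₀⁻¹ * g⁻¹) * (g * x₀) := by group
    rw [h2, h1, one_mul]
  have hx₀E : x₀ ∈ E := by
    apply hh x₀ _ (hA.2 x₀ hx₀A)
    rw [Subgroup.mem_centralizer_iff]
    intro k _
    exact (hx₀comm k).symm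
  have hEA : ¬ E ≤ A := by
    intro hle
    have h1 : A ≤ E := by
      intro a ha
      apply hh a _ (hA.2 a ha)
      rw [Subgroup.mem_centralizer_iff]
      intro k hk
      exact hAcomm k (hle hk) a ha
    have h2 := Subgroup.card_le_of_le h1
    rw [hAc, hEc] at h2
    norm_num at h2
  obtain ⟨e, heE, heA⟩ := SetLike.not_le_iff_exists.mp hEA
  have hgen : E ≤ Subgroup.zpowers x₀ ⊔ Subgroup.zpowers e := by
    have hle : Subgroup.zpowers x₀ ⊔ Subgroup.zpowers e ≤ E :=
      sup_le (Subgroup.zpowers_le.mpr hx₀E) (Subgroup.zpowers_le.mpr heE)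
    have hlt : Subgroup.zpowers x₀ < Subgroup.zpowers x₀ ⊔ Subgroup.zpowers e := by
      refine lt_of_le_of_ne le_sup_left (fun h => heA ?_)
      have h1 : e ∈ Subgroup.zpowers x₀ := by
        rw [h]
        exact Subgroup.mem_sup_right (Subgroup.mem_zpowers e)
      exact (Subgroup.zpowers_le.mpr hx₀A) h1
    have hbot : (⊥ : Subgroup P) < Subgroup.zpowers x₀ := by
      rw [bot_lt_iff_ne_bot]
      intro h
      apply hx₀ne
      rw [← h]
      exact Subgroup.mem_zpowers x₀
    have c1 := card_lt_card_of_lt hbot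
    have c2 := card_lt_card_of_lt hlt
    obtain ⟨i, hi⟩ := card_pow_of_isPGroup hP (Subgroup.zpowers x₀)
    obtain ⟨j, hj⟩ := card_pow_of_isPGroup hP (Subgroup.zpowers x₀ ⊔ Subgroup.zpowers e)
    rw [Subgroup.card_bot, hi] at c1
    rw [hi, hj] at c2
    have hi1 : 1 ≤ i := by
      by_contra hi0
      have : i = 0 := by omega
      rw [this] at c1
      norm_num at c1
    have hj2 : i < j := (Nat.pow_lt_pow_iff_right (by norm_num)).mp c2
    refine (Subgroup.eq_of_le_of_card_ge hle ?_).ge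
    rw [hEc, hj]
    exact Nat.pow_le_pow_right (by norm_num) (by omega)
  have hCA : A ⊓ Subgroup.centralizer ({e} : Set P) ≤ E ⊓ A := by
    intro a ha
    refine ⟨hh a ?_ (hA.2 a ha.1), ha.1⟩
    have h6 : Subgroup.zpowers x₀ ⊔ Subgroup.zpowers e ≤ Subgroup.centralizer ({a} : Set P) := by
      refine sup_le ?_ ?_
      · rw [Subgroup.zpowers_le, Subgroup.mem_centralizer_iff]
        intro z hz
        rw [Set.mem_singleton_iff] at hz
        subst hz
        exact (hx₀comm z).symm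
      · rw [Subgroup.zpowers_le, Subgroup.mem_centralizer_iff]
        intro z hz
        rw [Set.mem_singleton_iff] at hz
        subst hz
        have h7 : z ∈ Subgroup.centralizer ({e} : Set P) := ha.2
        rw [Subgroup.mem_centralizer_iff] at h7
        exact (h7 e rfl).symm
    rw [Subgroup.mem_centralizer_iff]
    intro k hk
    exact (h6 (hgen hk) a rfl).symm
  have hEAc : Nat.card ↥(E ⊓ A) ≤ 3 := by
    have hlt : E ⊓ A < E := lt_of_le_of_ne inf_le_left (fun h => hEA (h ▸ inf_le_right))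
    have c1 := card_lt_card_of_lt hlt
    obtain ⟨i, hi⟩ := card_pow_of_isPGroup hP (E ⊓ A)
    rw [hi, hEc] at c1
    have hi2 : i < 2 := (Nat.pow_lt_pow_iff_right (by norm_num)).mp c1
    rw [hi]
    calc 3 ^ i ≤ 3 ^ 1 := Nat.pow_le_pow_right (by norm_num) (by omega)
      _ = 3 := by norm_num
  have hJ := card_le_cube hAn hA (hE.2 e heE)
  have h8 : Nat.card ↥(A ⊓ Subgroup.centralizer ({e} : Set P)) ≤ 3 :=
    (Subgroup.card_le_of_le hCA).trans hEAc
  have h9 : Nat.card A ≤ 3 ^ 3 := hJ.trans (Nat.pow_le_pow_left h8 3)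
  rw [hAc] at h9
  norm_num at h9

/-- A finite 3-group of 3-rank at least 4 is 2-connected for the prime 3. -/
theorem isKConnected_three [Finite P] (hP : IsPGroup 3 P) (hrk : ¬ PRankLE 3 3 P) :
    IsKConnected 3 2 P := by
  classical
  have : Fact (Nat.Prime 3) := ⟨Nat.prime_three⟩
  obtain ⟨W, hW, hWc⟩ := exists_of_not_pRankLE_top hrk
  obtain ⟨j, hj⟩ := card_pow_of_isPGroup hP W
  have hj4 : 4 ≤ j := by
    rw [hj] at hWc
    have := (Nat.pow_lt_pow_iff_right (by norm_num)).mp hWc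
    omega
  have hdvd : 3 ^ 4 ∣ Nat.card ↥W := by
    rw [hj]
    exact pow_dvd_pow 3 hj4
  obtain ⟨E₄', hE₄'c⟩ := Sylow.exists_subgroup_card_pow_prime 3 hdvd
  have hE₄ : IsElementaryAbelian 3 (E₄'.map W.subtype) := by
    apply elemAb_of_le _ hW
    rintro _ ⟨y, -, rfl⟩
    exact y.2
  have hE₄c : Nat.card ↥(E₄'.map W.subtype) = 3 ^ 4 := by
    rw [Subgroup.card_map_of_injective (Subgroup.subtype_injective _), hE₄'c]
  obtain ⟨A, hAn, hA, hAc⟩ :=
    NEA4.exists_normal_elemAb_four (p := 3) (by norm_num) hP _ hE₄ hE₄c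
  have := hAn
  obtain ⟨U, hUA, hUn, hUc⟩ := exists_normal_le_card_eq hP (N := A) (k := 2) (by
    rw [hAc]
    norm_num)
  have := hUn
  have hU : IsElementaryAbelian 3 U := elemAb_of_le hUA hA
  unfold IsKConnected
  have hbig : ∀ E : Subgroup P, IsElementaryAbelian 3 E → 3 ^ 3 ≤ Nat.card E →
      Relation.ReflTransGen
        (fun A B : Subgroup P => IsElementaryAbelian 3 A ∧ 3 ^ 2 ≤ Nat.card ↥A ∧
          IsElementaryAbelian 3 B ∧ 3 ^ 2 ≤ Nat.card ↥B ∧ ∀ a ∈ A, ∀ b ∈ B, a * b = b * a) E A := by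
    intro E hE hEc
    have h1 := card_le_mul_card_inf_centralizer hP hUc E
    have hD : 3 ^ 2 ≤ Nat.card ↥(E ⊓ Subgroup.centralizer (U : Set P)) := by
      have e1 : (3 : ℕ) ^ 3 = 27 := by norm_num
      have e2 : (3 : ℕ) ^ 2 = 9 := by norm_num
      rw [e1] at hEc
      rw [e2]
      omega
    have hE9 : 3 ^ 2 ≤ Nat.card E := le_trans (by norm_num) hEc
    have hDel : IsElementaryAbelian 3 (E ⊓ Subgroup.centralizer (U : Set P)) :=
      elemAb_of_le inf_le_left hE
    refine Relation.ReflTransGen.head (b := E ⊓ Subgroup.centralizer (U : Set P))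
      ⟨hE, hE9, hDel, hD, fun a ha b hb => isMulComm_iff.mp hE.1 a ha b hb.1⟩ ?_
    refine Relation.ReflTransGen.head (b := U)
      ⟨hDel, hD, hU, hUc.ge, fun a ha b hb => (ha.2 b hb).symm⟩ ?_
    refine Relation.ReflTransGen.single
      ⟨hU, hUc.ge, hA, ?_, fun a ha b hb => isMulComm_iff.mp hA.1 a (hUA ha) b hb⟩
    rw [hAc]
    norm_num
  have hall : ∀ E : Subgroup P, IsElementaryAbelian 3 E → 3 ^ 2 ≤ Nat.card E →
      Relation.ReflTransGen
        (fun A B : Subgroup P => IsElementaryAbelian 3 A ∧ 3 ^ 2 ≤ Nat.card ↥A ∧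
          IsElementaryAbelian 3 B ∧ 3 ^ 2 ≤ Nat.card ↥B ∧ ∀ a ∈ A, ∀ b ∈ B, a * b = b * a) E A := by
    intro E hE hEc
    by_cases h27 : 3 ^ 3 ≤ Nat.card E
    · exact hbig E hE h27
    · obtain ⟨i, hi⟩ := card_pow_of_isPGroup hP E
      have hE9 : Nat.card E = 3 ^ 2 := by
        rw [hi] at hEc h27 ⊢
        have h1 := (Nat.pow_le_pow_iff_right (by norm_num)).mp hEc
        have h2 : i < 3 := by
          by_contra hcon
          exact h27 (Nat.pow_le_pow_right (by norm_num) (by omega))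
        have : i = 2 := by omega
        rw [this]
      obtain ⟨x, hxc, hxE, hx3⟩ := exists_commuting hP hAn hA hAc hE hE9
      have hE₁ : IsElementaryAbelian 3 (E ⊔ Subgroup.zpowers x) := by
        apply elemAb_sup hE (elemAb_zpowers hx3)
        intro a ha b hb
        exact (Subgroup.zpowers_le.mpr hxc) hb a ha
      have hlt : E < E ⊔ Subgroup.zpowers x := by
        refine lt_of_le_of_ne le_sup_left (fun h => hxE ?_)
        rw [h]
        exact Subgroup.mem_sup_right (Subgroup.mem_zpowers x)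
      have c1 := card_lt_card_of_lt hlt
      obtain ⟨j, hj⟩ := card_pow_of_isPGroup hP (E ⊔ Subgroup.zpowers x)
      have hj3 : 3 ^ 3 ≤ Nat.card ↥(E ⊔ Subgroup.zpowers x) := by
        rw [hE9, hj] at c1
        have := (Nat.pow_lt_pow_iff_right (by norm_num)).mp c1
        rw [hj]
        exact Nat.pow_le_pow_right (by norm_num) (by omega)
      refine Relation.ReflTransGen.head (b := E ⊔ Subgroup.zpowers x)
        ⟨hE, hEc, hE₁, le_trans (by norm_num) hj3,
          fun a ha b hb => isMulComm_iff.mp hE₁.1 a (Subgroup.mem_sup_left ha) b hb⟩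
        (hbig _ hE₁ hj3)
  have hrev : ∀ X Y : Subgroup P,
      Relation.ReflTransGen
        (fun A B : Subgroup P => IsElementaryAbelian 3 A ∧ 3 ^ 2 ≤ Nat.card ↥A ∧
          IsElementaryAbelian 3 B ∧ 3 ^ 2 ≤ Nat.card ↥B ∧ ∀ a ∈ A, ∀ b ∈ B, a * b = b * a) X Y →
      Relation.ReflTransGen
        (fun A B : Subgroup P => IsElementaryAbelian 3 A ∧ 3 ^ 2 ≤ Nat.card ↥A ∧
          IsElementaryAbelian 3 B ∧ 3 ^ 2 ≤ Nat.card ↥B ∧ ∀ a ∈ A, ∀ b ∈ B, a * b = b * a) Y X := by
    intro X Y h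
    induction h with
    | refl => exact Relation.ReflTransGen.refl
    | tail _ hbc ih =>
      exact Relation.ReflTransGen.head
        ⟨hbc.2.2.1, hbc.2.2.2.1, hbc.1, hbc.2.1, fun a ha b hb => (hbc.2.2.2.2 b hb a ha).symm⟩ ih
  intro E E' hE hEc hE' hE'c
  exact (hall E hE hEc).trans (hrev _ _ (hall E' hE' hE'c))

end Cfsg.Agent.Lib.Helper31.TwoConn3
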