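import Cfsg.Agent.Lib.Helper47.UniDefs

/-!
# Piece BASIS of S2676 (poster helper47): a frame family is a basis
-/

set_option autoImplicit false

namespace Cfsg.Agent.Lib.Helper31.Uni

open Cfsg.Agent.Lib.Helper47 Module

universe u

variable {F : Type u} [Field F]

theorem frame_basis {V : Type*} [AddCommGroup V] [Module F V] [FiniteDimensional F V]
    {ι : Type*} [Fintype ι] {B : V → V → F} {N : V →ₗ[F] V} {d : ι → ℕ} {G : ι → ι → F}
    {x : ι → V} (hB : IsSForm (RingHom.id F) (-1) B) (hx : IsFrame B N d G x) :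
    LinearIndependent F (fun s : (i : ι) × Fin (d i) => (N ^ (s.2 : ℕ)) (x s.1)) ∧
    Submodule.span F (Set.range (fun s : (i : ι) × Fin (d i) => (N ^ (s.2 : ℕ)) (x s.1))) = ⊤ := by
  classical
  have hli : LinearIndependent F (fun s : (i : ι) × Fin (d i) => (N ^ (s.2 : ℕ)) (x s.1)) := by
    rw [Fintype.linearIndependent_iff]
    intro c hc
    rintro ⟨i₀, a₀⟩
    have hpair : ∀ (k : ι) (b : ℕ), ∑ s : (i : ι) × Fin (d i),
        c s * B ((N ^ (s.2 : ℕ)) (x s.1)) ((N ^ b) (x k)) = 0 := by
      intro k b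
      have h := congrArg (hB.lin ((N ^ b) (x k))) hc
      rw [map_sum, map_zero] at h
      rw [← h]
      apply Finset.sum_congr rfl
      intro s _
      rw [map_smul, smul_eq_mul]
      rfl
    have ha₀ : (a₀ : ℕ) < d i₀ := a₀.2
    -- the coefficients at level `a₀`
    let c' : ι → F := fun i => if h : (a₀ : ℕ) < d i then c ⟨i, ⟨(a₀ : ℕ), h⟩⟩ else 0
    have hkey : ∀ k : ι, d k = (d i₀) → ∑ i : ι, (if d i = (d i₀) then c' i * G i k else 0) = 0 := by
      intro k hk
      have h := hpair k ((d i₀) - 1 - a₀)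
      simp only [hx.gram] at h
      rw [Fintype.sum_sigma] at h
      have hi : ∀ i : ι, ∑ a : Fin (d i), c ⟨i, a⟩ *
          (if d i = d k ∧ (a : ℕ) + ((d i₀) - 1 - a₀) + 1 = d i then (-1) ^ (a : ℕ) * G i k else 0)
          = if d i = (d i₀) then (-1) ^ (a₀ : ℕ) * (c' i * G i k) else 0 := by
        intro i
        by_cases hij : d i = (d i₀)
        · rw [if_pos hij]
          have hlt : (a₀ : ℕ) < d i := by rw [hij]; exact ha₀
          rw [Finset.sum_eq_single (⟨(a₀ : ℕ), hlt⟩ : Fin (d i))]
          · have hcond : d i = d k ∧ (a₀ : ℕ) + ((d i₀) - 1 - a₀) + 1 = d i := ⟨by rw [hij, hk], by omega⟩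
            rw [if_pos hcond]
            show c ⟨i, ⟨(a₀ : ℕ), hlt⟩⟩ * ((-1) ^ (a₀ : ℕ) * G i k) = _
            have hc' : c' i = c ⟨i, ⟨(a₀ : ℕ), hlt⟩⟩ := dif_pos hlt
            rw [hc']
            ring
          · intro a _ hne
            have hcond : ¬ (d i = d k ∧ (a : ℕ) + ((d i₀) - 1 - a₀) + 1 = d i) := by
              rintro ⟨-, h2⟩
              apply hne
              apply Fin.ext
              show (a : ℕ) = (a₀ : ℕ)
              omega
            rw [if_neg hcond, mul_zero]
          · intro h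
            exact absurd (Finset.mem_univ _) h
        · rw [if_neg hij]
          apply Finset.sum_eq_zero
          intro a _
          have hcond : ¬ (d i = d k ∧ (a : ℕ) + ((d i₀) - 1 - a₀) + 1 = d i) := by
            rintro ⟨h1, -⟩
            exact hij (h1.trans hk)
          rw [if_neg hcond, mul_zero]
      simp only [hi] at h
      have h' : (-1 : F) ^ (a₀ : ℕ) * ∑ i : ι, (if d i = (d i₀) then c' i * G i k else 0) = 0 := by
        rw [Finset.mul_sum]
        refine Eq.trans (Finset.sum_congr rfl ?_) h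
        intro i _
        split_ifs <;> simp
      rcases mul_eq_zero.1 h' with h0 | h0
      · exact absurd h0 (pow_ne_zero _ (neg_ne_zero.2 one_ne_zero))
      · exact h0
    let v : {i : ι // d i = (d i₀)} → F := fun i' => c' i'.1
    have hv : ∀ w, layerForm d G (d i₀) v w = 0 := by
      intro w
      unfold layerForm gForm
      rw [Finset.sum_comm]
      apply Finset.sum_eq_zero
      intro k' _
      rw [← Finset.sum_mul]
      have hk0 : ∑ a : {i : ι // d i = (d i₀)}, v a * G a.1 k'.1 = 0 := by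
        have h1 := hkey k'.1 k'.2
        rw [← Finset.sum_filter] at h1
        rw [← h1]
        exact (Finset.sum_subtype (Finset.univ.filter (fun i => d i = (d i₀))) (by simp)
          (fun i => c' i * G i k'.1)).symm
      rw [hk0, zero_mul]
    have hv0 := hx.nondeg (d i₀) v hv
    have h0 : c' i₀ = 0 := congrFun hv0 ⟨i₀, rfl⟩
    have h1 : c' i₀ = c ⟨i₀, a₀⟩ := dif_pos ha₀
    rw [← h1, h0]
  refine ⟨hli, ?_⟩
  apply hli.span_eq_top_of_card_eq_finrank'
  rw [Fintype.card_sigma, ← hx.card]
  apply Finset.sum_congr rfl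
  intro i _
  exact Fintype.card_fin _

end Cfsg.Agent.Lib.Helper31.Uni
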